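import Mathlib
import Cfsg.Agent.H52.SnDefs
import Cfsg.Agent.H53.Basic

/-!
# SN-IFV (piece of S2942): `V = Ω₁(Z(O₂(L)))` inside `↥L`
-/

set_option autoImplicit false
open Cfsg

namespace Cfsg.Agent.H63.Sn

open Cfsg.Agent.H52.Sn

universe u

/-- Elements of `Ω₁(Z(X))` lie in `X`, centralize `X` and are of exponent 2. -/
theorem mem_omegaCenterOf {G : Type u} [Group G] (X : Subgroup G) {x : G}
    (hx : x ∈ omegaCenterOf X) :
    x ∈ X ∧ x ∈ Subgroup.centralizer (X : Set G) ∧ x ^ 2 = 1 := by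
  unfold omegaCenterOf omegaOne at hx
  induction hx using Subgroup.closure_induction with
  | mem y hy => exact ⟨(Subgroup.mem_inf.mp hy.1).1, (Subgroup.mem_inf.mp hy.1).2, hy.2⟩
  | one => exact ⟨one_mem _, one_mem _, one_pow _⟩
  | mul a b _ _ ha hb =>
    refine ⟨mul_mem ha.1 hb.1, mul_mem ha.2.1 hb.2.1, ?_⟩
    have hc : b * a = a * b := (Subgroup.mem_centralizer_iff.mp ha.2.1) b hb.1
    have hc' : Commute a b := hc.symm
    rw [hc'.mul_pow, ha.2.2, hb.2.2, one_mul]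
  | inv a _ ha =>
    refine ⟨inv_mem ha.1, inv_mem ha.2.1, ?_⟩
    rw [inv_pow, ha.2.2, inv_one]

/-- Converse of `mem_omegaCenterOf`. -/
theorem omegaCenterOf_mem {G : Type u} [Group G] (X : Subgroup G) {x : G}
    (h1 : x ∈ X) (h2 : x ∈ Subgroup.centralizer (X : Set G)) (h3 : x ^ 2 = 1) :
    x ∈ omegaCenterOf X := by
  unfold omegaCenterOf omegaOne
  exact Subgroup.subset_closure ⟨Subgroup.mem_inf.mpr ⟨h1, h2⟩, h3⟩

/-- membership in `pCoreOf`. -/
theorem mem_pCoreOf {G : Type u} [Group G] (L : Subgroup G) {x : G} :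
    x ∈ pCoreOf 2 L ↔ ∃ hx : x ∈ L, (⟨x, hx⟩ : ↥L) ∈ pCore 2 ↥L := by
  unfold pCoreOf
  constructor
  · rintro ⟨y, hy, rfl⟩
    exact ⟨y.2, hy⟩
  · rintro ⟨hx, h⟩
    exact ⟨⟨x, hx⟩, h, rfl⟩

theorem pCoreOf_le {G : Type u} [Group G] (L : Subgroup G) : pCoreOf 2 L ≤ L := by
  intro x hx
  exact ((mem_pCoreOf L).mp hx).1

/-- `L` normalizes `O₂(L)`. -/
theorem pCoreOf_conj {G : Type u} [Group G] (L : Subgroup G) {l x : G} (hl : l ∈ L)
    (hx : x ∈ pCoreOf 2 L) : l * x * l⁻¹ ∈ pCoreOf 2 L := by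
  obtain ⟨hxL, h⟩ := (mem_pCoreOf L).mp hx
  refine (mem_pCoreOf L).mpr ⟨mul_mem (mul_mem hl hxL) (inv_mem hl), ?_⟩
  have := (Cfsg.Agent.H53.pCore_normal 2 ↥L).conj_mem _ h ⟨l, hl⟩
  exact this

theorem ifV : StIfV.{u} := by
  intro G _ _ L
  have hVL : omegaCenterOf (pCoreOf 2 L) ≤ L := fun x hx =>
    pCoreOf_le L (mem_omegaCenterOf _ hx).1
  refine ⟨⟨?_⟩, ⟨⟨⟨?_⟩⟩, ?_⟩, ?_⟩
  · -- normal
    intro v hv l
    rw [Subgroup.mem_subgroupOf] at hv ⊢
    obtain ⟨h1, h2, h3⟩ := mem_omegaCenterOf _ hv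
    have hl : (l : G) ∈ L := l.2
    refine omegaCenterOf_mem _ ?_ ?_ ?_
    · simpa using pCoreOf_conj L hl h1
    · rw [Subgroup.mem_centralizer_iff]
      intro q hq
      have hq' : (l : G)⁻¹ * q * ((l : G)⁻¹)⁻¹ ∈ pCoreOf 2 L := pCoreOf_conj L (inv_mem hl) hq
      have hc := (Subgroup.mem_centralizer_iff.mp h2) _ hq'
      simp only [Subgroup.coe_mul, Subgroup.coe_inv, inv_inv] at hc ⊢
      calc q * ((l : G) * (v : G) * (l : G)⁻¹)
          = (l : G) * (((l : G)⁻¹ * q * (l : G)) * (v : G)) * (l : G)⁻¹ := by group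
        _ = (l : G) * ((v : G) * ((l : G)⁻¹ * q * (l : G))) * (l : G)⁻¹ := by rw [hc]
        _ = (l : G) * (v : G) * (l : G)⁻¹ * q := by group
    · simp only [Subgroup.coe_mul, Subgroup.coe_inv]
      rw [conj_pow, h3, mul_one, mul_inv_cancel]
  · -- commutative
    rintro ⟨a, ha⟩ ⟨b, hb⟩
    rw [Subgroup.mem_subgroupOf] at ha hb
    have h1 := (mem_omegaCenterOf _ ha)
    have h2 := (mem_omegaCenterOf _ hb)
    have hc := (Subgroup.mem_centralizer_iff.mp h1.2.1) _ h2.1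
    apply Subtype.ext
    apply Subtype.ext
    simpa using hc.symm
  · -- exponent 2
    intro a ha
    rw [Subgroup.mem_subgroupOf] at ha
    have h1 := (mem_omegaCenterOf _ ha)
    apply Subtype.ext
    simpa using h1.2.2
  · -- O₂(L) centralizes V
    intro q hq
    rw [Subgroup.mem_centralizer_iff]
    intro v hv
    have hv' : (v : G) ∈ omegaCenterOf (pCoreOf 2 L) := Subgroup.mem_subgroupOf.mp hv
    have h1 := (mem_omegaCenterOf _ hv')
    have hqQ : (q : G) ∈ pCoreOf 2 L := (mem_pCoreOf L).mpr ⟨q.2, hq⟩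
    have hc := (Subgroup.mem_centralizer_iff.mp h1.2.1) _ hqQ
    apply Subtype.ext
    simpa using hc.symm

end Cfsg.Agent.H63.Sn

universe u in
example : Cfsg.Agent.H52.Sn.StIfV.{u} := Cfsg.Agent.H63.Sn.ifV.{u}
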