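import Mathlib
import Cfsg.Agent.H31.BG9b
import Cfsg.Prelude.Def_OddOrderLocal

set_option autoImplicit false
set_option linter.unusedSectionVars false
set_option linter.unusedVariables false

/-!
# Bender–Glauberman Theorem 10.1 (helper63): conjugates of a maximal subgroup `M` containing a
`σ(M)`-subgroup are fused by its centralizer.  Parametric in the Uniqueness Theorem.
-/

namespace Cfsg.Agent.H63.Sig

open Cfsg Subgroup
open scoped Pointwise

universe u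

variable {G : Type u} [Group G]

theorem map_conj_eq_smul (g : G) (H : Subgroup G) :
    H.map (MulAut.conj g).toMonoidHom = MulAut.conj g • H := rfl

theorem mem_cj {g x : G} {H : Subgroup G} : x ∈ MulAut.conj g • H ↔ g⁻¹ * x * g ∈ H := by
  rw [Subgroup.mem_pointwise_smul_iff_inv_smul_mem, MulAut.smul_def, ← map_inv,
    MulAut.conj_apply, inv_inv]

theorem cj_mul (g h : G) (H : Subgroup G) :
    MulAut.conj (g * h) • H = MulAut.conj g • (MulAut.conj h • H) := by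
  rw [map_mul, mul_smul]

theorem cj_one (H : Subgroup G) : MulAut.conj (1 : G) • H = H := by
  rw [map_one, one_smul]

theorem cj_inv_cj (g : G) (H : Subgroup G) : MulAut.conj g⁻¹ • (MulAut.conj g • H) = H := by
  rw [← cj_mul, inv_mul_cancel, cj_one]

theorem cj_cj_inv (g : G) (H : Subgroup G) : MulAut.conj g • (MulAut.conj g⁻¹ • H) = H := by
  rw [← cj_mul, mul_inv_cancel, cj_one]

theorem cj_mono (g : G) {H K : Subgroup G} (h : H ≤ K) : MulAut.conj g • H ≤ MulAut.conj g • K :=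
  Subgroup.pointwise_smul_le_pointwise_smul_iff.mpr h

theorem le_cj_inv {g : G} {H K : Subgroup G} (h : MulAut.conj g • H ≤ K) :
    H ≤ MulAut.conj g⁻¹ • K := by
  have := cj_mono g⁻¹ h
  rwa [cj_inv_cj] at this

theorem cj_eq_self_of_mem_normalizer {c : G} {X : Subgroup G} (hc : c ∈ normalizer (X : Set G)) :
    MulAut.conj c • X = X := by
  ext x
  rw [mem_cj]
  have hc' : c⁻¹ ∈ normalizer (X : Set G) := inv_mem hc
  have := (Subgroup.mem_normalizer_iff.mp hc') x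
  rw [inv_inv] at this
  exact this.symm

theorem isPGroup_cj {p : ℕ} (g : G) {H : Subgroup G} (h : IsPGroup p H) :
    IsPGroup p (MulAut.conj g • H : Subgroup G) :=
  h.map (MulAut.conj g).toMonoidHom

theorem card_cj [Finite G] (g : G) (H : Subgroup G) :
    Nat.card (MulAut.conj g • H : Subgroup G) = Nat.card H :=
  (Nat.card_congr (Subgroup.equivSMul (MulAut.conj g) H).toEquiv).symm

theorem centralizer_cj (g : G) (H : Subgroup G) :
    centralizer ((MulAut.conj g • H : Subgroup G) : Set G) =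
      MulAut.conj g • centralizer (H : Set G) := by
  ext x
  rw [mem_cj, Subgroup.mem_centralizer_iff, Subgroup.mem_centralizer_iff]
  constructor
  · intro h y hy
    have hy' : g * y * g⁻¹ ∈ (MulAut.conj g • H : Subgroup G) := by
      rw [mem_cj]; simpa [mul_assoc] using hy
    have := h _ hy'
    calc y * (g⁻¹ * x * g) = g⁻¹ * ((g * y * g⁻¹) * x) * g := by simp [mul_assoc]
      _ = g⁻¹ * (x * (g * y * g⁻¹)) * g := by rw [this]
      _ = g⁻¹ * x * g * y := by simp [mul_assoc]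
  · intro h y hy
    have hy' : g⁻¹ * y * g ∈ H := mem_cj.mp hy
    have := h _ hy'
    calc y * x = g * ((g⁻¹ * y * g) * (g⁻¹ * x * g)) * g⁻¹ := by simp [mul_assoc]
      _ = g * ((g⁻¹ * x * g) * (g⁻¹ * y * g)) * g⁻¹ := by rw [this]
      _ = x * y := by simp [mul_assoc]

theorem isCoatom_cj (g : G) {M : Subgroup G} (hM : IsCoatom M) :
    IsCoatom (MulAut.conj g • M : Subgroup G) := by
  refine ⟨?_, ?_⟩
  · intro h
    apply hM.1
    have := congrArg (fun K => MulAut.conj g⁻¹ • K) h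
    simp only [cj_inv_cj] at this
    rw [this, eq_top_iff]
    intro x _
    rw [mem_cj]; exact Subgroup.mem_top _
  · intro K hK
    have h1 : M < MulAut.conj g⁻¹ • K := by
      refine lt_of_le_of_ne (le_cj_inv hK.le) ?_
      intro h
      apply hK.ne
      rw [h, cj_cj_inv]
    have h2 := hM.2 _ h1
    have := congrArg (fun K => MulAut.conj g • K) h2
    simp only [cj_cj_inv] at this
    rw [this, eq_top_iff]
    intro x _
    rw [mem_cj]; exact Subgroup.mem_top _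

/-- A maximal `p`-subgroup of `N` above a given one. -/
theorem exists_max_p [Finite G] {p : ℕ} (N : Subgroup G) {Y : Subgroup G} (hY : IsPGroup p Y)
    (hYN : Y ≤ N) :
    ∃ R : Subgroup G, IsPGroup p R ∧ R ≤ N ∧ Y ≤ R ∧
      ∀ Q : Subgroup G, IsPGroup p Q → Q ≤ N → R ≤ Q → Q = R := by
  have hmem : Y ∈ {Q : Subgroup G | IsPGroup p Q ∧ Q ≤ N} := ⟨hY, hYN⟩
  obtain ⟨R, hYR, hR⟩ := (Set.toFinite {Q : Subgroup G | IsPGroup p Q ∧ Q ≤ N}).exists_le_maximal hmem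
  exact ⟨R, hR.1.1, hR.1.2, hYR, fun Q hQ hQN hRQ => le_antisymm (hR.2 ⟨hQ, hQN⟩ hRQ) hRQ⟩


theorem mem_normalizer_of_cj_eq {c : G} {H : Subgroup G} (h : MulAut.conj c • H = H) :
    c ∈ normalizer (H : Set G) := by
  rw [Subgroup.mem_normalizer_iff]
  intro x
  constructor
  · intro hx
    rw [← h, mem_cj]
    simpa [mul_assoc] using hx
  · intro hx
    rw [← h, mem_cj] at hx
    simpa [mul_assoc] using hx

theorem cj_eq_self_of_mem {c : G} {H : Subgroup G} (h : c ∈ H) : MulAut.conj c • H = H :=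
  Subgroup.conj_smul_eq_self_of_mem h

section main

variable [Finite G] {p : ℕ} [Fact p.Prime] {M : Subgroup G} (P : Sylow p G)

/-- Every `p`-subgroup lies in a conjugate of `M`. -/
theorem exists_conj_ge (hPM : (P : Subgroup G) ≤ M) {Y : Subgroup G} (hY : IsPGroup p Y) :
    ∃ g : G, Y ≤ MulAut.conj g • M := by
  obtain ⟨S, hYS⟩ := hY.exists_le_sylow
  obtain ⟨g, hg⟩ := MulAction.exists_smul_eq G P S
  refine ⟨g, hYS.trans ?_⟩
  rw [← hg, Sylow.coe_subgroup_smul]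
  exact cj_mono g hPM

/-- A `p`-subgroup of a conjugate `L` of `M` lies in a conjugate of `P` inside `L`. -/
theorem exists_conj_sylow (hPM : (P : Subgroup G) ≤ M) {L : Subgroup G} (g : G)
    (hL : L = MulAut.conj g • M) {Y : Subgroup G} (hY : IsPGroup p Y) (hYL : Y ≤ L) :
    ∃ a : G, L = MulAut.conj a • M ∧ Y ≤ MulAut.conj a • (P : Subgroup G) := by
  have hY'M : MulAut.conj g⁻¹ • Y ≤ M := by
    have := cj_mono g⁻¹ hYL
    rwa [hL, cj_inv_cj] at this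
  have hY'p : IsPGroup p ((MulAut.conj g⁻¹ • Y).subgroupOf M) :=
    (isPGroup_cj g⁻¹ hY).comap_subtype
  obtain ⟨Q, hQ⟩ := hY'p.exists_le_sylow
  obtain ⟨m, hm⟩ := MulAction.exists_smul_eq M (P.subtype hPM) Q
  refine ⟨g * (m : G), ?_, ?_⟩
  · rw [cj_mul, cj_eq_self_of_mem m.2, hL]
  · intro y hy
    rw [mem_cj]
    have h1 : g⁻¹ * y * g ∈ MulAut.conj g⁻¹ • Y := by
      rw [mem_cj]; simpa [mul_assoc] using hy
    have h2 : (⟨g⁻¹ * y * g, hY'M h1⟩ : M) ∈ (Q : Subgroup M) :=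
      hQ (Subgroup.mem_subgroupOf.mpr h1)
    rw [← hm, Sylow.coe_subgroup_smul, mem_cj, Sylow.coe_subtype, Subgroup.mem_subgroupOf] at h2
    simpa [mul_assoc] using h2

/-- The fusion statement for `X`. -/
def Tr (M X : Subgroup G) : Prop :=
  ∀ L₁ L₂ : Subgroup G, (∃ g : G, L₁ = MulAut.conj g • M) → (∃ g : G, L₂ = MulAut.conj g • M) →
    X ≤ L₁ → X ≤ L₂ → ∃ c ∈ centralizer (X : Set G), L₂ = MulAut.conj c • L₁

theorem tr_all (hG : IsMinSimpleOddOrder G) (hM : IsCoatom M) (hPM : (P : Subgroup G) ≤ M)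
    (hNP : normalizer ((P : Subgroup G) : Set G) ≤ M)
    (hRK : PRankLE p 2 G → ∀ X : Subgroup G, IsPGroup p X → X ≠ ⊥ → ∀ R₁ R₂ : Subgroup G,
      IsPGroup p R₁ → IsPGroup p R₂ → R₁ ≤ normalizer (X : Set G) → R₂ ≤ normalizer (X : Set G) →
      (∀ Q : Subgroup G, IsPGroup p Q → Q ≤ normalizer (X : Set G) → R₁ ≤ Q → Q = R₁) →
      (∀ Q : Subgroup G, IsPGroup p Q → Q ≤ normalizer (X : Set G) → R₂ ≤ Q → Q = R₂) →
      ∃ t ∈ centralizer (X : Set G), R₂ = R₁.map (MulAut.conj t).toMonoidHom)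
    (hCS : ∀ X : Subgroup G, ∀ R₁ R₂ : Subgroup G,
      IsPGroup p R₁ → IsPGroup p R₂ → R₁ ≤ normalizer (X : Set G) → R₂ ≤ normalizer (X : Set G) →
      (∀ Q : Subgroup G, IsPGroup p Q → Q ≤ normalizer (X : Set G) → R₁ ≤ Q → Q = R₁) →
      (∀ Q : Subgroup G, IsPGroup p Q → Q ≤ normalizer (X : Set G) → R₂ ≤ Q → Q = R₂) →
      ∃ c ∈ centralizer (X : Set G), R₂ ⊓ centralizer (X : Set G) =
        (R₁ ⊓ centralizer (X : Set G)).map (MulAut.conj c).toMonoidHom)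
    (hE : ¬ PRankLE p 2 G → ∀ S : Sylow p G, ∃ E : Subgroup G, E ≤ (S : Subgroup G) ∧
      InUniqueMaximal E ∧ ∀ e ∈ E, ∀ s ∈ (S : Subgroup G),
        e * s * e⁻¹ * s⁻¹ ∈ centralizer ((S : Subgroup G) : Set G)) :
    ∀ n : ℕ, ∀ X : Subgroup G, IsPGroup p X → X ≠ ⊥ → Nat.card G - Nat.card X = n → Tr M X := by
  intro n
  induction n using Nat.strong_induction_on with
  | _ n ih =>
  intro X hXp hX0 hn
  have IH : ∀ Y : Subgroup G, IsPGroup p Y → X < Y → Tr M Y := by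
    intro Y hYp hXY
    have hc1 : Nat.card X < Nat.card Y := by
      by_contra hle
      push Not at hle
      exact hXY.ne (Subgroup.eq_of_le_of_card_ge hXY.le hle)
    have hc2 : Nat.card Y ≤ Nat.card G := Subgroup.card_le_card_group Y
    have hY0 : Y ≠ ⊥ := by
      rintro rfl
      exact not_lt_bot hXY
    exact ih (Nat.card G - Nat.card Y) (by omega) Y hYp hY0 rfl
  intro L₁ L₂ ⟨g₁, hL₁⟩ ⟨g₂, hL₂⟩ hXL₁ hXL₂
  obtain ⟨a₁, hL₁', hXa₁⟩ := exists_conj_sylow P hPM g₁ hL₁ hXp hXL₁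
  obtain ⟨a₂, hL₂', hXa₂⟩ := exists_conj_sylow P hPM g₂ hL₂ hXp hXL₂
  have hcardS : ∀ a : G, Nat.card (MulAut.conj a • (P : Subgroup G) : Subgroup G) =
      Nat.card (P : Subgroup G) := fun a => card_cj a _
  by_cases hXS : X = MulAut.conj a₁ • (P : Subgroup G)
  · -- `X` is a Sylow subgroup of `G`
    have hXS2 : X = MulAut.conj a₂ • (P : Subgroup G) := by
      apply Subgroup.eq_of_le_of_card_ge hXa₂
      rw [hcardS, ← hcardS a₁, ← hXS]
    have h1 : MulAut.conj (a₁⁻¹ * a₂) • (P : Subgroup G) = (P : Subgroup G) := by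
      rw [cj_mul, ← hXS2, hXS, cj_inv_cj]
    have h2 : a₁⁻¹ * a₂ ∈ M := hNP (mem_normalizer_of_cj_eq h1)
    refine ⟨1, one_mem _, ?_⟩
    rw [cj_one, hL₂', hL₁']
    have : a₂ = a₁ * (a₁⁻¹ * a₂) := by simp
    rw [this, cj_mul, cj_eq_self_of_mem h2]
  · have hlt₁ : X < MulAut.conj a₁ • (P : Subgroup G) := lt_of_le_of_ne hXa₁ hXS
    have hXS2 : X ≠ MulAut.conj a₂ • (P : Subgroup G) := by
      intro h
      apply hXS
      apply Subgroup.eq_of_le_of_card_ge hXa₁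
      rw [hcardS, ← hcardS a₂, ← h]
    have hlt₂ : X < MulAut.conj a₂ • (P : Subgroup G) := lt_of_le_of_ne hXa₂ hXS2
    have hS₁p : IsPGroup p (MulAut.conj a₁ • (P : Subgroup G) : Subgroup G) :=
      isPGroup_cj a₁ P.isPGroup'
    have hS₂p : IsPGroup p (MulAut.conj a₂ • (P : Subgroup G) : Subgroup G) :=
      isPGroup_cj a₂ P.isPGroup'
    obtain ⟨x₁, hx₁S, hx₁N, hx₁X⟩ :=
      Cfsg.Agent.Lib.Helper30.exists_mem_normalizer_not_mem hS₁p hlt₁
    obtain ⟨x₂, hx₂S, hx₂N, hx₂X⟩ :=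
      Cfsg.Agent.Lib.Helper30.exists_mem_normalizer_not_mem hS₂p hlt₂
    set N : Subgroup G := normalizer (X : Set G) with hNdef
    set Y₁ : Subgroup G := (MulAut.conj a₁ • (P : Subgroup G)) ⊓ N with hY₁def
    set Y₂ : Subgroup G := (MulAut.conj a₂ • (P : Subgroup G)) ⊓ N with hY₂def
    have hXN : X ≤ N := Subgroup.le_normalizer
    have hXY₁ : X < Y₁ :=
      lt_of_le_of_ne (le_inf hXa₁ hXN) (fun h => hx₁X (h ▸ (⟨hx₁S, hx₁N⟩ : x₁ ∈ Y₁)))
    have hXY₂ : X < Y₂ :=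
      lt_of_le_of_ne (le_inf hXa₂ hXN) (fun h => hx₂X (h ▸ (⟨hx₂S, hx₂N⟩ : x₂ ∈ Y₂)))
    have hY₁p : IsPGroup p Y₁ := hS₁p.to_le inf_le_left
    have hY₂p : IsPGroup p Y₂ := hS₂p.to_le inf_le_left
    have hY₁L : Y₁ ≤ L₁ := inf_le_left.trans (by rw [hL₁']; exact cj_mono a₁ hPM)
    have hY₂L : Y₂ ≤ L₂ := inf_le_left.trans (by rw [hL₂']; exact cj_mono a₂ hPM)
    have hCY₁ : centralizer (Y₁ : Set G) ≤ centralizer (X : Set G) :=
      Subgroup.centralizer_le hXY₁.le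
    have hCY₂ : centralizer (Y₂ : Set G) ≤ centralizer (X : Set G) :=
      Subgroup.centralizer_le hXY₂.le
    have hCN : centralizer (X : Set G) ≤ N := Subgroup.centralizer_le_normalizer _
    obtain ⟨R₁, hR₁p, hR₁N, hYR₁, hm₁⟩ := exists_max_p N hY₁p inf_le_right
    obtain ⟨R₂, hR₂p, hR₂N, hYR₂, hm₂⟩ := exists_max_p N hY₂p inf_le_right
    by_cases hγ : ¬ PRankLE p 2 G ∧ R₁ ⊓ centralizer (X : Set G) ≤ X
    · -- case (γ)
      obtain ⟨hr, hRC⟩ := hγ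
      obtain ⟨S, hR₁S⟩ := hR₁p.exists_le_sylow
      obtain ⟨E, hES, hEU, hEc⟩ := hE hr S
      have hSN : (S : Subgroup G) ⊓ N = R₁ :=
        hm₁ _ (S.isPGroup'.to_le inf_le_left) inf_le_right (le_inf hR₁S hR₁N)
      have hXS' : X ≤ (S : Subgroup G) := hXY₁.le.trans (hYR₁.trans hR₁S)
      have key : ∀ e ∈ E, ∀ x ∈ X, e * x * e⁻¹ ∈ X := by
        intro e he x hx
        have hz1 := hEc e he x (hXS' hx)
        have hz2 : e * x * e⁻¹ * x⁻¹ ∈ (S : Subgroup G) :=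
          mul_mem (mul_mem (mul_mem (hES he) (hXS' hx)) (inv_mem (hES he))) (inv_mem (hXS' hx))
        have hz3 : e * x * e⁻¹ * x⁻¹ ∈ centralizer (X : Set G) :=
          Subgroup.centralizer_le hXS' hz1
        have hz4 : e * x * e⁻¹ * x⁻¹ ∈ R₁ := by
          rw [← hSN]; exact ⟨hz2, hCN hz3⟩
        have hz5 : e * x * e⁻¹ * x⁻¹ ∈ X := hRC ⟨hz4, hz3⟩
        have := mul_mem hz5 hx
        simpa [mul_assoc] using this
      have hEN : E ≤ N := by
        intro e he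
        rw [hNdef, Subgroup.mem_normalizer_iff]
        intro x
        refine ⟨key e he x, fun h => ?_⟩
        have := key e⁻¹ (inv_mem he) _ h
        simpa [mul_assoc] using this
      have hXtop : X ≠ ⊤ := Cfsg.Agent.H31.BG8.not_isPGroup_top hG hXp
      have hNtop : N ≠ ⊤ := Cfsg.Agent.Lib.Helper30.minSimple_normalizer_ne_top hG hX0 hXtop
      obtain ⟨LN, hLN, hNLN⟩ := (eq_top_or_exists_le_coatom N).resolve_left hNtop
      obtain ⟨b, hSb⟩ := exists_conj_ge P hPM S.isPGroup'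
      obtain ⟨M0, ⟨hM0, hEM0⟩, huniq⟩ := hEU
      have e1 : LN = M0 := huniq LN ⟨hLN, hEN.trans hNLN⟩
      have e2 : MulAut.conj b • M = M0 := huniq _ ⟨isCoatom_cj b hM, hES.trans hSb⟩
      have hNM' : N ≤ MulAut.conj b • M := by rw [e2, ← e1]; exact hNLN
      have hfin : ∀ (L : Subgroup G) (Y : Subgroup G), (∃ g : G, L = MulAut.conj g • M) →
          IsPGroup p Y → X < Y → Y ≤ N → Y ≤ L → L = MulAut.conj b • M := by
        intro L Y hLc hYp hXY hYN hYL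
        obtain ⟨c, hc, hLeq⟩ := IH Y hYp hXY (MulAut.conj b • M) L ⟨b, rfl⟩ hLc
          (hYN.trans hNM') hYL
        have hc' : c ∈ MulAut.conj b • M :=
          hNM' (hCN (Subgroup.centralizer_le hXY.le hc))
        rw [hLeq, cj_eq_self_of_mem hc']
      have hL₁eq := hfin L₁ Y₁ ⟨g₁, hL₁⟩ hY₁p hXY₁ inf_le_right hY₁L
      have hL₂eq := hfin L₂ Y₂ ⟨g₂, hL₂⟩ hY₂p hXY₂ inf_le_right hY₂L
      exact ⟨1, one_mem _, by rw [cj_one, hL₁eq, hL₂eq]⟩
    · -- cases (α), (β)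
      have hex : ∃ c₀ ∈ centralizer (X : Set G), ∃ D : Subgroup G, IsPGroup p D ∧ X < D ∧
          D ≤ R₁ ∧ MulAut.conj c₀ • D ≤ R₂ := by
        by_cases hr : PRankLE p 2 G
        · obtain ⟨t, ht, hR₂eq⟩ := hRK hr X hXp hX0 R₁ R₂ hR₁p hR₂p hR₁N hR₂N hm₁ hm₂
          refine ⟨t, ht, R₁, hR₁p, lt_of_lt_of_le hXY₁ hYR₁, le_rfl, ?_⟩
          rw [hR₂eq, map_conj_eq_smul]
        · have hnot : ¬ R₁ ⊓ centralizer (X : Set G) ≤ X := fun h => hγ ⟨hr, h⟩
          obtain ⟨c, hc, hceq⟩ := hCS X R₁ R₂ hR₁p hR₂p hR₁N hR₂N hm₁ hm₂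
          have hXR₁ : X ≤ R₁ := hXY₁.le.trans hYR₁
          have hXR₂ : X ≤ R₂ := hXY₂.le.trans hYR₂
          refine ⟨c, hc, X ⊔ (R₁ ⊓ centralizer (X : Set G)), hR₁p.to_le (sup_le hXR₁ inf_le_left),
            lt_of_le_of_ne le_sup_left (fun h => hnot (le_sup_right.trans h.ge)),
            sup_le hXR₁ inf_le_left, ?_⟩
          rw [Subgroup.smul_sup, cj_eq_self_of_mem_normalizer (hCN hc), ← map_conj_eq_smul c
            (R₁ ⊓ centralizer (X : Set G)), ← hceq]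
          exact sup_le hXR₂ inf_le_left
      obtain ⟨c₀, hc₀, D, hDp, hXD, hDR₁, hDR₂⟩ := hex
      obtain ⟨b₁, hb₁⟩ := exists_conj_ge P hPM hR₁p
      obtain ⟨b₂, hb₂⟩ := exists_conj_ge P hPM hR₂p
      obtain ⟨c₁, hc₁, h1⟩ := IH Y₁ hY₁p hXY₁ L₁ (MulAut.conj b₁ • M) ⟨g₁, hL₁⟩ ⟨b₁, rfl⟩
        hY₁L (hYR₁.trans hb₁)
      obtain ⟨c₂, hc₂, h2⟩ := IH Y₂ hY₂p hXY₂ L₂ (MulAut.conj b₂ • M) ⟨g₂, hL₂⟩ ⟨b₂, rfl⟩
        hY₂L (hYR₂.trans hb₂)
      have hD2 : D ≤ MulAut.conj c₀⁻¹ • (MulAut.conj b₂ • M) := le_cj_inv (hDR₂.trans hb₂)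
      obtain ⟨c₃, hc₃, h3⟩ := IH D hDp hXD (MulAut.conj b₁ • M)
        (MulAut.conj c₀⁻¹ • (MulAut.conj b₂ • M)) ⟨b₁, rfl⟩ ⟨c₀⁻¹ * b₂, by rw [cj_mul]⟩
        (hDR₁.trans hb₁) hD2
      refine ⟨c₂⁻¹ * (c₀ * (c₃ * c₁)), ?_, ?_⟩
      · exact mul_mem (inv_mem (hCY₂ hc₂)) (mul_mem hc₀
          (mul_mem (Subgroup.centralizer_le hXD.le hc₃) (hCY₁ hc₁)))
      · rw [cj_mul, cj_mul, cj_mul, ← h1, ← h3, cj_cj_inv, h2, cj_inv_cj]

/-- B&G Theorem 10.1, parametric in the three pieces. -/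
theorem bg101 (hG : IsMinSimpleOddOrder G) (hM : IsCoatom M) (hp : p ∈ sigma M)
    (hRK : PRankLE p 2 G → ∀ X : Subgroup G, IsPGroup p X → X ≠ ⊥ → ∀ R₁ R₂ : Subgroup G,
      IsPGroup p R₁ → IsPGroup p R₂ → R₁ ≤ normalizer (X : Set G) → R₂ ≤ normalizer (X : Set G) →
      (∀ Q : Subgroup G, IsPGroup p Q → Q ≤ normalizer (X : Set G) → R₁ ≤ Q → Q = R₁) →
      (∀ Q : Subgroup G, IsPGroup p Q → Q ≤ normalizer (X : Set G) → R₂ ≤ Q → Q = R₂) →
      ∃ t ∈ centralizer (X : Set G), R₂ = R₁.map (MulAut.conj t).toMonoidHom)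
    (hCS : ∀ X : Subgroup G, ∀ R₁ R₂ : Subgroup G,
      IsPGroup p R₁ → IsPGroup p R₂ → R₁ ≤ normalizer (X : Set G) → R₂ ≤ normalizer (X : Set G) →
      (∀ Q : Subgroup G, IsPGroup p Q → Q ≤ normalizer (X : Set G) → R₁ ≤ Q → Q = R₁) →
      (∀ Q : Subgroup G, IsPGroup p Q → Q ≤ normalizer (X : Set G) → R₂ ≤ Q → Q = R₂) →
      ∃ c ∈ centralizer (X : Set G), R₂ ⊓ centralizer (X : Set G) =
        (R₁ ⊓ centralizer (X : Set G)).map (MulAut.conj c).toMonoidHom)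
    (hE : ¬ PRankLE p 2 G → ∀ S : Sylow p G, ∃ E : Subgroup G, E ≤ (S : Subgroup G) ∧
      InUniqueMaximal E ∧ ∀ e ∈ E, ∀ s ∈ (S : Subgroup G),
        e * s * e⁻¹ * s⁻¹ ∈ centralizer ((S : Subgroup G) : Set G))
    (X : Subgroup G) (hXp : IsPGroup p X) (hX1 : X ≠ ⊥) (hXM : X ≤ M) :
    (∀ g : G, X.map (MulAut.conj g).toMonoidHom ≤ M →
        ∃ m ∈ M, ∃ c ∈ centralizer (X : Set G), g = m * c) ∧
      normalizer (X : Set G) = (M ⊓ normalizer (X : Set G)) ⊔ centralizer (X : Set G) := by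
  obtain ⟨hpp, hpM, P0, hN⟩ := hp
  obtain ⟨T, hT⟩ := Cfsg.Agent.H31.BG8.sylow_of_normalizer_le P0 hN
  have hTM : (T : Subgroup G) ≤ M := by rw [hT]; exact Subgroup.map_subtype_le _
  have hNT : normalizer ((T : Subgroup G) : Set G) ≤ M := by rw [hT]; exact hN
  have htr := tr_all T hG hM hTM hNT hRK hCS hE _ X hXp hX1 rfl
  have hM0 : M ≠ ⊥ := by
    rintro rfl
    exact hX1 (le_bot_iff.mp hXM)
  have hNM : normalizer (M : Set G) ≤ M := by
    have h1 : normalizer (M : Set G) ≠ ⊤ :=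
      Cfsg.Agent.Lib.Helper30.minSimple_normalizer_ne_top hG hM0 hM.1
    by_contra hnot
    exact h1 (hM.2 _ (lt_of_le_of_ne Subgroup.le_normalizer (fun h => hnot h.ge)))
  have part1 : ∀ g : G, X.map (MulAut.conj g).toMonoidHom ≤ M →
      ∃ m ∈ M, ∃ c ∈ centralizer (X : Set G), g = m * c := by
    intro g hg
    rw [map_conj_eq_smul] at hg
    have h1 : X ≤ MulAut.conj g⁻¹ • M := le_cj_inv hg
    obtain ⟨c, hc, hceq⟩ := htr M (MulAut.conj g⁻¹ • M) ⟨1, (cj_one M).symm⟩ ⟨g⁻¹, rfl⟩ hXM h1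
    have h2 : MulAut.conj (g * c) • M = M := by rw [cj_mul, ← hceq, cj_cj_inv]
    have h3 : g * c ∈ M := hNM (mem_normalizer_of_cj_eq h2)
    exact ⟨g * c, h3, c⁻¹, inv_mem hc, by simp⟩
  refine ⟨part1, le_antisymm ?_ ?_⟩
  · intro n hn
    have hn' : X.map (MulAut.conj n).toMonoidHom ≤ M := by
      rw [map_conj_eq_smul, cj_eq_self_of_mem_normalizer hn]; exact hXM
    obtain ⟨m, hm, c, hc, rfl⟩ := part1 n hn'
    have hcN : c ∈ normalizer (X : Set G) := Subgroup.centralizer_le_normalizer _ hc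
    have hmN : m ∈ normalizer (X : Set G) := by
      have := mul_mem hn (inv_mem hcN)
      simpa [mul_assoc] using this
    exact Subgroup.mul_mem_sup ⟨hm, hmN⟩ hc
  · exact sup_le inf_le_right (Subgroup.centralizer_le_normalizer _)

end main

end Cfsg.Agent.H63.Sig
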