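import Mathlib
import Cfsg.Agent.H58.BG10Defs3

set_option autoImplicit false

/-!
# Bender–Glauberman §11 (exceptional maximal subgroups): hypothesis and piece statements
(helper63; paper proofs by helper29, board post 3664)
-/

namespace Cfsg.Agent.H63.BG11

open Cfsg Subgroup Cfsg.Agent.H58.BG10

universe u

variable {G : Type u} [Group G]

/-- B&G Hypothesis 11.1: `M` maximal, `p ∉ σ(M)`, `A ≤ M` elementary abelian of order `p²`,
`A₀ ≤ A` of order `p` with `N_G(A₀) ≤ M`. -/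
structure Exc (M A A₀ : Subgroup G) (p : ℕ) : Prop where
  coatom : IsCoatom M
  nsig : p ∉ sigma M
  le : A ≤ M
  elem : IsElementaryAbelian p A
  card : Nat.card A = p ^ 2
  le₀ : A₀ ≤ A
  card₀ : Nat.card A₀ = p
  norm : normalizer (A₀ : Set G) ≤ M

/-- The immediate consequences (F1)–(F4) of Hypothesis 11.1. -/
structure ExcFacts (M A : Subgroup G) (p : ℕ) : Prop where
  rk2 : PRankLE p 2 M
  rk1 : ¬ PRankLE p 1 M
  maxel : ∀ B : Subgroup G, IsElementaryAbelian p B → A ≤ B → B = A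
  omega : ∀ x ∈ centralizer (A : Set G), x ^ p = 1 ↔ x ∈ A
  th : TransitivityHypothesis A
  cent : centralizer (A : Set G) ≤ M

/-- (F1)–(F4). -/
def StExcFacts (G : Type u) [Group G] : Prop :=
  ∀ (M A A₀ : Subgroup G) (p : ℕ) [Fact p.Prime], Exc M A A₀ p → ExcFacts M A p

/-- The core of B&G 11.1: no proper subgroup `H ≥ A` contains nontrivial `A`-invariant
`q`-subgroups `U₁ ≤ M_σ` and `U₂ ≤ g M_σ g⁻¹` when `g ∉ M` and `A ≤ g M g⁻¹`. -/
def StExcCore (G : Type u) [Group G] : Prop :=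
  ∀ (M A A₀ : Subgroup G) (p : ℕ) [Fact p.Prime], Exc M A A₀ p → ∀ g : G, g ∉ M →
    A ≤ M.map (MulAut.conj g).toMonoidHom → ∀ (q : ℕ) [Fact q.Prime] (U₁ U₂ H : Subgroup G),
    U₁ ≤ sigmaCore M → U₂ ≤ (sigmaCore M).map (MulAut.conj g).toMonoidHom →
    IsPGroup q U₁ → IsPGroup q U₂ → U₁ ≠ ⊥ → U₂ ≠ ⊥ →
    A ≤ normalizer (U₁ : Set G) → A ≤ normalizer (U₂ : Set G) →
    H ≠ ⊤ → A ≤ H → U₁ ≤ H → U₂ ≤ H → False

/-- B&G 11.2(a): `M_σ ∩ g M g⁻¹ = 1` for `g ∉ M` with `A ≤ g M g⁻¹`. -/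
def StExcTI (G : Type u) [Group G] : Prop :=
  ∀ (M A A₀ : Subgroup G) (p : ℕ) [Fact p.Prime], Exc M A A₀ p → ∀ g : G, g ∉ M →
    A ≤ M.map (MulAut.conj g).toMonoidHom →
    sigmaCore M ⊓ M.map (MulAut.conj g).toMonoidHom = ⊥

/-- The key trick: a subgroup `X ≤ A` of order `p` fixed by some `g ∉ M` with `A ≤ g M g⁻¹`
has no fixed points on `M_σ`. -/
def StExcFix (G : Type u) [Group G] : Prop :=
  ∀ (M A A₀ : Subgroup G) (p : ℕ) [Fact p.Prime], Exc M A A₀ p → ∀ g : G, g ∉ M →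
    A ≤ M.map (MulAut.conj g).toMonoidHom → ∀ X : Subgroup G, X ≤ A → Nat.card X = p →
    X.map (MulAut.conj g).toMonoidHom = X → sigmaCore M ⊓ centralizer (X : Set G) = ⊥

/-- B&G 11.3: some subgroup `A₁ ≤ A` of order `p` acts fixed-point-freely on `M_σ`. -/
def StExcFree (G : Type u) [Group G] : Prop :=
  ∀ (M A A₀ : Subgroup G) (p : ℕ) [Fact p.Prime], Exc M A A₀ p →
    ∃ A₁ : Subgroup G, A₁ ≤ A ∧ Nat.card A₁ = p ∧ sigmaCore M ⊓ centralizer (A₁ : Set G) = ⊥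

/-- B&G 11.4: `M_σ` is nilpotent. -/
def StExcNilp (G : Type u) [Group G] : Prop :=
  ∀ (M A A₀ : Subgroup G) (p : ℕ) [Fact p.Prime], Exc M A A₀ p →
    Group.IsNilpotent (sigmaCore M)

end Cfsg.Agent.H63.BG11
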