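import Mathlib
import Cfsg.Agent.H52.SnDefs

/-!
# SN-IFSYL (piece of S2942): the Sylow 2-subgroup `T` of `L` and `J(T)`, inside `↥L`
-/

set_option autoImplicit false
open Cfsg

namespace Cfsg.Agent.H63.Sn

open Cfsg.Agent.H52.Sn

universe u

theorem thompsonSubgroupOf_le {G : Type u} [Group G] (T : Subgroup G) :
    thompsonSubgroupOf 2 T ≤ T := by
  unfold thompsonSubgroupOf
  rintro _ ⟨y, _, rfl⟩
  exact y.2

/-- A largest elementary abelian 2-subgroup of a Sylow 2-subgroup `T` of `L` is a largest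
elementary abelian 2-subgroup of `L`. -/
theorem maxEA_inclusion {G : Type u} [Group G] [Finite G] (T L : Subgroup G) (hle : T ≤ L)
    (hT2 : IsPGroup 2 ↥T) (hodd : Odd (T.subgroupOf L).index)
    (A : Subgroup ↥T) (hA : A ∈ maxElementaryAbelianSubgroups 2 ↥T) :
    A.map (Subgroup.inclusion hle) ∈ maxElementaryAbelianSubgroups 2 ↥L := by
  have : Fact (Nat.Prime 2) := ⟨Nat.prime_two⟩
  have hT' : IsPGroup 2 ↥(T.subgroupOf L) := hT2.comap_subtype
  have hnd : ¬ 2 ∣ (T.subgroupOf L).index := by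
    intro h
    exact (Nat.not_even_iff_odd.mpr hodd) (even_iff_two_dvd.mpr h)
  obtain ⟨⟨hAc, hAe⟩, hAmax⟩ := hA
  have hinj : Function.Injective (Subgroup.inclusion hle) := Subgroup.inclusion_injective hle
  have hcard : Nat.card ↥(A.map (Subgroup.inclusion hle)) = Nat.card ↥A :=
    (Nat.card_congr (A.equivMapOfInjective _ hinj).toEquiv).symm
  refine ⟨⟨?_, ?_⟩, ?_⟩
  · have := hAc
    exact Subgroup.map_isMulCommutative A _
  · rintro _ ⟨a, ha, rfl⟩
    rw [← map_pow, hAe a ha, map_one]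
  · intro B hB
    obtain ⟨hBc, hBe⟩ := hB
    rw [hcard]
    have hB2 : IsPGroup 2 ↥B := by
      intro b
      refine ⟨1, ?_⟩
      apply Subtype.ext
      simpa using hBe b b.2
    obtain ⟨Q, hBQ⟩ := hB2.exists_le_sylow
    obtain ⟨g, hg⟩ := MulAction.exists_smul_eq ↥L Q (hT'.toSylow hnd)
    have hmem : ∀ b : ↥B, ((MulAut.conj g).toMonoidHom.comp B.subtype) b ∈ T.subgroupOf L := by
      intro b
      have h1 : (b : ↥L) ∈ (Q : Subgroup ↥L) := hBQ b.2
      have h2 : g * (b : ↥L) * g⁻¹ ∈ ((g • Q : Sylow 2 ↥L) : Subgroup ↥L) := by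
        rw [Sylow.coe_subgroup_smul]
        exact Subgroup.smul_mem_pointwise_smul _ (MulAut.conj g) _ h1
      rw [hg] at h2
      exact (IsPGroup.mem_toSylow hT' hnd).mp h2
    let ψ : ↥B →* ↥(T.subgroupOf L) :=
      ((MulAut.conj g).toMonoidHom.comp B.subtype).codRestrict (T.subgroupOf L) hmem
    have hψinj : Function.Injective ψ := by
      intro a b hab
      have h1 : g * (a : ↥L) * g⁻¹ = g * (b : ↥L) * g⁻¹ := congrArg Subtype.val hab
      apply Subtype.ext
      simpa using h1
    let φ : ↥B →* ↥T := (Subgroup.subgroupOfEquivOfLe hle).toMonoidHom.comp ψ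
    have hφinj : Function.Injective φ :=
      (Subgroup.subgroupOfEquivOfLe hle).injective.comp hψinj
    have hEA : IsElementaryAbelian 2 φ.range := by
      refine ⟨?_, ?_⟩
      · have := hBc
        exact Subgroup.range_isMulCommutative φ
      · rintro _ ⟨b, rfl⟩
        have hb : b ^ 2 = 1 := by
          apply Subtype.ext
          simpa using hBe b b.2
        rw [← map_pow, hb, map_one]
    calc Nat.card ↥B = Nat.card ↥φ.range := Nat.card_congr (MonoidHom.ofInjective hφinj).toEquiv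
      _ ≤ Nat.card ↥A := hAmax φ.range hEA

theorem ifSyl : StIfSyl.{u} := by
  intro G _ _ T L hTL
  obtain ⟨hle, hT2, hodd⟩ := hTL
  have hT' : IsPGroup 2 ↥(T.subgroupOf L) := hT2.comap_subtype
  have hodd' : Odd (T.subgroupOf L).index := hodd
  refine ⟨hT', hodd', ?_, ?_⟩
  · intro x hx
    rw [Subgroup.mem_subgroupOf] at hx ⊢
    exact thompsonSubgroupOf_le T hx
  · intro x hx
    rw [Subgroup.mem_subgroupOf] at hx
    obtain ⟨y, hy, hxy⟩ := hx
    have hle2 : thompsonSubgroup 2 ↥T ≤
        (thompsonSubgroup 2 ↥L).comap (Subgroup.inclusion hle) := by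
      unfold thompsonSubgroup
      refine sSup_le ?_
      intro A hA a ha
      rw [Subgroup.mem_comap]
      have h1 : A.map (Subgroup.inclusion hle) ≤ sSup (maxElementaryAbelianSubgroups 2 ↥L) :=
        le_sSup (maxEA_inclusion T L hle hT2 hodd' A hA)
      exact h1 ⟨a, ha, rfl⟩
    have h2 := hle2 hy
    rw [Subgroup.mem_comap] at h2
    have hx2 : x = Subgroup.inclusion hle y := by
      apply Subtype.ext
      simpa using hxy.symm
    rw [hx2]
    exact h2

end Cfsg.Agent.H63.Sn

universe u in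
example : Cfsg.Agent.H52.Sn.StIfSyl.{u} := Cfsg.Agent.H63.Sn.ifSyl.{u}
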