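import Mathlib
import Cfsg.Agent.H52.SnDefs
import Cfsg.Agent.H53.Basic
import Cfsg.Agent.H63.SnIfV

/-!
# SN-IFZ (piece of S2942): `C_L(Ω₁(Z(O₂(L))))` normalizes the Sylow 2-subgroup `T` of `L`
-/

set_option autoImplicit false
open Cfsg

namespace Cfsg.Agent.H63.Sn

open Cfsg.Agent.H52.Sn

universe u

theorem ifZ : StIfZ.{u} := by
  intro G _ _ hS T L hL
  obtain ⟨⟨hle, hT2, hodd⟩, _, hCQ⟩ := hL
  have : Fact (Nat.Prime 2) := ⟨Nat.prime_two⟩
  have hT' : IsPGroup 2 ↥(T.subgroupOf L) := hT2.comap_subtype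
  have hodd' : Odd (T.subgroupOf L).index := hodd
  have hnd : ¬ 2 ∣ (T.subgroupOf L).index := by
    intro h
    exact (Nat.not_even_iff_odd.mpr hodd') (even_iff_two_dvd.mpr h)
  -- `O₂(L) ≤ T`
  have hQT : pCoreOf 2 L ≤ T := by
    intro x hx
    obtain ⟨hxL, h⟩ := (mem_pCoreOf L).mp hx
    have h1 := Cfsg.Agent.H53.pCore_le_sylow (hT'.toSylow hnd) h
    have h2 := (IsPGroup.mem_toSylow hT' hnd).mp h1
    exact Subgroup.mem_subgroupOf.mp h2
  obtain ⟨S, hTS⟩ := hT2.exists_le_sylow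
  -- `Ω₁(Z(S)) ≤ Ω₁(Z(O₂(L)))`
  have hZ : omegaCenterOf (S : Subgroup G) ≤ omegaCenterOf (pCoreOf 2 L) := by
    intro z hz
    obtain ⟨h1, h2, h3⟩ := mem_omegaCenterOf _ hz
    have hzC : z ∈ Subgroup.centralizer (pCoreOf 2 L : Set G) := by
      rw [Subgroup.mem_centralizer_iff]
      intro q hq
      exact (Subgroup.mem_centralizer_iff.mp h2) q (hTS (hQT hq))
    exact omegaCenterOf_mem _ (hCQ hzC) hzC h3
  intro c hc
  -- `c` centralizes `V` in `G`
  have hcV : (c : G) ∈ Subgroup.centralizer (omegaCenterOf (pCoreOf 2 L) : Set G) := by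
    rw [Subgroup.mem_centralizer_iff]
    intro v hv
    have hvL : v ∈ L := pCoreOf_le L (mem_omegaCenterOf _ hv).1
    have h1 := (Subgroup.mem_centralizer_iff.mp hc) ⟨v, hvL⟩ (Subgroup.mem_subgroupOf.mpr hv)
    exact congrArg Subtype.val h1
  have hcS : (c : G) ∈ Subgroup.centralizer (omegaCenterOf (S : Subgroup G) : Set G) :=
    Subgroup.centralizer_le hZ hcV
  have hcN := hS S hcS
  -- `S ∩ L = T`
  have hSL : (S : Subgroup G).subgroupOf L = T.subgroupOf L := by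
    have h1 : IsPGroup 2 ↥((S : Subgroup G).subgroupOf L) := S.isPGroup'.comap_subtype
    have h2 : ((hT'.toSylow hnd : Sylow 2 ↥L) : Subgroup ↥L) ≤ (S : Subgroup G).subgroupOf L := by
      intro x hx
      have h3 := (IsPGroup.mem_toSylow hT' hnd).mp hx
      rw [Subgroup.mem_subgroupOf] at h3 ⊢
      exact hTS h3
    have h3 := (hT'.toSylow hnd).is_maximal' h1 h2
    rw [h3]
    exact IsPGroup.toSylow_coe hT' hnd
  rw [← hSL]
  rw [Subgroup.mem_normalizer_iff] at hcN ⊢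
  intro h
  rw [Subgroup.mem_subgroupOf, Subgroup.mem_subgroupOf]
  have h4 := hcN (h : G)
  simpa using h4

end Cfsg.Agent.H63.Sn

universe u in
example : Cfsg.Agent.H52.Sn.StIfZ.{u} := Cfsg.Agent.H63.Sn.ifZ.{u}
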