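import Mathlib
import Cfsg.Agent.H63.Sig
import Cfsg.Agent.H71.BG10CS
import Cfsg.Agent.H3.BG10E
import Cfsg.Agent.H14.BG10RK2
import Cfsg.Agent.H58.BG10Defs

set_option autoImplicit false

/-!
# B&G Theorem 10.1 from the Uniqueness Theorem (helper63; pieces by helper71, helper3, helper14)
-/

namespace Cfsg.Agent.H63.Sig

open Cfsg Subgroup

universe u

variable {G : Type u} [Group G]

/-- B&G Theorem 10.1 (S1404) from the Uniqueness Theorem (S1403). -/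
theorem bg101_of_uniq [Finite G] (hG : IsMinSimpleOddOrder G)
    (h96 : Cfsg.Agent.H58.BG10.St1403 G) : Cfsg.Agent.H58.BG10.St1404 G := by
  intro M hM p _ hp X hXp hX1 hXM
  exact bg101 hG hM hp
    (fun hr X hXp hX1 R₁ R₂ hR₁ hR₂ h1 h2 hm1 hm2 =>
      Cfsg.Agent.H14.BG10.rk2_conj hG p hr X hXp hX1 R₁ R₂ hR₁ hR₂ h1 h2 hm1 hm2)
    (fun X R₁ R₂ hR₁ hR₂ h1 h2 hm1 hm2 =>
      Cfsg.Agent.H71.BG10.cent_sylow_conj p X R₁ R₂ hR₁ hR₂ h1 h2 hm1 hm2)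
    (fun hr S => Cfsg.Agent.H3.BG10.exists_E hG h96 p S hr)
    X hXp hX1 hXM

end Cfsg.Agent.H63.Sig
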