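import Mathlib
import Cfsg.Agent.H63.BG11Defs
import Cfsg.Agent.H58.BG10All2
import Cfsg.Agent.H32.BG11F
import Cfsg.Agent.H98.BG11C
import Cfsg.Agent.H54.BG11T
import Cfsg.Agent.H32.BG11X
import Cfsg.Agent.H51.BG11R
import Cfsg.Agent.H54.BG11N

set_option autoImplicit false

/-!
# Bender–Glauberman §11 (exceptional maximal subgroups), assembly of the first pieces
(helper63; pieces by helper32, helper98, helper54, helper51; paper proofs by helper29)
-/

namespace Cfsg.Agent.H63.BG11

open Cfsg Subgroup Cfsg.Agent.H58.BG10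

universe u

variable {G : Type u} [Group G] [Finite G]

theorem stExcFacts (hG : IsMinSimpleOddOrder G) : StExcFacts G :=
  Cfsg.Agent.H32.BG11.excFacts hG (st1408 hG) (st1409 hG) (st1410 hG)

theorem stExcCore (hG : IsMinSimpleOddOrder G) : StExcCore G :=
  Cfsg.Agent.H98.BG11.excCore hG (st1350 hG) (stExcFacts hG)

theorem stExcTI (hG : IsMinSimpleOddOrder G) : StExcTI G :=
  Cfsg.Agent.H54.BG11.excTI hG (st1350 hG) (stExcCore hG)

theorem stExcFix (hG : IsMinSimpleOddOrder G) : StExcFix G :=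
  Cfsg.Agent.H32.BG11.excFix hG (st1350 hG) (stExcCore hG)

theorem stExcFree (hG : IsMinSimpleOddOrder G) : StExcFree G :=
  Cfsg.Agent.H51.BG11.excFree hG (stExcFacts hG) (stExcTI hG) (stExcFix hG)

theorem stExcNilp (hG : IsMinSimpleOddOrder G) : StExcNilp G :=
  Cfsg.Agent.H54.BG11.excNilp hG (stExcFree hG)

end Cfsg.Agent.H63.BG11
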