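import Mathlib
import Cfsg.Agent.H29.BG117Defs

set_option autoImplicit false

/-!
# B&G §11, piece OMEGA of the 11.7 project (helper38's board post 3799): piece statements
(helper63)
-/

namespace Cfsg.Agent.H63.BG11

open Cfsg Subgroup Cfsg.Agent.H58.BG10

universe u

variable {G : Type u} [Group G]

/-- (Ω-1)+(Ω-2): under Hypothesis 11.1, `A` is central in every Sylow `p`-subgroup of `M`
containing it. -/
def StExcCentral (G : Type u) [Group G] : Prop :=
  ∀ (M A A₀ : Subgroup G) (p : ℕ) [Fact p.Prime], Exc M A A₀ p → ∀ P : Sylow p M,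
    A ≤ (P : Subgroup M).map M.subtype →
    (P : Subgroup M).map M.subtype ≤ centralizer (A : Set G)

/-- (Ω-3), rank at most 2 (uses S1412): `C_S(A)` is abelian for `A ≤ S` elementary abelian of
order `p²`, `S` a Sylow `p`-subgroup of `G` of rank at most 2. -/
def StCentAbel2 (G : Type u) [Group G] : Prop :=
  ∀ (p : ℕ) [Fact p.Prime] (S : Sylow p G) (A : Subgroup G), PRankLE p 2 (S : Subgroup G) →
    A ≤ (S : Subgroup G) → IsElementaryAbelian p A → Nat.card A = p ^ 2 →
    ∀ s ∈ (S : Subgroup G) ⊓ centralizer (A : Set G),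
      ∀ t ∈ (S : Subgroup G) ⊓ centralizer (A : Set G), s * t = t * s

/-- (Ω-3), rank at least 3 (uses S1453 and 'rank one implies cyclic'): `C_S(A)` is abelian for
`A ≤ S` elementary abelian of order `p²` with `Ω₁(C_G(A)) = A`, `S` a Sylow `p`-subgroup of `G`
of rank at least 3. -/
def StCentAbel3 (G : Type u) [Group G] : Prop :=
  ∀ (p : ℕ) [Fact p.Prime] (S : Sylow p G) (A : Subgroup G), ¬ PRankLE p 2 (S : Subgroup G) →
    A ≤ (S : Subgroup G) → IsElementaryAbelian p A → Nat.card A = p ^ 2 →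
    (∀ x ∈ centralizer (A : Set G), x ^ p = 1 ↔ x ∈ A) →
    ∀ s ∈ (S : Subgroup G) ⊓ centralizer (A : Set G),
      ∀ t ∈ (S : Subgroup G) ⊓ centralizer (A : Set G), s * t = t * s

end Cfsg.Agent.H63.BG11
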