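import Mathlib
import Cfsg.Agent.H63.BG117OmegaDefs
import Cfsg.Agent.H51.BG11R
import Cfsg.Agent.H54.BG11T
import Cfsg.Agent.S1324

set_option autoImplicit false

/-!
# B&G §11, piece OMEGA of the 11.7 project: `A` is central in the Sylow `p`-subgroups of `M`
containing it (helper38's board post 3799, steps (Ω-1), (Ω-2)) — helper63
-/

namespace Cfsg.Agent.H63.BG11

open Cfsg Subgroup Cfsg.Agent.H58.BG10 Cfsg.Agent.H51.BG10 Cfsg.Agent.H51.BG11

universe u

variable {G : Type u} [Group G]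

/-- Elements of a join of two elementwise commuting subgroups are products. -/
theorem om_mem_sup {H K : Subgroup G} (hc : ∀ h ∈ H, ∀ k ∈ K, h * k = k * h) {x : G}
    (hx : x ∈ H ⊔ K) : ∃ h ∈ H, ∃ k ∈ K, x = h * k := by
  have hc' : ∀ (m : H) (n : K), Commute (H.subtype m) (K.subtype n) :=
    fun m n => hc m m.2 n n.2
  have h1 : H ⊔ K ≤ (MonoidHom.noncommCoprod H.subtype K.subtype hc').range := by
    rw [MonoidHom.noncommCoprod_range]
    simp
  obtain ⟨⟨h, k⟩, rfl⟩ := h1 hx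
  exact ⟨h, h.2, k, k.2, by simp⟩

/-- A nontrivial `p`-subgroup `D` normalized by a `p`-subgroup `Q` contains a nontrivial
element centralized by `Q`. -/
theorem om_exists_fixed [Finite G] {p : ℕ} [Fact p.Prime] {Q D : Subgroup G}
    (hQ : IsPGroup p Q) (hDp : IsPGroup p D) (hQD : Q ≤ normalizer (D : Set G)) (hD : D ≠ ⊥) :
    ∃ z ∈ D, z ≠ 1 ∧ ∀ u ∈ Q, u * z = z * u := by
  have hn : ∀ u ∈ Q, ∀ d ∈ D, u * d * u⁻¹ ∈ D := fun u hu d hd =>
    (Subgroup.mem_normalizer_iff.mp (hQD hu) d).mp hd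
  let act : MulAction ↥Q ↥D :=
    { smul := fun u d => ⟨(u : G) * d * (u : G)⁻¹, hn u u.2 d d.2⟩
      one_smul := by
        intro d
        apply Subtype.ext
        change ((1 : Q) : G) * d * ((1 : Q) : G)⁻¹ = d
        simp
      mul_smul := by
        intro u v d
        apply Subtype.ext
        change ((u * v : Q) : G) * d * ((u * v : Q) : G)⁻¹
          = (u : G) * ((v : G) * d * (v : G)⁻¹) * (u : G)⁻¹
        simp only [Subgroup.coe_mul]
        group }
  have hsmul : ∀ (u : Q) (d : D), ((u • d : D) : G) = (u : G) * d * (u : G)⁻¹ := fun _ _ => rfl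
  have hcard : p ∣ Nat.card ↥D := by
    rcases hDp.card_eq_or_dvd with h1 | h1
    · exfalso
      apply hD
      exact (Subgroup.card_eq_one.mp h1)
    · exact h1
  have h1 : (1 : D) ∈ MulAction.fixedPoints ↥Q ↥D := by
    intro u
    apply Subtype.ext
    rw [hsmul]
    simp
  obtain ⟨b, hb, hb1⟩ := hQ.exists_fixed_point_of_prime_dvd_card_of_fixed_point (α := ↥D) hcard h1
  refine ⟨b, b.2, ?_, ?_⟩
  · intro e
    apply hb1
    apply Subtype.ext
    exact e.symm
  · intro u hu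
    have h2 := congrArg Subtype.val (hb ⟨u, hu⟩)
    rw [hsmul] at h2
    have h3 : u * (b : G) * u⁻¹ = b := h2
    calc u * (b : G) = (u * b * u⁻¹) * u := by group
      _ = b * u := by rw [h3]

/-- A subgroup between `Z` (of order `p`) and `E` (of order `p²`) other than `Z` is `E`. -/
theorem om_between [Finite G] {p : ℕ} [Fact p.Prime] {Z K E : Subgroup G} (hZK : Z ≤ K)
    (hKE : K ≤ E) (hZ : Nat.card Z = p) (hE : Nat.card E = p ^ 2) (hne : K ≠ Z) : K = E := by
  have hp : p.Prime := Fact.out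
  have h1 : Nat.card Z ∣ Nat.card K := Subgroup.card_dvd_of_le hZK
  have h2 : Nat.card K ∣ Nat.card E := Subgroup.card_dvd_of_le hKE
  rw [hE] at h2
  rw [hZ] at h1
  obtain ⟨k, hk, hkc⟩ := (Nat.dvd_prime_pow hp).mp h2
  interval_cases k
  · rw [pow_zero] at hkc
    rw [hkc] at h1
    exact absurd (Nat.le_of_dvd one_pos h1) (not_le.mpr hp.one_lt)
  · exfalso
    apply hne
    exact (Subgroup.eq_of_le_of_card_ge hZK (by rw [hkc, hZ, pow_one])).symm
  · exact Subgroup.eq_of_le_of_card_ge hKE (by rw [hkc, hE])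

/-- A nontrivial element of a subgroup of prime order generates it. -/
theorem om_zpowers_eq [Finite G] {p : ℕ} [Fact p.Prime] {R : Subgroup G} (hR : Nat.card R = p)
    {r : G} (hrR : r ∈ R) (hr1 : r ≠ 1) : zpowers r = R := by
  have hp : p.Prime := Fact.out
  apply Subgroup.eq_of_le_of_card_ge (zpowers_le.mpr hrR)
  rw [hR]
  have hd : Nat.card (zpowers r) ∣ p := hR ▸ Subgroup.card_dvd_of_le (zpowers_le.mpr hrR)
  rcases (Nat.dvd_prime hp).mp hd with h | h
  · exfalso
    apply hr1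
    exact Subgroup.zpowers_eq_bot.mp (Subgroup.card_eq_one.mp h)
  · exact h.ge

/-- The transitivity lemma: `E` of order `p²` abelian in the `p`-group `P`, `Z ≤ E` of order `p`
central in `P`, `y ∈ N_P(E)` not centralizing `E`, `b ∈ E \ Z`; then every subgroup `X ≠ Z` of
order `p` of `E` contains a `⟨y⟩`-conjugate of `b`. -/
theorem om_conj [Finite G] {p : ℕ} [Fact p.Prime] {P E Z : Subgroup G} (hP : IsPGroup p P)
    (hEP : E ≤ P) (hEcomm : ∀ a ∈ E, ∀ b ∈ E, a * b = b * a) (hEcard : Nat.card E = p ^ 2)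
    (hZE : Z ≤ E) (hZcard : Nat.card Z = p) (hZc : ∀ z ∈ Z, ∀ s ∈ P, s * z = z * s)
    {y : G} (hyP : y ∈ P) (hyN : y ∈ normalizer (E : Set G))
    (hyC : ¬ ∀ e ∈ E, y * e = e * y)
    {b : G} (hbE : b ∈ E) (hbZ : b ∉ Z) {X : Subgroup G} (hXE : X ≤ E)
    (hXcard : Nat.card X = p) (hXZ : X ≠ Z) : ∃ n : ℕ, y ^ n * b * (y ^ n)⁻¹ ∈ X := by
  have hp : p.Prime := Fact.out
  have hyE : ∀ e ∈ E, y * e * y⁻¹ ∈ E := fun e he => (mem_normalizer_iff.mp hyN e).mp he
  have hyE' : ∀ e ∈ E, y⁻¹ * e * y ∈ E := fun e he => by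
    have := (mem_normalizer_iff.mp (inv_mem hyN) e).mp he
    simpa using this
  -- Step 1: `C_E(y) = Z`
  have h1 : ∀ e ∈ E, y * e = e * y → e ∈ Z := by
    intro e he hye
    by_contra heZ
    have hK : Z ⊔ zpowers e = E :=
      om_between le_sup_left (sup_le hZE (by rw [zpowers_le]; exact he)) hZcard hEcard (by
        intro h
        apply heZ
        rw [← h]
        exact (le_sup_right : zpowers e ≤ Z ⊔ zpowers e) (mem_zpowers e))
    have hle : Z ⊔ zpowers e ≤ centralizer ({y} : Set G) := by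
      refine sup_le ?_ ?_
      · intro z hz
        rw [mem_centralizer_iff]
        intro h hh
        rw [Set.mem_singleton_iff] at hh
        subst hh
        exact hZc z hz h hyP
      · rw [zpowers_le, mem_centralizer_iff]
        intro h hh
        rw [Set.mem_singleton_iff] at hh
        subst hh
        exact hye
    apply hyC
    intro e' he'
    rw [← hK] at he'
    have := hle he'
    rw [mem_centralizer_iff] at this
    exact this y rfl
  -- Step 2: the commutator map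
  let φ : ↥E →* G := MonoidHom.mk' (fun e => y * (e : G) * y⁻¹ * (e : G)⁻¹) (by
    intro a b
    have hcomm : (y * (b : G) * y⁻¹ * (b : G)⁻¹) * (a : G)⁻¹
        = (a : G)⁻¹ * (y * (b : G) * y⁻¹ * (b : G)⁻¹) :=
      hEcomm _ (mul_mem (hyE b b.2) (inv_mem b.2)) _ (inv_mem a.2)
    simp only [Subgroup.coe_mul]
    calc y * ((a : G) * b) * y⁻¹ * ((a : G) * b)⁻¹
        = y * a * y⁻¹ * ((y * (b : G) * y⁻¹ * (b : G)⁻¹) * (a : G)⁻¹) := by group
      _ = y * a * y⁻¹ * ((a : G)⁻¹ * (y * (b : G) * y⁻¹ * (b : G)⁻¹)) := by rw [hcomm]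
      _ = (y * a * y⁻¹ * (a : G)⁻¹) * (y * b * y⁻¹ * (b : G)⁻¹) := by group)
  have hφ : ∀ e : ↥E, φ e = y * (e : G) * y⁻¹ * (e : G)⁻¹ := fun e => rfl
  have hφE : ∀ e : ↥E, φ e ∈ E := fun e => mul_mem (hyE e e.2) (inv_mem e.2)
  have hker : ∀ e : ↥E, e ∈ φ.ker ↔ y * (e : G) = (e : G) * y := by
    intro e
    rw [MonoidHom.mem_ker, hφ]
    constructor
    · intro h
      have h' : y * (e : G) * y⁻¹ = e := by
        rw [← mul_inv_eq_one]
        exact h
      calc y * (e : G) = y * e * y⁻¹ * y := by group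
        _ = e * y := by rw [h']
    · intro h
      rw [h]
      group
  have hkerne_bot : φ.ker ≠ ⊥ := by
    obtain ⟨z, hz, hz1⟩ : ∃ z ∈ Z, z ≠ 1 := by
      by_contra hcon
      push Not at hcon
      have : Z = ⊥ := (Subgroup.eq_bot_iff_forall Z).mpr hcon
      rw [this, Subgroup.card_bot] at hZcard
      exact hp.one_lt.ne hZcard
    intro h
    have hmem : (⟨z, hZE hz⟩ : ↥E) ∈ φ.ker := (hker _).mpr (hZc z hz y hyP)
    rw [h, Subgroup.mem_bot] at hmem
    exact hz1 (congrArg Subtype.val hmem)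
  have hkerne_top : φ.ker ≠ ⊤ := by
    intro h
    apply hyC
    intro e he
    exact (hker ⟨e, he⟩).mp (h ▸ Subgroup.mem_top _)
  have hcardker : Nat.card φ.ker = p := by
    have hdvd : Nat.card φ.ker ∣ p ^ 2 := hEcard ▸ Subgroup.card_subgroup_dvd_card φ.ker
    obtain ⟨k, hk, hkc⟩ := (Nat.dvd_prime_pow hp).mp hdvd
    interval_cases k
    · rw [pow_zero] at hkc
      exact absurd (Subgroup.card_eq_one.mp hkc) hkerne_bot
    · rw [pow_one] at hkc
      exact hkc
    · exfalso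
      apply hkerne_top
      exact Subgroup.eq_top_of_card_eq _ (by rw [hkc, hEcard])
  have hcardR : Nat.card φ.range = p := by
    have h1 := Subgroup.card_mul_index φ.ker
    rw [Subgroup.index_ker, hcardker, hEcard] at h1
    have h2 : p * Nat.card φ.range = p * p := by rw [h1]; ring
    exact Nat.eq_of_mul_eq_mul_left hp.pos h2
  have hRE : φ.range ≤ E := by
    rintro _ ⟨e, rfl⟩
    exact hφE e
  have hRp : IsPGroup p φ.range := hP.to_le (hRE.trans hEP)
  have hRne : φ.range ≠ ⊥ := by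
    intro h
    rw [h, Subgroup.card_bot] at hcardR
    exact hp.one_lt.ne hcardR
  have hyNR : y ∈ normalizer (φ.range : Set G) := by
    rw [mem_normalizer_iff]
    intro h
    constructor
    · rintro ⟨e, rfl⟩
      refine ⟨⟨y * (e : G) * y⁻¹, hyE e e.2⟩, ?_⟩
      rw [hφ, hφ]
      group
    · rintro ⟨e, he⟩
      refine ⟨⟨y⁻¹ * (e : G) * y, hyE' e e.2⟩, ?_⟩
      rw [hφ] at he ⊢
      have : h = y⁻¹ * (y * (e : G) * y⁻¹ * (e : G)⁻¹) * y := by rw [he]; group
      rw [this]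
      group
  obtain ⟨r, hrR, hr1, hrc⟩ :=
    om_exists_fixed (hP.to_le (zpowers_le.mpr hyP)) hRp (zpowers_le.mpr hyNR) hRne
  have hry : y * r = r * y := hrc y (mem_zpowers y)
  have hrZ : r ∈ Z := h1 r (hRE hrR) hry
  have hRZ : φ.range ≤ Z := by
    rw [← om_zpowers_eq hcardR hrR hr1, zpowers_le]
    exact hrZ
  have h2 : ∀ e ∈ E, y * e * y⁻¹ * e⁻¹ ∈ Z := fun e he => hRZ ⟨⟨e, he⟩, rfl⟩
  -- Step 3
  obtain ⟨c, hc⟩ : ∃ c, c = y * b * y⁻¹ * b⁻¹ := ⟨_, rfl⟩
  have hcZ : c ∈ Z := hc ▸ h2 b hbE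
  have hyb : y * b * y⁻¹ = c * b := by rw [hc]; group
  have hc1 : c ≠ 1 := by
    intro h
    apply hbZ
    apply h1 b hbE
    rw [h, one_mul] at hyb
    calc y * b = y * b * y⁻¹ * y := by group
      _ = b * y := by rw [hyb]
  have hyc : Commute y c := hZc c hcZ y hyP
  have hpow : ∀ n : ℕ, y ^ n * b * (y ^ n)⁻¹ = c ^ n * b := by
    intro n
    induction n with
    | zero => simp
    | succ n ih =>
      have hcn : y * c ^ n = c ^ n * y := hyc.pow_right n
      calc y ^ (n + 1) * b * (y ^ (n + 1))⁻¹ = y * (y ^ n * b * (y ^ n)⁻¹) * y⁻¹ := by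
            rw [pow_succ']; group
        _ = y * (c ^ n * b) * y⁻¹ := by rw [ih]
        _ = (y * c ^ n) * y⁻¹ * (y * b * y⁻¹) := by group
        _ = c ^ n * y * y⁻¹ * (c * b) := by rw [hcn, hyb]
        _ = c ^ (n + 1) * b := by rw [pow_succ]; group
  -- Step 4
  have hZX : Z ⊔ X = E := om_between le_sup_left (sup_le hZE hXE) hZcard hEcard (by
    intro h
    apply hXZ
    have hXleZ : X ≤ Z := by
      rw [← h]
      exact le_sup_right
    exact Subgroup.eq_of_le_of_card_ge hXleZ (by rw [hZcard, hXcard]))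
  have hb' : b ∈ Z ⊔ X := hZX ▸ hbE
  obtain ⟨z₀, hz₀, x₀, hx₀, hbz⟩ :=
    om_mem_sup (fun z hz x hx => hEcomm z (hZE hz) x (hXE hx)) hb'
  have hz₀' : z₀⁻¹ ∈ zpowers c := by
    rw [om_zpowers_eq hZcard hcZ hc1]
    exact inv_mem hz₀
  obtain ⟨n, hn⟩ := mem_powers_iff_mem_zpowers.mpr hz₀'
  refine ⟨n, ?_⟩
  have hn' : c ^ n = z₀⁻¹ := hn
  rw [hpow n, hn', hbz, inv_mul_cancel_left]
  exact hx₀

/-- (Ω-1), (Ω-2): under Hypothesis 11.1, `A` is central in every Sylow `p`-subgroup of `M`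
containing it. -/
theorem excCentral [Finite G] (h350 : St1350 G) (hF : StExcFacts G) (hT : StExcTI G)
    (hX : StExcFix G) (hSig : Cfsg.Agent.H29.BG117.StSigNe G) : StExcCentral G := by
  intro M A A₀ p _ hE P hAP
  have hp : p.Prime := Fact.out
  have hFacts := hF M A A₀ p hE
  obtain ⟨P', hP'⟩ : ∃ P' : Subgroup G, P' = (P : Subgroup M).map M.subtype := ⟨_, rfl⟩
  rw [← hP'] at hAP ⊢
  have hP'M : P' ≤ M := by
    rw [hP']
    rintro _ ⟨y, -, rfl⟩
    exact y.2
  have hP'p : IsPGroup p P' := by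
    rw [hP']
    exact P.isPGroup'.map _
  have hA1 : A ≠ ⊥ := by
    intro h
    have hc := hE.card
    rw [h, Subgroup.card_bot] at hc
    have : 1 < p ^ 2 := Nat.one_lt_pow (by norm_num) hp.one_lt
    omega
  have hP'1 : P' ≠ ⊥ := fun h => hA1 (eq_bot_iff.mpr (h ▸ hAP))
  have hpM : p ∣ Nat.card M := by
    have h1 : Nat.card A ∣ Nat.card M := Subgroup.card_dvd_of_le hE.le
    rw [hE.card] at h1
    exact (dvd_pow_self p (by norm_num)).trans h1
  have hN : ¬ normalizer (P' : Set G) ≤ M := fun h => hE.nsig ⟨hp, hpM, P, hP' ▸ h⟩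
  obtain ⟨g, hgP, hgM⟩ := Set.not_subset.mp hN
  have hPconj : P'.map (MulAut.conj g).toMonoidHom = P' := map_conj_eq_of_mem_normalizer hgP
  have hAgM : A ≤ M.map (MulAut.conj g).toMonoidHom := by
    calc A ≤ P' := hAP
      _ = P'.map (MulAut.conj g).toMonoidHom := hPconj.symm
      _ ≤ M.map (MulAut.conj g).toMonoidHom := Subgroup.map_mono hP'M
  obtain ⟨Z, hZ⟩ : ∃ Z : Subgroup G, Z = omegaZ p P' := ⟨_, rfl⟩
  have hZmem : ∀ z, z ∈ Z ↔ z ∈ P' ∧ (∀ s ∈ P', s * z = z * s) ∧ z ^ p = 1 := by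
    intro z
    rw [hZ]
    exact mem_omegaZ
  have hZ1 : Z ≠ ⊥ := hZ ▸ omegaZ_ne_bot hP'p hP'1
  have hZA : Z ≤ A := by
    intro z hz
    have hz' := (hZmem z).mp hz
    have hzc : z ∈ centralizer (A : Set G) := by
      rw [Subgroup.mem_centralizer_iff]
      intro a ha
      exact hz'.2.1 a (hAP ha)
    exact (hFacts.omega z hzc).mp hz'.2.2
  have hNZ : normalizer (P' : Set G) ≤ normalizer (Z : Set G) :=
    hZ ▸ normalizer_le_normalizer_omegaZ p P'
  have hZconj : Z.map (MulAut.conj g).toMonoidHom = Z :=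
    map_conj_eq_of_mem_normalizer (hNZ hgP)
  by_cases hZp : Nat.card Z = p
  · exfalso
    have hfixZ : sigmaCore M ⊓ centralizer (Z : Set G) = ⊥ :=
      hX M A A₀ p hE g hgM hAgM Z hZA hZp hZconj
    have hA₀Z : A₀ ≠ Z := by
      intro h
      apply hgM
      apply hE.norm
      rw [h]
      exact hNZ hgP
    obtain ⟨E, hEdef⟩ : ∃ E : Subgroup G, E = A.map (MulAut.conj g).toMonoidHom := ⟨_, rfl⟩
    have hEP : E ≤ P' := by
      rw [hEdef, ← hPconj]
      exact Subgroup.map_mono hAP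
    have hEcard : Nat.card E = p ^ 2 := by
      rw [hEdef, Subgroup.card_map_of_injective (MulAut.conj g).injective]
      exact hE.card
    have hEpow : ∀ e ∈ E, e ^ p = 1 := by
      intro e he
      rw [hEdef] at he
      obtain ⟨a, ha, rfl⟩ := he
      show (g * a * g⁻¹) ^ p = 1
      rw [conj_pow, hE.elem.2 a ha]
      group
    have hEcomm : ∀ a ∈ E, ∀ b ∈ E, a * b = b * a := by
      intro a ha b hb
      rw [hEdef] at ha hb
      obtain ⟨a, ha, rfl⟩ := ha
      obtain ⟨b, hb, rfl⟩ := hb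
      have h1 : a * b = b * a := congrArg Subtype.val (hE.elem.1.is_comm.comm ⟨a, ha⟩ ⟨b, hb⟩)
      show g * a * g⁻¹ * (g * b * g⁻¹) = g * b * g⁻¹ * (g * a * g⁻¹)
      calc g * a * g⁻¹ * (g * b * g⁻¹) = g * (a * b) * g⁻¹ := by group
        _ = g * (b * a) * g⁻¹ := by rw [h1]
        _ = g * b * g⁻¹ * (g * a * g⁻¹) := by group
    have hZE : Z ≤ E := by
      rw [hEdef, ← hZconj]
      exact Subgroup.map_mono hZA
    obtain ⟨B, hBdef⟩ : ∃ B : Subgroup G, B = A₀.map (MulAut.conj g).toMonoidHom := ⟨_, rfl⟩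
    have hBE : B ≤ E := by
      rw [hBdef, hEdef]
      exact Subgroup.map_mono hE.le₀
    have hBcard : Nat.card B = p := by
      rw [hBdef, Subgroup.card_map_of_injective (MulAut.conj g).injective]
      exact hE.card₀
    have hBZ : B ≠ Z := by
      intro h
      apply hA₀Z
      apply Subgroup.map_injective
        (show Function.Injective (MulAut.conj g).toMonoidHom from (MulAut.conj g).injective)
      rw [hZconj, ← hBdef]
      exact h
    have hfixB : sigmaCore M ⊓ centralizer (B : Set G) = ⊥ := by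
      have hcent : centralizer (B : Set G) ≤ M.map (MulAut.conj g).toMonoidHom := by
        intro x hx
        rw [hBdef, Subgroup.mem_centralizer_iff] at hx
        have hx' : g⁻¹ * x * g ∈ centralizer (A₀ : Set G) := by
          rw [Subgroup.mem_centralizer_iff]
          intro a ha
          have h1 := hx (g * a * g⁻¹) ⟨a, ha, rfl⟩
          calc a * (g⁻¹ * x * g) = g⁻¹ * ((g * a * g⁻¹) * x) * g := by group
            _ = g⁻¹ * (x * (g * a * g⁻¹)) * g := by rw [h1]
            _ = g⁻¹ * x * g * a := by group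
        have hxM : g⁻¹ * x * g ∈ M :=
          hE.norm (Subgroup.centralizer_le_normalizer (A₀ : Set G) hx')
        refine ⟨g⁻¹ * x * g, hxM, ?_⟩
        change g * (g⁻¹ * x * g) * g⁻¹ = x
        group
      rw [eq_bot_iff, ← hT M A A₀ p hE g hgM hAgM]
      exact inf_le_inf_left _ hcent
    have hEomega : ∀ x ∈ centralizer (E : Set G), x ^ p = 1 → x ∈ E := by
      intro x hx hxp
      have hx' : g⁻¹ * x * g ∈ centralizer (A : Set G) := by
        rw [mem_centralizer_iff]
        intro a ha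
        have h1 := (mem_centralizer_iff.mp hx) (g * a * g⁻¹) (hEdef ▸ ⟨a, ha, rfl⟩)
        calc a * (g⁻¹ * x * g) = g⁻¹ * ((g * a * g⁻¹) * x) * g := by group
          _ = g⁻¹ * (x * (g * a * g⁻¹)) * g := by rw [h1]
          _ = g⁻¹ * x * g * a := by group
      have hxp' : (g⁻¹ * x * g) ^ p = 1 := by
        have h1 : g⁻¹ * x * g = g⁻¹ * x * g⁻¹⁻¹ := by rw [inv_inv]
        rw [h1, conj_pow, hxp]
        group
      have hmem := (hFacts.omega _ hx').mp hxp'
      rw [hEdef]
      refine ⟨g⁻¹ * x * g, hmem, ?_⟩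
      show g * (g⁻¹ * x * g) * g⁻¹ = x
      group
    have hnc : ¬ P' ≤ centralizer (E : Set G) := by
      intro h
      have hEZ : E ≤ Z := by
        intro e he
        rw [hZmem]
        refine ⟨hEP he, fun s hs => ?_, hEpow e he⟩
        exact ((mem_centralizer_iff.mp (h hs)) e he).symm
      have h1 := Subgroup.card_le_of_le hEZ
      rw [hEcard, hZp] at h1
      nlinarith [hp.one_lt]
    have hlt : P' ⊓ centralizer (E : Set G) < P' :=
      lt_of_le_of_ne inf_le_left (fun h => hnc (inf_eq_left.mp h))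
    obtain ⟨y, hyP, hyN, hyC⟩ := exists_normalizing_not_mem hP'p hlt
    have hEC : E ≤ P' ⊓ centralizer (E : Set G) := le_inf hEP (fun e he => by
      rw [mem_centralizer_iff]
      intro h hh
      exact hEcomm h hh e he)
    have hconjE : ∀ u ∈ normalizer ((P' ⊓ centralizer (E : Set G) : Subgroup G) : Set G),
        ∀ e ∈ E, u * e * u⁻¹ ∈ E := by
      intro u hu e he
      have h1 : u * e * u⁻¹ ∈ P' ⊓ centralizer (E : Set G) :=
        (mem_normalizer_iff.mp hu e).mp (hEC he)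
      apply hEomega _ h1.2
      rw [conj_pow, hEpow e he]
      group
    have hyNE : y ∈ normalizer (E : Set G) := by
      rw [mem_normalizer_iff]
      intro h
      constructor
      · exact hconjE y hyN h
      · intro hh
        have h1 := hconjE y⁻¹ (inv_mem hyN) _ hh
        have h2 : y⁻¹ * (y * h * y⁻¹) * y⁻¹⁻¹ = h := by group
        rw [h2] at h1
        exact h1
    have hyCE : ¬ ∀ e ∈ E, y * e = e * y := by
      intro h
      apply hyC
      refine ⟨hyP, ?_⟩
      show y ∈ centralizer (E : Set G)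
      rw [mem_centralizer_iff]
      intro e he
      exact (h e he).symm
    obtain ⟨b, hbB, hbZ⟩ : ∃ b ∈ B, b ∉ Z := by
      by_contra hcon
      push Not at hcon
      exact hBZ (Subgroup.eq_of_le_of_card_ge hcon (by rw [hBcard, hZp]))
    have hb1 : b ≠ 1 := fun h => hbZ (h ▸ Z.one_mem)
    have hBb : zpowers b = B := om_zpowers_eq hBcard hbB hb1
    obtain ⟨hHallM, -, -⟩ := h350 M hE.coatom
    obtain ⟨hSM, hSprime, hSidx⟩ := hHallM
    have hpS : ¬ p ∣ Nat.card (sigmaCore M) := fun h => hE.nsig (hSprime p hp h)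
    have hEel : IsElementaryAbelian p E :=
      ⟨⟨⟨fun a b => Subtype.ext (hEcomm a a.2 b b.2)⟩⟩, hEpow⟩
    have hMnorm : M ≤ normalizer (sigmaCore M : Set G) :=
      Cfsg.Agent.H54.BG11.le_normalizer_sigmaCore M
    have hEnorm : E ≤ normalizer (sigmaCore M : Set G) := (hEP.trans hP'M).trans hMnorm
    have hgen := Cfsg.Agent.S1324.result p E (sigmaCore M) hEel (by rw [hEcard]) hpS hEnorm
    apply hSig M hE.coatom
    rw [hgen, iSup_eq_bot]
    rintro ⟨D, hDE, hDrel⟩
    show sigmaCore M ⊓ centralizer (D : Set G) = ⊥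
    by_cases hDZ : D ≤ Z
    · -- `D = Z`
      have hDZ' : D = Z := by
        by_contra hne
        have hdvd : Nat.card D ∣ p := hZp ▸ Subgroup.card_dvd_of_le hDZ
        rcases (Nat.dvd_prime hp).mp hdvd with h | h
        · have hbot : D = ⊥ := Subgroup.card_eq_one.mp h
          rw [hbot, Subgroup.relIndex_bot_left, hEcard] at hDrel
          nlinarith [hp.one_lt]
        · exact hne (Subgroup.eq_of_le_of_card_ge hDZ (by rw [h, hZp]))
      rw [hDZ']
      exact hfixZ
    · obtain ⟨d, hdD, hdZ⟩ := Set.not_subset.mp hDZ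
      have hd1 : d ≠ 1 := fun h => hdZ (h ▸ Z.one_mem)
      have hdE : d ∈ E := hDE hdD
      have hXcard : Nat.card (zpowers d) = p := by
        rw [Nat.card_zpowers]
        exact orderOf_eq_prime (hEpow d hdE) hd1
      have hXZ : zpowers d ≠ Z := fun h => hdZ (h ▸ mem_zpowers d)
      obtain ⟨n, hn⟩ := om_conj hP'p hEP hEcomm hEcard hZE hZp
        (fun z hz s hs => ((hZmem z).mp hz).2.1 s hs) hyP hyNE hyCE (hBE hbB) hbZ
        (zpowers_le.mpr hdE) hXcard hXZ
      have hnD : y ^ n * b * (y ^ n)⁻¹ ∈ D := (zpowers_le.mpr hdD) hn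
      have huM : y ^ n ∈ M := hP'M (pow_mem hyP n)
      rw [eq_bot_iff]
      intro v hv
      rw [Subgroup.mem_bot]
      have hvc : (y ^ n * b * (y ^ n)⁻¹) * v = v * (y ^ n * b * (y ^ n)⁻¹) :=
        (mem_centralizer_iff.mp hv.2) _ hnD
      have hwS : (y ^ n)⁻¹ * v * (y ^ n)⁻¹⁻¹ ∈ sigmaCore M :=
        (mem_normalizer_iff.mp (hMnorm (inv_mem huM)) v).mp hv.1
      rw [inv_inv] at hwS
      have hwb : b * ((y ^ n)⁻¹ * v * y ^ n) = (y ^ n)⁻¹ * v * y ^ n * b := by
        calc b * ((y ^ n)⁻¹ * v * y ^ n)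
            = (y ^ n)⁻¹ * ((y ^ n * b * (y ^ n)⁻¹) * v) * y ^ n := by group
          _ = (y ^ n)⁻¹ * (v * (y ^ n * b * (y ^ n)⁻¹)) * y ^ n := by rw [hvc]
          _ = (y ^ n)⁻¹ * v * y ^ n * b := by group
      have hwC : (y ^ n)⁻¹ * v * y ^ n ∈ centralizer (B : Set G) := by
        rw [← hBb, mem_centralizer_iff]
        intro h hh
        obtain ⟨k, rfl⟩ := mem_zpowers_iff.mp hh
        exact Commute.zpow_left (show Commute b ((y ^ n)⁻¹ * v * y ^ n) from hwb) k
      have hw1 : (y ^ n)⁻¹ * v * y ^ n ∈ sigmaCore M ⊓ centralizer (B : Set G) := ⟨hwS, hwC⟩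
      rw [hfixB, Subgroup.mem_bot] at hw1
      have : v = y ^ n * ((y ^ n)⁻¹ * v * y ^ n) * (y ^ n)⁻¹ := by group
      rw [this, hw1]
      group
  · have hZA' : Z = A := by
      have hdvd : Nat.card Z ∣ p ^ 2 := hE.card ▸ Subgroup.card_dvd_of_le hZA
      obtain ⟨k, hk, hkc⟩ := (Nat.dvd_prime_pow hp).mp hdvd
      have hk2 : k = 2 := by
        interval_cases k
        · rw [pow_zero] at hkc
          exact absurd (Subgroup.card_eq_one.mp hkc) hZ1
        · rw [pow_one] at hkc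
          exact absurd hkc hZp
        · rfl
      rw [hk2] at hkc
      exact Subgroup.eq_of_le_of_card_ge hZA (by rw [hkc, hE.card])
    intro x hx
    rw [mem_centralizer_iff]
    intro a ha
    have haZ : a ∈ Z := hZA' ▸ ha
    exact (((hZmem a).mp haZ).2.1 x hx).symm

/-- Hypothesis 11.1 is invariant under conjugation by elements of `M`. -/
theorem exc_conj {M A A₀ : Subgroup G} {p : ℕ} (hE : Exc M A A₀ p) {m : G} (hm : m ∈ M) :
    Exc M (A.map (MulAut.conj m).toMonoidHom) (A₀.map (MulAut.conj m).toMonoidHom) p := by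
  have hinj : Function.Injective (MulAut.conj m).toMonoidHom := (MulAut.conj m).injective
  refine ⟨hE.coatom, hE.nsig, ?_, ⟨?_, ?_⟩, ?_, Subgroup.map_mono hE.le₀, ?_, ?_⟩
  · rintro _ ⟨a, ha, rfl⟩
    exact mul_mem (mul_mem hm (hE.le ha)) (inv_mem hm)
  · refine ⟨⟨fun a b => Subtype.ext ?_⟩⟩
    obtain ⟨a', ha', hae⟩ := a.2
    obtain ⟨b', hb', hbe⟩ := b.2
    have h1 : a' * b' = b' * a' :=
      congrArg Subtype.val (hE.elem.1.is_comm.comm ⟨a', ha'⟩ ⟨b', hb'⟩)
    show (a : G) * (b : G) = (b : G) * (a : G)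
    rw [← hae, ← hbe]
    show m * a' * m⁻¹ * (m * b' * m⁻¹) = m * b' * m⁻¹ * (m * a' * m⁻¹)
    calc m * a' * m⁻¹ * (m * b' * m⁻¹) = m * (a' * b') * m⁻¹ := by group
      _ = m * (b' * a') * m⁻¹ := by rw [h1]
      _ = m * b' * m⁻¹ * (m * a' * m⁻¹) := by group
  · rintro _ ⟨a, ha, rfl⟩
    show (m * a * m⁻¹) ^ p = 1
    rw [conj_pow, hE.elem.2 a ha]
    group
  · rw [Subgroup.card_map_of_injective hinj]
    exact hE.card
  · rw [Subgroup.card_map_of_injective hinj]
    exact hE.card₀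
  · intro x hx
    have hx' : m⁻¹ * x * m ∈ normalizer (A₀ : Set G) := by
      rw [mem_normalizer_iff]
      intro h
      rw [← Subgroup.mem_map_iff_mem hinj (x := h),
        ← Subgroup.mem_map_iff_mem hinj (x := (m⁻¹ * x * m) * h * (m⁻¹ * x * m)⁻¹)]
      have h1 := (mem_normalizer_iff.mp hx) (m * h * m⁻¹)
      have e : (MulAut.conj m).toMonoidHom ((m⁻¹ * x * m) * h * (m⁻¹ * x * m)⁻¹)
          = x * (m * h * m⁻¹) * x⁻¹ := by
        show m * ((m⁻¹ * x * m) * h * (m⁻¹ * x * m)⁻¹) * m⁻¹ = _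
        group
      rw [e]
      exact h1
    have h2 := hE.norm hx'
    have e : x = m * (m⁻¹ * x * m) * m⁻¹ := by group
    rw [e]
    exact mul_mem (mul_mem hm h2) (inv_mem hm)

open scoped Pointwise in
/-- BG117-OMEGA: under Hypothesis 11.1 the Sylow `p`-subgroups of `M` are abelian, and `A` is
the set of elements of order dividing `p` of each one containing it. -/
theorem excOmega [Finite G] (h350 : St1350 G) (hF : StExcFacts G) (hT : StExcTI G)
    (hX : StExcFix G) (hSig : Cfsg.Agent.H29.BG117.StSigNe G) (hAb2 : StCentAbel2 G)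
    (hAb3 : StCentAbel3 G) : Cfsg.Agent.H29.BG117.StExcOmega G := by
  have hC := excCentral h350 hF hT hX hSig
  have key : ∀ (M A A₀ : Subgroup G) (p : ℕ) [Fact p.Prime], Exc M A A₀ p → ∀ P : Sylow p M,
      A ≤ (P : Subgroup M).map M.subtype → IsMulCommutative (P : Subgroup M) := by
    intro M A A₀ p _ hE P hAP
    have hFacts := hF M A A₀ p hE
    have hcen := hC M A A₀ p hE P hAP
    have hP'p : IsPGroup p ((P : Subgroup M).map M.subtype) := P.isPGroup'.map _
    obtain ⟨S, hS⟩ := hP'p.exists_le_sylow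
    have hcomm : ∀ s ∈ (S : Subgroup G) ⊓ centralizer (A : Set G),
        ∀ t ∈ (S : Subgroup G) ⊓ centralizer (A : Set G), s * t = t * s := by
      by_cases hr : PRankLE p 2 (S : Subgroup G)
      · exact hAb2 p S A hr (hAP.trans hS) hE.elem hE.card
      · exact hAb3 p S A hr (hAP.trans hS) hE.elem hE.card hFacts.omega
    refine ⟨⟨fun a b => ?_⟩⟩
    have ha : ((a : M) : G) ∈ (P : Subgroup M).map M.subtype := ⟨a, a.2, rfl⟩
    have hb : ((b : M) : G) ∈ (P : Subgroup M).map M.subtype := ⟨b, b.2, rfl⟩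
    have h1 := hcomm _ ⟨hS ha, hcen ha⟩ _ ⟨hS hb, hcen hb⟩
    apply Subtype.ext
    apply Subtype.ext
    exact h1
  intro M A A₀ p _ hE P
  have hp : p.Prime := Fact.out
  have hFacts := hF M A A₀ p hE
  refine ⟨?_, ?_⟩
  · have hAp : IsPGroup p (A.subgroupOf M) := by
      intro x
      refine ⟨1, ?_⟩
      rw [pow_one]
      apply Subtype.ext
      apply Subtype.ext
      have := hE.elem.2 ((x : M) : G) (Subgroup.mem_subgroupOf.mp x.2)
      simpa using this
    obtain ⟨Q, hQ⟩ := hAp.exists_le_sylow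
    obtain ⟨m, hm⟩ := MulAction.exists_smul_eq M Q P
    have hE' := exc_conj hE m.2
    apply key M _ _ p hE' P
    rintro _ ⟨a, ha, rfl⟩
    refine ⟨m * ⟨a, hE.le ha⟩ * m⁻¹, ?_, rfl⟩
    have h1 : (⟨a, hE.le ha⟩ : M) ∈ (Q : Subgroup M) := hQ (Subgroup.mem_subgroupOf.mpr ha)
    have h2 : MulAut.conj m • (⟨a, hE.le ha⟩ : M) ∈ MulAut.conj m • (Q : Subgroup M) :=
      Subgroup.smul_mem_pointwise_smul _ _ _ h1
    rw [← hm]
    exact h2
  · intro hAP x hx
    constructor
    · intro hxp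
      exact (hFacts.omega x (hC M A A₀ p hE P hAP hx)).mp hxp
    · intro hxA
      exact hE.elem.2 x hxA

end Cfsg.Agent.H63.BG11
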