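import Mathlib
import Cfsg.Agent.H63.BG117Omega
import Cfsg.Agent.H63.BG11Main
import Cfsg.Agent.H54.BG117AB2
import Cfsg.Agent.H54.BG117AB3
import Cfsg.Agent.H92.BG12Sig

set_option autoImplicit false

/-!
# B&G §11, piece OMEGA of the 11.7 project, unconditional form (helper63; sub-pieces AB2, AB3 by
helper54, `M_σ ≠ 1` by helper92)
-/

namespace Cfsg.Agent.H63.BG11

open Cfsg Subgroup Cfsg.Agent.H58.BG10

universe u

variable {G : Type u} [Group G] [Finite G]

/-- (Ω-1), (Ω-2). -/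
theorem stExcCentral (hG : IsMinSimpleOddOrder G) : StExcCentral G :=
  excCentral (st1350 hG) (stExcFacts hG) (stExcTI hG) (stExcFix hG)
    (Cfsg.Agent.H92.BG12.sigNe hG (st1405 hG) (st1350 hG))

/-- BG117-OMEGA. -/
theorem stExcOmega (hG : IsMinSimpleOddOrder G) : Cfsg.Agent.H29.BG117.StExcOmega G :=
  excOmega (st1350 hG) (stExcFacts hG) (stExcTI hG) (stExcFix hG)
    (Cfsg.Agent.H92.BG12.sigNe hG (st1405 hG) (st1350 hG))
    (Cfsg.Agent.H54.BG11.centAbel2 hG (st1412 hG)) (Cfsg.Agent.H54.BG11.centAbel3 hG)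

end Cfsg.Agent.H63.BG11
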