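import Mathlib
import Cfsg.Agent.H63.BG11Defs
import Cfsg.Agent.H29.BG117Defs
import Cfsg.Agent.H92.BG12Defs
import Cfsg.Agent.H92.BG123

set_option autoImplicit false
set_option linter.style.haveILetI false

/-!
# Bender–Glauberman Theorem 12.5 (= S1417) from Proposition 12.4 (S1416) and §11
(helper63)
-/

namespace Cfsg.Agent.H63.BG11

open Cfsg Subgroup Cfsg.Agent.H58.BG10 Cfsg.Agent.H92.BG12

universe u

variable {G : Type u} [Group G]

/-- `A`-invariant `q`-subgroups of `M_σ ∩ H` are centralized by `A`, for `M` exceptional and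
`H ≠ M` another maximal subgroup containing `A`. -/
theorem key125 [Finite G] (hG : IsMinSimpleOddOrder G) (h03 : St1403 G) (h04 : St1404 G)
    (h05 : St1405 G) (h50 : St1350 G) (hSC : StSigComm G) (h16 : St1416 G)
    (hU : StExcSigUniq G) (hN : Cfsg.Agent.H92.BG12.StExcNormal G)
    {M H A A₀ : Subgroup G} {p : ℕ} [Fact p.Prime] (hE : Exc M A A₀ p)
    (hH : IsCoatom H) (hne : H ≠ M) (hAH : A ≤ H) {q : ℕ} [Fact q.Prime] (hqp : q ≠ p)
    (hqM : q ∈ sigma M) {D : Subgroup G} (hDq : IsPGroup q D) (hDσ : D ≤ sigmaCore M)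
    (hDH : D ≤ H) (hAD : A ≤ normalizer (D : Set G)) : D ≤ centralizer (A : Set G) := by
  have hp : p.Prime := Fact.out
  have hq : q.Prime := Fact.out
  have hM : IsCoatom M := hE.coatom
  have hel := hE.elem
  have hcard := hE.card
  have hAp : IsPGroup p A := IsPGroup.of_card hcard
  have hDM : D ≤ M := hDσ.trans (Cfsg.Agent.Lib.Helper30.piCoreOf_le (sigma M) M)
  by_cases hpH : p ∈ sigma H
  · by_cases hqH : q ∈ sigma H
    · by_cases hD1 : D = ⊥
      · rw [hD1]; exact bot_le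
      · exact absurd (hU M A A₀ p hE H hH hAH q hqH D hDH hDσ hDq hD1) hne
    · have hAσ : A ≤ sigmaCore H := le_sigmaCore_of_mem h50 hH hpH hAp hAH
      have hnσ : H ≤ normalizer (sigmaCore H : Set G) :=
        Cfsg.Agent.Lib.Helper30.le_normalizer_piCoreOf (sigma H) H
      intro y hy
      rw [Subgroup.mem_centralizer_iff]
      intro a ha
      have ha' : a ∈ A := ha
      by_contra hay
      set c := y * a * y⁻¹ * a⁻¹ with hc
      have hc1 : c ≠ 1 := by
        intro h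
        apply hay
        have : y * a = a * y := by
          calc y * a = (y * a * y⁻¹ * a⁻¹) * (a * y) := by group
            _ = a * y := by rw [← hc, h, one_mul]
        exact this.symm
      have hcD : c ∈ D := by
        have h1 : a * y⁻¹ * a⁻¹ ∈ D :=
          (Subgroup.mem_normalizer_iff.mp (hAD ha') y⁻¹).mp (inv_mem hy)
        have : c = y * (a * y⁻¹ * a⁻¹) := by rw [hc]; group
        rw [this]
        exact mul_mem hy h1
      obtain ⟨j, hj⟩ := (IsPGroup.iff_orderOf.mp hDq) ⟨c, hcD⟩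
      have hcq : c ^ q ^ j = 1 := by
        have := pow_orderOf_eq_one (⟨c, hcD⟩ : D)
        rw [hj] at this
        simpa using congrArg Subtype.val this
      have hcσ : c ∈ sigmaCore H := by
        have h1 : y * a * y⁻¹ ∈ sigmaCore H :=
          (Subgroup.mem_normalizer_iff.mp (hnσ (hDH hy)) a).mp (hAσ ha')
        exact mul_mem h1 (inv_mem (hAσ ha'))
      exact hqH (mem_of_mem_piCoreOf (π := sigma H) (M := H) hcσ hc1 hcq)
  · -- `p ∉ σ(H)`: `H` is exceptional for `A` by 12.4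
    have hex : ∃ A₁ : Subgroup G, A₁ ≤ A ∧ Nat.card A₁ = p ∧ normalizer (A₁ : Set G) ≤ H := by
      by_contra hno
      push Not at hno
      exact hpH ((h16 H hH p A ⟨hAH, hel, hcard⟩).2
        (fun A₁ h1 h2 h3 => hno A₁ h1 h2 h3.1)).1
    obtain ⟨A₁, hA₁, hc₁, hN₁⟩ := hex
    exact key123 hG h03 h04 h05 h50 hSC hU hN hM hH hne hE.le hel hcard hA₁ hc₁ hN₁ hqp hqM
      hDq hDM hDH hAD

/-- B&G Theorem 12.5 (S1417) from Proposition 12.4 (S1416) and the results of §11. -/
theorem bg125 [Finite G] (hG : IsMinSimpleOddOrder G) (h03 : St1403 G) (h04 : St1404 G)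
    (h05 : St1405 G) (h50 : St1350 G) (hSC : StSigComm G) (h16 : St1416 G)
    (hNilp : StExcNilp G) (hFree : StExcFree G) (hΩ : Cfsg.Agent.H29.BG117.StExcOmega G)
    (hU : StExcSigUniq G) (hN : Cfsg.Agent.H92.BG12.StExcNormal G) : St1417 G := by
  intro M hM p _ hpτ A hA
  obtain ⟨hAM, hel, hcard⟩ := hA
  have hp : p.Prime := Fact.out
  have hpσ : p ∉ sigma M := hpτ.2.1
  have hAp : IsPGroup p A := IsPGroup.of_card hcard
  have hAcomm : ∀ a ∈ A, ∀ b ∈ A, a * b = b * a := fun a ha b hb =>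
    congrArg Subtype.val (hel.1.is_comm.comm ⟨a, ha⟩ ⟨b, hb⟩)
  have hAsolv : Group.IsSolvable A :=
    Group.isSolvable_of_comm (fun a b => hel.1.is_comm.comm a b)
  have hex : ∃ A₀ : Subgroup G, A₀ ≤ A ∧ Nat.card A₀ = p ∧ normalizer (A₀ : Set G) ≤ M := by
    by_contra hno
    push Not at hno
    exact hpσ ((h16 M hM p A ⟨hAM, hel, hcard⟩).2
      (fun A₀ h1 h2 h3 => hno A₀ h1 h2 h3.1)).1
  obtain ⟨A₀, hA₀, hc₀, hN₀⟩ := hex
  have hE : Exc M A A₀ p := ⟨hM, hpσ, hAM, hel, hcard, hA₀, hc₀, hN₀⟩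
  obtain ⟨A₁, hA₁, hc₁, hfree⟩ := hFree M A A₀ p hE
  have hd : sigmaCore M ⊓ centralizer (A : Set G) = ⊥ := by
    rw [eq_bot_iff, ← hfree]
    exact inf_le_inf_left _ (Subgroup.centralizer_le hA₁)
  have hpM : p ∣ Nat.card M := by
    have h1 : Nat.card A ∣ Nat.card M := Subgroup.card_dvd_of_le hAM
    rw [hcard] at h1
    exact (dvd_pow_self p two_ne_zero).trans h1
  refine ⟨hNilp M A A₀ p hE, ?_, hN M A A₀ p hE, hd, ?_, ⟨A₁, hA₁, hc₁, hfree⟩⟩
  · intro P
    obtain ⟨h1, h2⟩ := hΩ M A A₀ p hE P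
    refine ⟨h1, fun hAP => ⟨h2 hAP, ?_⟩⟩
    intro hNP
    exact hpσ ⟨hp, hpM, P, hNP⟩
  · intro H hH hne hAH
    set Y := sigmaCore M ⊓ H with hY
    have hYσ : Y ≤ sigmaCore M := inf_le_left
    have hYM : Y ≤ M := inf_le_left.trans (Cfsg.Agent.Lib.Helper30.piCoreOf_le (sigma M) M)
    have hYH : Y ≤ H := inf_le_right
    have hAY : A ≤ normalizer (Y : Set G) := by
      intro a ha
      exact Cfsg.Agent.H32.BG11.mem_normalizer_inf
        (Cfsg.Agent.Lib.Helper30.le_normalizer_piCoreOf (sigma M) M (hAM ha))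
        (Subgroup.le_normalizer (hAH ha))
    have hYπ : ∀ r : ℕ, r.Prime → r ∣ Nat.card Y → r ∈ sigma M := fun r hr hrY =>
      Cfsg.Agent.Lib.Helper30.piCoreOf_isPi (sigma M) M r hr
        (hrY.trans (Subgroup.card_dvd_of_le inf_le_left))
    have hcop : (Nat.card A).Coprime (Nat.card Y) := by
      rw [hcard]
      apply Nat.Coprime.pow_left
      rw [Nat.Prime.coprime_iff_not_dvd hp]
      exact fun h => hpσ (hYπ p hp h)
    have hYc : Y ≤ centralizer (A : Set G) := by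
      apply Cfsg.Agent.H76.BG10.le_of_sylow_le
      intro q hq hqY
      haveI : Fact q.Prime := ⟨hq⟩
      obtain ⟨P, hP⟩ := Cfsg.Agent.Lib.Helper30.coprime_exists_invariant_sylow A Y hAY hcop
        (Or.inl hAsolv) q
      have hqσ : q ∈ sigma M := hYπ q hq hqY
      refine ⟨(P : Subgroup Y).map Y.subtype, Subgroup.map_subtype_le _, ?_, ?_⟩
      · exact key125 hG h03 h04 h05 h50 hSC h16 hU hN hE hH hne hAH
          (fun h => hpσ (h ▸ hqσ)) hqσ (P.isPGroup'.map _)
          ((Subgroup.map_subtype_le _).trans hYσ) ((Subgroup.map_subtype_le _).trans hYH) hP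
      · rw [Cfsg.Agent.H76.BG10.relIndex_map_subtype']
        exact P.not_dvd_index
    rw [eq_bot_iff, ← hd]
    exact le_inf hYσ hYc

end Cfsg.Agent.H63.BG11
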