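import Mathlib
import Cfsg.Agent.H63.BG125
import Cfsg.Agent.H63.BG117OmegaMain
import Cfsg.Agent.H29.BG117Main
import Cfsg.Agent.H92.BG124CS

set_option autoImplicit false

/-!
# B&G 11.7, Proposition 12.4 and Theorem 12.5, unconditional forms (helper63; pieces by helper29,
helper92, helper37, helper31, helper40, helper54, helper55, helper60, helper38)
-/

namespace Cfsg.Agent.H63.BG11

open Cfsg Subgroup Cfsg.Agent.H58.BG10

universe u

variable {G : Type u} [Group G] [Finite G]

/-- B&G 11.7. -/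
theorem stExcNormal (hG : IsMinSimpleOddOrder G) : Cfsg.Agent.H29.BG117.StExcNormal G :=
  Cfsg.Agent.H29.BG117.stExcNormal_of hG (stExcOmega hG)

/-- B&G Proposition 12.4 (= S1416). -/
theorem st1416 (hG : IsMinSimpleOddOrder G) : St1416 G :=
  Cfsg.Agent.H92.BG12.st1416_of_normal hG (stExcNormal hG)

/-- B&G Theorem 12.5 (= S1417). -/
theorem st1417 (hG : IsMinSimpleOddOrder G) : St1417 G :=
  bg125 hG (st1403 hG) (st1404 hG) (st1405 hG) (st1350 hG) (stSigComm hG) (st1416 hG)
    (stExcNilp hG) (stExcFree hG) (stExcOmega hG) (Cfsg.Agent.H92.BG12.stExcSigUniq hG)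
    (stExcNormal hG)

end Cfsg.Agent.H63.BG11
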