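import Mathlib

set_option autoImplicit false

/-!
# Groups in which a normal subgroup `A` of exponent dividing 4 has all outside elements of order 3

The classical Burnside/Neumann theorem (a fixed-point-free automorphism of order three forces
nilpotency class at most two), in the special form needed here, proved through a small
computation in the endomorphism ring of an abelian normal subgroup.
-/

namespace Cfsg.Agent.H63.FpfThree

section RingCore

variable {R : Type*} [Ring R]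

theorem aux_uvu {U V : R} (hU : U * U = 0) (hV : V * V = 0)
    (hI : (U + V + U * V) * (U + V + U * V) = 0) : U * V * U = 0 := by
  have hI' : U * V + V * U + U * V * U + V * U * V + U * V * U * V = 0 := by
    have e : (U + V + U * V) * (U + V + U * V) =
        U * V + V * U + U * V * U + V * U * V + U * V * U * V
          + (U * U + V * V + U * U * V + U * (V * V)) := by noncomm_ring
    rw [e, hU, hV] at hI
    simpa using hI
  have hIa : U * V * U + U * V * U * V = 0 := by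
    have e : U * (U * V + V * U + U * V * U + V * U * V + U * V * U * V)
        = U * V * U + U * V * U * V + (U * U * V + U * U * V * U + U * U * V * U * V) := by
      noncomm_ring
    rw [hI', mul_zero, hU] at e
    simpa using e.symm
  have hUVUV : U * V * U * V = 0 := by
    have e : (U * V * U + U * V * U * V) * V = U * V * U * V + U * V * U * (V * V) := by
      noncomm_ring
    rw [hIa, zero_mul, hV] at e
    simpa using e.symm
  rw [hUVUV, add_zero] at hIa
  exact hIa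

theorem aux_anti {U V : R} (hU : U * U = 0) (hV : V * V = 0)
    (hI : (U + V + U * V) * (U + V + U * V) = 0)
    (hI' : (V + U + V * U) * (V + U + V * U) = 0) :
    U * V * U = 0 ∧ V * U * V = 0 ∧ V * U = - (U * V) := by
  have h1 := aux_uvu hU hV hI
  have h2 := aux_uvu hV hU hI'
  refine ⟨h1, h2, ?_⟩
  have e : (U + V + U * V) * (U + V + U * V) =
      U * V + V * U + U * V * U + V * U * V + U * V * U * V
        + (U * U + V * V + U * U * V + U * (V * V)) := by noncomm_ring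
  rw [e, hU, hV, h1, h2] at hI
  have : U * V + V * U = 0 := by simpa using hI
  exact eq_neg_of_add_eq_zero_right this

theorem aux_O6 {U U' σ : R} (hσ : 1 + σ + σ * σ = 0) (hσ3 : σ * σ * σ = 1)
    (h2 : 1 + (1 + U) * σ + (1 + U) * σ * ((1 + U) * σ) = 0)
    (h3 : σ * (1 + U) = (1 + U') * σ) (h4 : U * U' = 0) : σ * U = U * σ * σ := by
  have hA : σ * U = U' * σ := by
    have e1 : σ * (1 + U) = σ + σ * U := by noncomm_ring
    have e2 : (1 + U') * σ = σ + U' * σ := by noncomm_ring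
    rw [e1, e2] at h3
    exact add_left_cancel h3
  have hB : (1 + U) * σ * ((1 + U) * σ) = (1 + U + U') * σ * σ := by
    have e1 : (1 + U) * σ * ((1 + U) * σ) = (1 + U) * (σ * (1 + U)) * σ := by noncomm_ring
    rw [e1, h3]
    have e2 : (1 + U) * ((1 + U') * σ) * σ = (1 + U + U') * σ * σ + U * U' * σ * σ := by
      noncomm_ring
    rw [e2, h4]
    simp
  rw [hB] at h2
  have hC : U * σ + U * σ * σ + U' * σ * σ = 0 := by
    have e : 1 + (1 + U) * σ + (1 + U + U') * σ * σ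
        = (1 + σ + σ * σ) + (U * σ + U * σ * σ + U' * σ * σ) := by noncomm_ring
    rw [e, hσ, zero_add] at h2
    exact h2
  have hD : U * σ * σ + U + U' = 0 := by
    have e : (U * σ + U * σ * σ + U' * σ * σ) * σ
        = U * σ * σ + U * (σ * σ * σ) + U' * (σ * σ * σ) := by noncomm_ring
    rw [hC, zero_mul, hσ3, mul_one, mul_one] at e
    exact e.symm
  have hE : U + U * σ + U * σ * σ = 0 := by
    have e : U * (1 + σ + σ * σ) = U + U * σ + U * σ * σ := by noncomm_ring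
    rw [hσ, mul_zero] at e
    exact e.symm
  have hF : U' = U * σ := by
    have e : U' = (U * σ * σ + U + U') - (U + U * σ + U * σ * σ) + U * σ := by abel
    rw [hD, hE] at e
    simpa using e
  rw [hA, hF]

theorem ring_core {Γ : Type*} [Group Γ] (ρ : Γ →* R) (σ : R) (τ : Γ → Γ)
    (h4 : ∀ X : R, X + X + X + X = 0)
    (O1 : ∀ g, (ρ g - 1) * (ρ g - 1) = 0)
    (O2 : ∀ g, 1 + ρ g * σ + ρ g * σ * (ρ g * σ) = 0)
    (O3 : ∀ g, σ * ρ g = ρ (τ g) * σ)
    (O4 : ∀ g, (ρ g - 1) * (ρ (τ g) - 1) = 0)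
    (g h : Γ) : ρ (g * h * g⁻¹ * h⁻¹) = 1 := by
  have hσ : 1 + σ + σ * σ = 0 := by simpa using O2 1
  have hσ3 : σ * σ * σ = 1 := by
    have e : (σ - 1) * (1 + σ + σ * σ) = σ * σ * σ - 1 := by noncomm_ring
    rw [hσ, mul_zero] at e
    exact (sub_eq_zero.mp e.symm)
  have O6 : ∀ k, σ * (ρ k - 1) = (ρ k - 1) * σ * σ := by
    intro k
    apply aux_O6 (U' := ρ (τ k) - 1) hσ hσ3
    · have := O2 k
      simpa using this
    · have := O3 k
      simpa using this
    · exact O4 k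
  have hinv : ∀ k, ρ k⁻¹ = 1 - (ρ k - 1) := by
    intro k
    have e1 : ρ k⁻¹ * ρ k = 1 := by rw [← map_mul, inv_mul_cancel, map_one]
    have e2 : ρ k * (1 - (ρ k - 1)) = 1 - (ρ k - 1) * (ρ k - 1) := by noncomm_ring
    rw [O1 k, sub_zero] at e2
    calc ρ k⁻¹ = ρ k⁻¹ * (ρ k * (1 - (ρ k - 1))) := by rw [e2, mul_one]
      _ = (ρ k⁻¹ * ρ k) * (1 - (ρ k - 1)) := by rw [mul_assoc]
      _ = 1 - (ρ k - 1) := by rw [e1, one_mul]
  -- notation
  obtain ⟨U, hUdef⟩ : ∃ U, U = ρ g - 1 := ⟨_, rfl⟩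
  obtain ⟨V, hVdef⟩ : ∃ V, V = ρ h - 1 := ⟨_, rfl⟩
  have hg : ρ g = 1 + U := by rw [hUdef]; abel
  have hh : ρ h = 1 + V := by rw [hVdef]; abel
  have hUU : U * U = 0 := by rw [hUdef]; exact O1 g
  have hVV : V * V = 0 := by rw [hVdef]; exact O1 h
  have hI : (U + V + U * V) * (U + V + U * V) = 0 := by
    have e : U + V + U * V = ρ (g * h) - 1 := by rw [map_mul, hg, hh]; noncomm_ring
    rw [e]; exact O1 (g * h)
  have hI' : (V + U + V * U) * (V + U + V * U) = 0 := by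
    have e : V + U + V * U = ρ (h * g) - 1 := by rw [map_mul, hg, hh]; noncomm_ring
    rw [e]; exact O1 (h * g)
  obtain ⟨hUVU, hVUV, hVU⟩ := aux_anti hUU hVV hI hI'
  -- the commutator
  have hC : ρ (g * h * g⁻¹ * h⁻¹) - 1 = U * V + U * V := by
    rw [map_mul, map_mul, map_mul, hinv g, hinv h, ← hUdef, ← hVdef, hg, hh]
    have e : (1 + U) * (1 + V) * (1 - U) * (1 - V) - 1
        = U * V - V * U + V * U * V - U * V * U + U * V * U * V
          - U * U + U * U * V - V * V - U * (V * V) := by noncomm_ring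
    rw [e, hUU, hVV, hUVU, hVUV, hVU]
    simp
  obtain ⟨E, hEdef⟩ : ∃ E, E = ρ (g * h * g⁻¹ * h⁻¹) - 1 := ⟨_, rfl⟩
  have hE : E = U * V + U * V := by rw [hEdef, hC]
  have hσU : σ * U = U * σ * σ := by rw [hUdef]; exact O6 g
  have hσV : σ * V = V * σ * σ := by rw [hVdef]; exact O6 h
  have hσE : σ * E = E * σ * σ := by rw [hEdef]; exact O6 _
  have hσ3' : σ * (σ * σ) = 1 := by rw [← mul_assoc]; exact hσ3
  have hσUV : σ * (U * V) = U * V * σ := by
    calc σ * (U * V) = (σ * U) * V := (mul_assoc _ _ _).symm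
      _ = (U * σ * σ) * V := by rw [hσU]
      _ = U * σ * (σ * V) := by simp only [mul_assoc]
      _ = U * σ * (V * σ * σ) := by rw [hσV]
      _ = U * (σ * V) * (σ * σ) := by simp only [mul_assoc]
      _ = U * (V * σ * σ) * (σ * σ) := by rw [hσV]
      _ = U * V * (σ * (σ * σ)) * σ := by simp only [mul_assoc]
      _ = U * V * σ := by rw [hσ3', mul_one]
  have hEσ : E * σ = E * σ * σ := by
    have e : σ * E = E * σ := by
      rw [hE, mul_add, hσUV, add_mul]
    calc E * σ = σ * E := e.symm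
      _ = E * σ * σ := hσE
  have hE1 : E = E * σ := by
    have e := congrArg (fun X => X * (σ * σ)) hEσ
    simp only [mul_assoc, hσ3', mul_one] at e
    exact e
  have hE3 : E + E + E = 0 := by
    have e : E * (1 + σ + σ * σ) = E + E * σ + E * σ * σ := by noncomm_ring
    rw [hσ, mul_zero, ← hEσ, ← hE1] at e
    exact e.symm
  have hE0 : E = 0 := by
    have e := h4 E
    rw [hE3, zero_add] at e
    exact e
  rw [hEdef] at hE0
  exact sub_eq_zero.mp hE0

end RingCore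

open scoped IsMulCommutative

section Op

variable {K : Type*} [Group K] (M : Subgroup K) [M.Normal] [IsMulCommutative ↥M]

/-- The conjugation action of `K` on the abelian normal subgroup `M`, as ring elements. -/
noncomputable def op : K →* AddMonoid.End (Additive ↥M) where
  toFun k := MonoidHom.toAdditive ((MulAut.conjNormal k : MulAut ↥M) : ↥M →* ↥M)
  map_one' := by
    ext n
    simp
    rfl
  map_mul' := by
    intro k l
    ext n
    simp
    rfl

theorem op_apply (k : K) (n : ↥M) :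
    op M k (Additive.ofMul n) = Additive.ofMul (MulAut.conjNormal k n) := rfl

theorem op_sub_one_apply (k : K) (n : ↥M) :
    (op M k - 1) (Additive.ofMul n) = Additive.ofMul (MulAut.conjNormal k n / n) := rfl

omit [M.Normal] [IsMulCommutative ↥M] in
theorem end_mul_apply (X Y : AddMonoid.End (Additive ↥M)) (n : Additive ↥M) :
    (X * Y) n = X (Y n) := rfl

omit [M.Normal] in
theorem end_add_apply (X Y : AddMonoid.End (Additive ↥M)) (n : Additive ↥M) :
    (X + Y) n = X n + Y n := rfl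

omit [M.Normal] [IsMulCommutative ↥M] in
theorem end_one_apply (n : Additive ↥M) : (1 : AddMonoid.End (Additive ↥M)) n = n := rfl

/-- If `g` fixes (under conjugation) every commutator `k m k⁻¹ m⁻¹` with `m ∈ M`, then
`(g - 1)(k - 1) = 0` as operators on `M`. -/
theorem op_sub_one_mul_sub_one (g k : K)
    (hfix : ∀ m : K, m ∈ M → g * (k * m * k⁻¹ * m⁻¹) * g⁻¹ = k * m * k⁻¹ * m⁻¹) :
    (op M g - 1) * (op M k - 1) = 0 := by
  ext n : 1
  revert n
  refine Additive.forall.mpr fun m => ?_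
  rw [end_mul_apply, op_sub_one_apply, op_sub_one_apply]
  have e : MulAut.conjNormal g (MulAut.conjNormal k m / m) = MulAut.conjNormal k m / m := by
    apply Subtype.ext
    rw [MulAut.conjNormal_apply, div_eq_mul_inv, Subgroup.coe_mul, Subgroup.coe_inv,
      MulAut.conjNormal_apply]
    exact hfix m m.2
  rw [e, div_self']
  rfl

end Op

section Grp

variable {K : Type*} [Group K]

theorem cube' {A : Subgroup K} (h3 : ∀ k : K, k ∉ A → k ^ 3 = 1) {k : K} (hk : k ∉ A) :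
    k * k * k = 1 := by
  have := h3 k hk
  rwa [pow_three, ← mul_assoc] at this

theorem triple {A : Subgroup K} (h3 : ∀ k : K, k ∉ A → k ^ 3 = 1)
    {y z : K} (hy : y ∈ A) (hz : z ∉ A) :
    y * (z * y * z⁻¹) * (z * z * y * z⁻¹ * z⁻¹) = 1 := by
  have hyz : y * z ∉ A := fun hh => hz (by simpa using A.mul_mem (A.inv_mem hy) hh)
  have e : y * (z * y * z⁻¹) * (z * z * y * z⁻¹ * z⁻¹)
      = ((y * z) * (y * z) * (y * z)) * (z * z * z)⁻¹ := by simp [mul_assoc]
  rw [e, cube' h3 hyz, cube' h3 hz]; simp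

theorem comm_conj_out {A : Subgroup K} (h3 : ∀ k : K, k ∉ A → k ^ 3 = 1)
    {y z : K} (hy : y ∈ A) (hz : z ∉ A) : y * (z * y * z⁻¹) = (z * y * z⁻¹) * y := by
  have h1 := triple h3 hy hz
  have h2 := triple h3 (A.inv_mem hy) hz
  have e1 : z * y⁻¹ * z⁻¹ = (z * y * z⁻¹)⁻¹ := by simp [mul_assoc]
  have e2 : z * z * y⁻¹ * z⁻¹ * z⁻¹ = (z * z * y * z⁻¹ * z⁻¹)⁻¹ := by simp [mul_assoc]
  rw [e1, e2] at h2
  have hq1 := eq_inv_of_mul_eq_one_right h1
  have hq2 := eq_inv_of_mul_eq_one_right h2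
  rw [hq1] at hq2
  simpa using hq2

theorem sq_notMem {A : Subgroup K} (h3 : ∀ k : K, k ∉ A → k ^ 3 = 1) {x : K} (hx : x ∉ A) :
    x * x ∉ A := by
  intro hh
  apply hx
  have e : x = (x * x)⁻¹ := by
    rw [eq_inv_iff_mul_eq_one, ← mul_assoc]
    exact cube' h3 hx
  rw [e]; exact A.inv_mem hh

theorem comm_conj {A : Subgroup K} (h3 : ∀ k : K, k ∉ A → k ^ 3 = 1) {x : K}
    (hx : x ∉ A) {y : K} (hy : y ∈ A) (k : K) :
    y * (k * y * k⁻¹) = (k * y * k⁻¹) * y := by
  by_cases hk : k ∈ A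
  · have h1 := triple h3 hy hx
    have hkx : k * x ∉ A := fun hh => hx (by simpa using A.mul_mem (A.inv_mem hk) hh)
    have hkxx : k * (x * x) ∉ A := fun hh =>
      sq_notMem h3 hx (by simpa using A.mul_mem (A.inv_mem hk) hh)
    have c1 := comm_conj_out h3 hy hkx
    have c2 := comm_conj_out h3 hy hkxx
    have e : k * y * k⁻¹
        = ((k * x) * y * (k * x)⁻¹ * ((k * (x * x)) * y * (k * (x * x))⁻¹))⁻¹ := by
      have e0 : y = ((x * y * x⁻¹) * (x * x * y * x⁻¹ * x⁻¹))⁻¹ := by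
        rw [eq_inv_iff_mul_eq_one, ← mul_assoc]; exact h1
      have e1 : ((k * x) * y * (k * x)⁻¹ * ((k * (x * x)) * y * (k * (x * x))⁻¹))⁻¹
          = k * ((x * y * x⁻¹) * (x * x * y * x⁻¹ * x⁻¹))⁻¹ * k⁻¹ := by group
      rw [e1, ← e0]
    rw [e]
    have C1 : Commute y ((k * x) * y * (k * x)⁻¹) := c1
    have C2 : Commute y ((k * (x * x)) * y * (k * (x * x))⁻¹) := c2
    exact ((C1.mul_right C2).inv_right).eq
  · exact comm_conj_out h3 hy hk

/-- `y` commutes with the commutator `y k y⁻¹ k⁻¹` once it commutes with `k y k⁻¹`. -/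
theorem fix_comm {y k : K} (hcc : y * (k * y * k⁻¹) = (k * y * k⁻¹) * y) :
    y * (y * k * y⁻¹ * k⁻¹) * y⁻¹ = y * k * y⁻¹ * k⁻¹ := by
  have C : Commute y (k * y * k⁻¹) := hcc
  have C' : Commute y (k * y * k⁻¹)⁻¹ := C.inv_right
  have e : y * k * y⁻¹ * k⁻¹ = y * (k * y * k⁻¹)⁻¹ := by group
  rw [e]
  have := C'.eq
  calc y * (y * (k * y * k⁻¹)⁻¹) * y⁻¹ = y * ((k * y * k⁻¹)⁻¹ * y) * y⁻¹ := by rw [this]
    _ = y * (k * y * k⁻¹)⁻¹ := by group

/-- **Burnside–Neumann** in the form needed: if every element outside the normal subgroup `A`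
has cube one and `A` has exponent dividing four, then commutators of `A` are central in `A`. -/
theorem class_two (A : Subgroup K) [A.Normal] (x : K)
    (hx : x ∉ A) (h3 : ∀ k : K, k ∉ A → k ^ 3 = 1) (h4 : ∀ a ∈ A, a ^ 4 = 1)
    {g h b : K} (hg : g ∈ A) (hh : h ∈ A) (hb : b ∈ A) :
    (g * h * g⁻¹ * h⁻¹) * b = b * (g * h * g⁻¹ * h⁻¹) := by
  have hcomm : ∀ u ∈ Group.conjugatesOfSet ({b} : Set K),
      ∀ v ∈ Group.conjugatesOfSet ({b} : Set K), u * v = v * u := by
    intro u hu v hv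
    rw [Group.mem_conjugatesOfSet_iff] at hu hv
    obtain ⟨a, ha, hau⟩ := hu
    obtain ⟨a', ha', hav⟩ := hv
    have ha : a = b := ha
    have ha' : a' = b := ha'
    rw [ha] at hau
    rw [ha'] at hav
    obtain ⟨c, rfl⟩ := isConj_iff.mp hau
    obtain ⟨d, rfl⟩ := isConj_iff.mp hav
    have := comm_conj h3 hx hb (c⁻¹ * d)
    calc c * b * c⁻¹ * (d * b * d⁻¹)
        = c * (b * ((c⁻¹ * d) * b * (c⁻¹ * d)⁻¹)) * c⁻¹ := by group
      _ = c * (((c⁻¹ * d) * b * (c⁻¹ * d)⁻¹) * b) * c⁻¹ := by rw [this]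
      _ = d * b * d⁻¹ * (c * b * c⁻¹) := by group
  obtain ⟨M, hMdef⟩ : ∃ M : Subgroup K, M = Subgroup.normalClosure ({b} : Set K) := ⟨_, rfl⟩
  have hMn : M.Normal := by rw [hMdef]; infer_instance
  have hMc : IsMulCommutative ↥M := by
    rw [hMdef]; exact Subgroup.isMulCommutative_closure hcomm
  have hbM : b ∈ M := by rw [hMdef]; exact Subgroup.subset_normalClosure (Set.mem_singleton b)
  have hMA : M ≤ A := by
    rw [hMdef]; exact Subgroup.normalClosure_le_normal (by simpa using hb)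
  have hxx : x * x ∉ A := sq_notMem h3 hx
  -- the ring data
  let ρ : ↥A →* AddMonoid.End (Additive ↥M) := (op M).comp A.subtype
  let τ : ↥A → ↥A := fun a => ⟨x * a * x⁻¹, ‹A.Normal›.conj_mem _ a.2 x⟩
  have key := ring_core ρ (op M x) τ
    (by
      intro X
      ext n : 1
      show X n + X n + X n + X n = 0
      obtain ⟨m, hm⟩ : ∃ m : ↥M, X n = Additive.ofMul m := ⟨Additive.toMul (X n), rfl⟩
      rw [hm]
      have e : m * m * m * m = 1 := by
        apply Subtype.ext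
        have := h4 m (hMA m.2)
        rw [pow_succ, pow_succ, pow_succ, pow_one] at this
        simp only [Subgroup.coe_mul, Subgroup.coe_one]
        exact this
      show Additive.ofMul (m * m * m * m) = 0
      rw [e]; rfl)
    (by
      intro a
      show (op M a - 1) * (op M a - 1) = 0
      apply op_sub_one_mul_sub_one
      intro m hm
      exact fix_comm (comm_conj h3 hx a.2 m))
    (by
      intro a
      show 1 + op M a * op M x + op M a * op M x * (op M a * op M x) = 0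
      rw [← map_mul]
      have hz : (a : K) * x ∉ A := fun hh => hx (by simpa using A.mul_mem (A.inv_mem a.2) hh)
      ext n : 1
      revert n
      refine Additive.forall.mpr fun m => ?_
      rw [end_add_apply, end_add_apply, end_mul_apply, end_one_apply, op_apply, op_apply]
      show Additive.ofMul (m * MulAut.conjNormal ((a : K) * x) m
        * MulAut.conjNormal ((a : K) * x) (MulAut.conjNormal ((a : K) * x) m)) = 0
      have e : m * MulAut.conjNormal ((a : K) * x) m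
          * MulAut.conjNormal ((a : K) * x) (MulAut.conjNormal ((a : K) * x) m) = 1 := by
        apply Subtype.ext
        simp only [Subgroup.coe_mul, MulAut.conjNormal_apply, Subgroup.coe_one]
        have := triple h3 (hMA m.2) hz
        rw [← this]; group
      rw [e]; rfl)
    (by
      intro a
      show op M x * op M a = op M (x * a * x⁻¹) * op M x
      rw [← map_mul, ← map_mul]
      congr 1
      group)
    (by
      intro a
      show (op M a - 1) * (op M (x * a * x⁻¹) - 1) = 0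
      apply op_sub_one_mul_sub_one
      intro m hm
      have hm' : m ∈ A := hMA hm
      have hmx : m * x ∉ A := fun hh => hx (by simpa using A.mul_mem (A.inv_mem hm') hh)
      have C1 : Commute (a : K) (x * a * x⁻¹) := comm_conj h3 hx a.2 x
      have C2 : Commute (a : K) ((m * x) * a * (m * x)⁻¹) := comm_conj h3 hx a.2 (m * x)
      have e : x * a * x⁻¹ * m * (x * a * x⁻¹)⁻¹ * m⁻¹
          = (x * a * x⁻¹) * ((m * x) * a * (m * x)⁻¹)⁻¹ := by group
      rw [e]
      have C3 : Commute (a : K) ((x * a * x⁻¹) * ((m * x) * a * (m * x)⁻¹)⁻¹) :=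
        C1.mul_right C2.inv_right
      rw [C3.eq]; group)
    ⟨g, hg⟩ ⟨h, hh⟩
  have key' : op M (g * h * g⁻¹ * h⁻¹) = 1 := key
  have := congrArg (fun X : AddMonoid.End (Additive ↥M) => X (Additive.ofMul ⟨b, hbM⟩)) key'
  simp only [op_apply, end_one_apply] at this
  have e2 := congrArg (fun m : ↥M => (m : K)) (Additive.ofMul.injective this)
  simp only [MulAut.conjNormal_apply] at e2
  calc g * h * g⁻¹ * h⁻¹ * b
      = (g * h * g⁻¹ * h⁻¹ * b * (g * h * g⁻¹ * h⁻¹)⁻¹) * (g * h * g⁻¹ * h⁻¹) := by group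
    _ = b * (g * h * g⁻¹ * h⁻¹) := by rw [e2]

end Grp

section S3

variable {G : Type*} [Group G]

/-- The `S₃` case: if moreover an involution `t` inverts `x` and all elements of the cosets
`A t xⁱ` have order dividing four, then `A` has exponent two. -/
theorem s3_exponent_two (A : Subgroup G) [hN : A.Normal] (x t : G)
    (hA4 : ∀ a ∈ A, a ^ 4 = 1)
    (hcl : ∀ g ∈ A, ∀ h ∈ A, ∀ b ∈ A,
      (g * h * g⁻¹ * h⁻¹) * b = b * (g * h * g⁻¹ * h⁻¹))
    (hx3 : x * x * x = 1)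
    (hax : ∀ a ∈ A, (a * x) * (a * x) * (a * x) = 1)
    (ht2 : t * t = 1) (htx : t * x * t⁻¹ = x⁻¹)
    (hat : ∀ a ∈ A, (a * t) ^ 4 = 1 ∧ (a * (t * x)) ^ 4 = 1 ∧ (a * (t * x * x)) ^ 4 = 1)
    {n : G} (hn : n ∈ A) : n * n = 1 := by
  have hcj : ∀ (g : G) {a : G}, a ∈ A → g * a * g⁻¹ ∈ A := fun g a ha => hN.conj_mem a ha g
  have B1 : ∀ y ∈ A, y * (x * y * x⁻¹) * (x * (x * y * x⁻¹) * x⁻¹) = 1 := by
    intro y hy
    have e : y * (x * y * x⁻¹) * (x * (x * y * x⁻¹) * x⁻¹)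
        = ((y * x) * (y * x) * (y * x)) * (x * x * x)⁻¹ := by simp [mul_assoc]
    rw [e, hax y hy, hx3]; simp
  have B2 : ∀ y ∈ A, y * (x * y * x⁻¹) = (x * y * x⁻¹) * y := by
    intro y hy
    have h1 := B1 y hy
    have h2 := B1 y⁻¹ (A.inv_mem hy)
    have e1 : x * y⁻¹ * x⁻¹ = (x * y * x⁻¹)⁻¹ := by simp [mul_assoc]
    have e2 : x * (x * y * x⁻¹)⁻¹ * x⁻¹ = (x * (x * y * x⁻¹) * x⁻¹)⁻¹ := by simp [mul_assoc]
    rw [e1, e2] at h2
    have hq1 := eq_inv_of_mul_eq_one_right h1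
    have hq2 := eq_inv_of_mul_eq_one_right h2
    rw [hq1] at hq2
    simpa using hq2
  have hσ3 : ∀ a : G, x * (x * (x * a * x⁻¹) * x⁻¹) * x⁻¹ = a := by
    intro a
    have e : x * (x * (x * a * x⁻¹) * x⁻¹) * x⁻¹ = (x * x * x) * a * (x * x * x)⁻¹ := by
      simp [mul_assoc]
    rw [e, hx3]; simp
  -- the centre of `A`
  obtain ⟨Z, hZdef⟩ : ∃ Z : Subgroup G, Z = A ⊓ Subgroup.centralizer (A : Set G) := ⟨_, rfl⟩
  have hZ : ∀ c, c ∈ Z ↔ c ∈ A ∧ ∀ b ∈ A, b * c = c * b := by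
    intro c
    rw [hZdef, Subgroup.mem_inf, Subgroup.mem_centralizer_iff]
    rfl
  have hZconj : ∀ (g c : G), c ∈ Z → g * c * g⁻¹ ∈ Z := by
    intro g c hc
    rw [hZ] at hc ⊢
    refine ⟨hcj g hc.1, fun b hb => ?_⟩
    have hb' : g⁻¹ * b * g ∈ A := by simpa using hcj g⁻¹ hb
    have := hc.2 _ hb'
    calc b * (g * c * g⁻¹) = g * ((g⁻¹ * b * g) * c) * g⁻¹ := by simp [mul_assoc]
      _ = g * (c * (g⁻¹ * b * g)) * g⁻¹ := by rw [this]
      _ = g * c * g⁻¹ * b := by simp [mul_assoc]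
  have hZcomm : ∀ g ∈ A, ∀ h ∈ A, g * h * g⁻¹ * h⁻¹ ∈ Z := by
    intro g hg h hh
    rw [hZ]
    exact ⟨A.mul_mem (A.mul_mem (A.mul_mem hg hh) (A.inv_mem hg)) (A.inv_mem hh),
      fun b hb => (hcl g hg h hh b hb).symm⟩
  -- S1
  have B4 : ∀ y ∈ A, ∀ z ∈ A,
      z * (x * y * x⁻¹) * z⁻¹ * (x * y * x⁻¹)⁻¹ = (x * z * x⁻¹) * y * (x * z * x⁻¹)⁻¹ * y⁻¹ := by
    intro y hy z hz
    obtain ⟨Y', hY'⟩ : ∃ Y', Y' = x * y * x⁻¹ := ⟨_, rfl⟩
    obtain ⟨Z', hZ'⟩ : ∃ Z', Z' = x * z * x⁻¹ := ⟨_, rfl⟩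
    have hY'A : Y' ∈ A := by rw [hY']; exact hcj x hy
    have hZ'A : Z' ∈ A := by rw [hZ']; exact hcj x hz
    rw [← hY', ← hZ']
    obtain ⟨C1, hC1⟩ : ∃ C1, C1 = z * Y' * z⁻¹ * Y'⁻¹ := ⟨_, rfl⟩
    obtain ⟨C2, hC2⟩ : ∃ C2, C2 = Z' * y * Z'⁻¹ * y⁻¹ := ⟨_, rfl⟩
    rw [← hC1, ← hC2]
    have hyy : y * Y' = Y' * y := by rw [hY']; exact B2 y hy
    have hzz : z * Z' = Z' * z := by rw [hZ']; exact B2 z hz
    have hprod : y * z * (Y' * Z') = Y' * Z' * (y * z) := by
      have := B2 (y * z) (A.mul_mem hy hz)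
      have e : x * (y * z) * x⁻¹ = Y' * Z' := by rw [hY', hZ']; simp [mul_assoc]
      rw [e] at this
      exact this
    have hc1 : C1 * y = y * C1 := by rw [hC1]; exact hcl z hz Y' hY'A y hy
    have hc2 : C2 * Y' = Y' * C2 := by rw [hC2]; exact hcl Z' hZ'A y hy Y' hY'A
    have e1 : y * z * (Y' * Z') = C1 * (y * Y' * z * Z') := by
      calc y * z * (Y' * Z') = y * (C1 * Y' * z) * Z' := by rw [hC1]; simp [mul_assoc]
        _ = (y * C1) * (Y' * z * Z') := by simp only [mul_assoc]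
        _ = (C1 * y) * (Y' * z * Z') := by rw [hc1]
        _ = C1 * (y * Y' * z * Z') := by simp only [mul_assoc]
    have e2 : Y' * Z' * (y * z) = C2 * (y * Y' * z * Z') := by
      calc Y' * Z' * (y * z) = Y' * (C2 * y * Z') * z := by rw [hC2]; simp [mul_assoc]
        _ = (Y' * C2) * (y * (Z' * z)) := by simp only [mul_assoc]
        _ = (C2 * Y') * (y * (z * Z')) := by rw [hc2, hzz]
        _ = C2 * ((Y' * y) * (z * Z')) := by simp only [mul_assoc]
        _ = C2 * ((y * Y') * (z * Z')) := by rw [hyy]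
        _ = C2 * (y * Y' * z * Z') := by simp only [mul_assoc]
    rw [e1, e2] at hprod
    exact mul_right_cancel hprod
  have B5a : ∀ u ∈ A, ∀ m ∈ A,
      u * (x * (x * m * x⁻¹) * x⁻¹) * u⁻¹ * (x * (x * m * x⁻¹) * x⁻¹)⁻¹
        = x * (u * m * u⁻¹ * m⁻¹) * x⁻¹ := by
    intro u hu m hm
    rw [B4 (x * m * x⁻¹) (hcj x hm) u hu]
    simp [mul_assoc]
  have B5b : ∀ u ∈ A, ∀ m ∈ A,
      u * (x * m * x⁻¹) * u⁻¹ * (x * m * x⁻¹)⁻¹
        = x * (x * (u * m * u⁻¹ * m⁻¹) * x⁻¹) * x⁻¹ := by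
    intro u hu m hm
    have h1 := B5a u hu (x * (x * m * x⁻¹) * x⁻¹) (hcj x (hcj x hm))
    rw [hσ3 (x * m * x⁻¹), B5a u hu m hm] at h1
    exact h1
  -- the squaring relation
  have M2 : ∀ s : G, s * s = 1 → (n * s) ^ 4 = 1 →
      n * n * (s * (n * n) * s⁻¹) = n * (s * n * s⁻¹) * n⁻¹ * (s * n * s⁻¹)⁻¹ := by
    intro s hs2 hs4
    obtain ⟨m, hm⟩ : ∃ m, m = s * n * s⁻¹ := ⟨_, rfl⟩
    have hmA : m ∈ A := by rw [hm]; exact hcj s hn
    rw [← hm]
    have e1 : (n * s) * (n * s) = n * m := by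
      rw [hm]
      calc n * s * (n * s) = n * (s * n * s⁻¹) * (s * s) := by simp [mul_assoc]
        _ = n * (s * n * s⁻¹) := by rw [hs2, mul_one]
    have e2 : (n * m) * (n * m) = 1 := by
      rw [← e1]
      have := hs4
      rw [pow_succ, pow_succ, pow_succ, pow_one] at this
      rw [← this]; simp only [mul_assoc]
    obtain ⟨c, hc⟩ : ∃ c, c = m * n * m⁻¹ * n⁻¹ := ⟨_, rfl⟩
    have hcn : Commute c n := by rw [hc]; exact hcl m hmA n hn n hn
    have e3 : (n * m) * (n * m) = c * (n * n * (m * m)) := by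
      calc n * m * (n * m) = n * (c * n) * (m * m) := by rw [hc]; simp [mul_assoc]
        _ = (n * n) * c * (m * m) := by rw [hcn.eq]; simp only [mul_assoc]
        _ = c * (n * n) * (m * m) := by rw [(hcn.mul_right hcn).eq]
        _ = c * (n * n * (m * m)) := by simp only [mul_assoc]
    have e4 : m * m = s * (n * n) * s⁻¹ := by rw [hm]; simp [mul_assoc]
    rw [e3] at e2
    have e5 := eq_inv_of_mul_eq_one_right e2
    rw [← e4, e5, hc]
    simp [mul_assoc]
  obtain ⟨y, hy⟩ : ∃ y, y = n * n := ⟨_, rfl⟩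
  have hyA : y ∈ A := by rw [hy]; exact A.mul_mem hn hn
  have hy2 : y * y = 1 := by
    have := hA4 n hn
    rw [pow_succ, pow_succ, pow_succ, pow_one] at this
    rw [hy, ← this]; simp only [mul_assoc]
  have htx2 : (t * x) * (t * x) = 1 := by
    calc t * x * (t * x) = (t * x * t⁻¹) * (t * t) * x := by simp [mul_assoc]
      _ = 1 := by rw [htx, ht2]; simp
  have htxx2 : (t * x * x) * (t * x * x) = 1 := by
    calc t * x * x * (t * x * x)
        = (t * x * t⁻¹) * (t * x * t⁻¹) * (t * t) * (x * x) := by simp [mul_assoc]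
      _ = 1 := by rw [htx, ht2]; simp [mul_assoc]
  obtain ⟨h41, h42, h43⟩ := hat n hn
  have m0 := M2 t ht2 h41
  have m1 := M2 (t * x) htx2 h42
  have m2 := M2 (t * x * x) htxx2 h43
  rw [← hy] at m0 m1 m2
  have c1 : (t * x) * y * (t * x)⁻¹ = t * (x * y * x⁻¹) * t⁻¹ := by simp [mul_assoc]
  have c2 : (t * x * x) * y * (t * x * x)⁻¹ = t * (x * (x * y * x⁻¹) * x⁻¹) * t⁻¹ := by
    simp [mul_assoc]
  rw [c1] at m1
  rw [c2] at m2
  -- `y` is central in `A`
  have hz0 : y * (t * y * t⁻¹) ∈ Z := by rw [m0]; exact hZcomm n hn _ (hcj t hn)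
  have hz1 : y * (t * (x * y * x⁻¹) * t⁻¹) ∈ Z := by
    rw [m1]; exact hZcomm n hn _ (hcj (t * x) hn)
  have hζ : y⁻¹ * (x * y * x⁻¹) ∈ Z := by
    have h := Z.mul_mem (Z.inv_mem hz0) hz1
    have e : (y * (t * y * t⁻¹))⁻¹ * (y * (t * (x * y * x⁻¹) * t⁻¹))
        = t * (y⁻¹ * (x * y * x⁻¹)) * t⁻¹ := by simp [mul_assoc]
    rw [e] at h
    have h' := hZconj t⁻¹ _ h
    simpa [mul_assoc] using h'
  obtain ⟨ζ, hζdef⟩ : ∃ ζ, ζ = y⁻¹ * (x * y * x⁻¹) := ⟨_, rfl⟩
  rw [← hζdef] at hζ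
  have hσy : x * y * x⁻¹ = y * ζ := by rw [hζdef]; simp [mul_assoc]
  have hζ' : x * ζ * x⁻¹ ∈ Z := hZconj x ζ hζ
  have hσσy : x * (x * y * x⁻¹) * x⁻¹ = y * ζ * (x * ζ * x⁻¹) := by
    rw [hσy]
    calc x * (y * ζ) * x⁻¹ = (x * y * x⁻¹) * (x * ζ * x⁻¹) := by simp [mul_assoc]
      _ = y * ζ * (x * ζ * x⁻¹) := by rw [hσy]
  have hyZ : y ∈ Z := by
    have h1 := B1 y hyA
    rw [hσσy, hσy] at h1
    have hζy : ζ * y = y * ζ := (((hZ ζ).1 hζ).2 y hyA).symm
    have e : y * (y * ζ) * (y * ζ * (x * ζ * x⁻¹))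
        = (y * y) * ((ζ * y) * (ζ * (x * ζ * x⁻¹))) := by simp only [mul_assoc]
    rw [e, hy2, one_mul, hζy] at h1
    have e' : y * ζ * (ζ * (x * ζ * x⁻¹)) = y * (ζ * ζ * (x * ζ * x⁻¹)) := by
      simp only [mul_assoc]
    rw [e'] at h1
    rw [eq_inv_of_mul_eq_one_left h1]
    exact Z.inv_mem (Z.mul_mem (Z.mul_mem hζ hζ) hζ')
  have hyc : ∀ b ∈ A, Commute y b := fun b hb => (((hZ y).1 hyZ).2 b hb).symm
  -- the three relations
  obtain ⟨m, hm⟩ : ∃ m, m = t * n * t⁻¹ := ⟨_, rfl⟩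
  have hmA : m ∈ A := by rw [hm]; exact hcj t hn
  obtain ⟨D, hD⟩ : ∃ D, D = n * m * n⁻¹ * m⁻¹ := ⟨_, rfl⟩
  have hDA : D ∈ A := by
    rw [hD]; exact A.mul_mem (A.mul_mem (A.mul_mem hn hmA) (A.inv_mem hn)) (A.inv_mem hmA)
  have q1 : (t * x) * n * (t * x)⁻¹ = x * (x * m * x⁻¹) * x⁻¹ := by
    calc (t * x) * n * (t * x)⁻¹
        = (t * x * t⁻¹) * (t * n * t⁻¹) * (t * x * t⁻¹)⁻¹ := by simp [mul_assoc]
      _ = x⁻¹ * m * x := by rw [htx, ← hm, inv_inv]
      _ = x⁻¹ * (x * (x * (x * m * x⁻¹) * x⁻¹) * x⁻¹) * x := by rw [hσ3 m]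
      _ = x * (x * m * x⁻¹) * x⁻¹ := by simp [mul_assoc]
  have q2 : (t * x * x) * n * (t * x * x)⁻¹ = x * m * x⁻¹ := by
    have hxinv : x⁻¹ = x * x := by
      rw [inv_eq_iff_mul_eq_one, ← mul_assoc]; exact hx3
    have hii : x⁻¹ * x⁻¹ = x := by
      nth_rewrite 2 [hxinv]; simp
    calc (t * x * x) * n * (t * x * x)⁻¹
        = ((t * x * t⁻¹) * (t * x * t⁻¹)) * (t * n * t⁻¹) * ((t * x * t⁻¹) * (t * x * t⁻¹))⁻¹ := by
          simp [mul_assoc]
      _ = x * m * x⁻¹ := by rw [htx, ← hm, hii]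
  rw [← hm, ← hD] at m0
  rw [q1, B5a n hn m hmA, ← hD] at m1
  rw [q2, B5b n hn m hmA, ← hD] at m2
  have hprod := B1 D hDA
  rw [← m2, ← m1, ← m0] at hprod
  obtain ⟨a, ha⟩ : ∃ a, a = t * y * t⁻¹ := ⟨_, rfl⟩
  obtain ⟨b, hb⟩ : ∃ b, b = t * (x * y * x⁻¹) * t⁻¹ := ⟨_, rfl⟩
  obtain ⟨c, hc⟩ : ∃ c, c = t * (x * (x * y * x⁻¹) * x⁻¹) * t⁻¹ := ⟨_, rfl⟩
  have haA : a ∈ A := by rw [ha]; exact hcj t hyA
  have hbA : b ∈ A := by rw [hb]; exact hcj t (hcj x hyA)
  have habc : a * b * c = 1 := by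
    have e : a * b * c
        = t * (y * (x * y * x⁻¹) * (x * (x * y * x⁻¹) * x⁻¹)) * t⁻¹ := by
      rw [ha, hb, hc]; simp [mul_assoc]
    rw [e, B1 y hyA]; simp
  rw [← ha, ← hb, ← hc] at hprod
  have Ca : Commute y a := hyc a haA
  have Cab : Commute y (a * b) := Ca.mul_right (hyc b hbA)
  have e : y * a * (y * b) * (y * c) = y * y * y * (a * b * c) := by
    calc y * a * (y * b) * (y * c) = y * (a * y) * b * (y * c) := by simp only [mul_assoc]
      _ = y * (y * a) * b * (y * c) := by rw [Ca.eq]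
      _ = y * y * ((a * b) * y) * c := by simp only [mul_assoc]
      _ = y * y * (y * (a * b)) * c := by rw [Cab.eq]
      _ = y * y * y * (a * b * c) := by simp only [mul_assoc]
  rw [e, habc, mul_one, hy2, one_mul] at hprod
  rw [← hy]; exact hprod

end S3

end Cfsg.Agent.H63.FpfThree
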