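import Mathlib
import Cfsg.Agent.H63.FpfThree
import Cfsg.Agent.S0017
import Cfsg.Agent.S0144
import Cfsg.Agent.S0040
import Cfsg.Agent.S0041
import Cfsg.Agent.H72.Subn
import Cfsg.Prelude.Def_Transfer

set_option autoImplicit false

/-!
# Finite groups all of whose elements have order at most four
-/

namespace Cfsg.Agent.H63.OrdFour

open Cfsg.Agent.H72

/-- Every element has order between `1` and `4`. -/
def Ord4 (G : Type*) [Group G] : Prop := ∀ g : G, 1 ≤ orderOf g ∧ orderOf g ≤ 4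

section Basic

variable {G : Type*} [Group G]

theorem Ord4.cases (h : Ord4 G) (g : G) : g ^ 3 = 1 ∨ g ^ 4 = 1 := by
  obtain ⟨h1, h2⟩ := h g
  have := pow_orderOf_eq_one g
  interval_cases hk : orderOf g
  · left; rw [pow_one] at this; rw [this, one_pow]
  · right; rw [show (4 : ℕ) = 2 * 2 from rfl, pow_mul, this, one_pow]
  · left; exact this
  · right; exact this

theorem one_of_pow3_pow4 {g : G} (h3 : g ^ 3 = 1) (h4 : g ^ 4 = 1) : g = 1 := by
  have : g ^ 4 = g ^ 3 * g := pow_succ g 3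
  rw [h4, h3, one_mul] at this
  exact this.symm

theorem Ord4.pow3 (h : Ord4 G) {g : G} {k : ℕ} (hg : g ^ 3 ^ k = 1) : g ^ 3 = 1 := by
  rcases h.cases g with h3 | h4
  · exact h3
  · have hd : orderOf g ∣ 3 ^ k := orderOf_dvd_of_pow_eq_one hg
    have hd4 : orderOf g ∣ 4 := orderOf_dvd_of_pow_eq_one h4
    have hc : Nat.Coprime (3 ^ k) 4 := Nat.Coprime.pow_left k (by norm_num)
    have h1 : orderOf g = 1 := Nat.eq_one_of_dvd_coprimes hc hd hd4
    rw [orderOf_eq_one_iff] at h1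
    rw [h1, one_pow]

theorem Ord4.pow4 (h : Ord4 G) {g : G} {k : ℕ} (hg : g ^ 2 ^ k = 1) : g ^ 4 = 1 := by
  rcases h.cases g with h3 | h4
  · have hd : orderOf g ∣ 2 ^ k := orderOf_dvd_of_pow_eq_one hg
    have hd3 : orderOf g ∣ 3 := orderOf_dvd_of_pow_eq_one h3
    have hc : Nat.Coprime (2 ^ k) 3 := Nat.Coprime.pow_left k (by norm_num)
    have h1 : orderOf g = 1 := Nat.eq_one_of_dvd_coprimes hc hd hd3
    rw [orderOf_eq_one_iff] at h1
    rw [h1, one_pow]
  · exact h4

/-- No element of order six (or twelve). -/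
theorem Ord4.no6 (h : Ord4 G) {a b : G} (hc : Commute a b) (ha3 : a ^ 3 = 1) (ha : a ≠ 1)
    (hb4 : b ^ 4 = 1) (hb : b ≠ 1) : False := by
  have hoa : orderOf a = 3 := by
    have hd : orderOf a ∣ 3 := orderOf_dvd_of_pow_eq_one ha3
    rcases (Nat.dvd_prime Nat.prime_three).mp hd with h1 | h1
    · exact absurd (orderOf_eq_one_iff.mp h1) ha
    · exact h1
  have hob : orderOf b = 2 ∨ orderOf b = 4 := by
    have hd : orderOf b ∣ 2 ^ 2 := orderOf_dvd_of_pow_eq_one hb4
    obtain ⟨j, hj, hj'⟩ := (Nat.dvd_prime_pow Nat.prime_two).mp hd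
    interval_cases j
    · exact absurd (orderOf_eq_one_iff.mp (by simpa using hj')) hb
    · left; simpa using hj'
    · right; simpa using hj'
  have hcop : (orderOf a).Coprime (orderOf b) := by
    rw [hoa]; rcases hob with h2 | h2 <;> rw [h2] <;> norm_num
  have := hc.orderOf_mul_eq_mul_orderOf_of_coprime hcop
  have h4 := (h (a * b)).2
  rw [this, hoa] at h4
  rcases hob with h2 | h2 <;> rw [h2] at h4 <;> omega

theorem Ord4.quotient (h : Ord4 G) (N : Subgroup G) [N.Normal] : Ord4 (G ⧸ N) := by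
  intro q
  obtain ⟨g, rfl⟩ := QuotientGroup.mk_surjective q
  have hd : orderOf (QuotientGroup.mk' N g) ∣ orderOf g := orderOf_map_dvd _ g
  have hpos : 0 < orderOf g := (h g).1
  have hle := Nat.le_of_dvd hpos hd
  have hne : orderOf (QuotientGroup.mk' N g) ≠ 0 := fun h0 => by
    rw [h0] at hd; exact absurd (Nat.eq_zero_of_zero_dvd hd) hpos.ne'
  exact ⟨Nat.one_le_iff_ne_zero.mpr hne, le_trans hle (h g).2⟩

theorem two_three_smooth (n : ℕ) (hn : n ≠ 0)
    (h : ∀ p : ℕ, p.Prime → p ∣ n → p = 2 ∨ p = 3) : ∃ a b : ℕ, n = 2 ^ a * 3 ^ b := by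
  have e := Nat.ordProj_mul_ordCompl_eq_self n 2
  have hm : n / 2 ^ n.factorization 2 ≠ 0 := by
    intro h0; rw [h0, mul_zero] at e; exact hn e.symm
  have hm3 : ∀ {d : ℕ}, d.Prime → d ∣ n / 2 ^ n.factorization 2 → d = 3 := by
    intro d hd hdvd
    have hdn : d ∣ n := by
      rw [← e]; exact Dvd.dvd.mul_left hdvd _
    rcases h d hd hdn with rfl | rfl
    · exact absurd hdvd (Nat.not_dvd_ordCompl Nat.prime_two hn)
    · rfl
  have := Nat.eq_prime_pow_of_unique_prime_dvd hm hm3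
  exact ⟨n.factorization 2, _, by rw [← this]; exact e.symm⟩

theorem Ord4.card [Finite G] (h : Ord4 G) : ∃ a b : ℕ, Nat.card G = 2 ^ a * 3 ^ b := by
  apply two_three_smooth _ Nat.card_pos.ne'
  intro p hp hdvd
  have : Fact p.Prime := ⟨hp⟩
  obtain ⟨x, hx⟩ := exists_prime_orderOf_dvd_card' p hdvd
  have := (h x).2
  rw [hx] at this
  interval_cases p
  · exact absurd hp (by norm_num)
  · exact absurd hp (by norm_num)
  · left; rfl
  · right; rfl
  · exact absurd hp (by norm_num)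

theorem Ord4.solvable [Finite G] (h : Ord4 G) : Group.IsSolvable G := by
  obtain ⟨a, b, hab⟩ := h.card
  exact Cfsg.Agent.S0144.result 2 3 a b Nat.prime_two Nat.prime_three hab

/-- Lemma F: a nontrivial group with all orders at most four has `O₂ ≠ 1` or `O₃ ≠ 1`. -/
theorem Ord4.core_ne_bot [Finite G] [Nontrivial G] (h : Ord4 G) :
    Cfsg.pCore 2 G ≠ ⊥ ∨ Cfsg.pCore 3 G ≠ ⊥ := by
  by_contra hcon
  push Not at hcon
  obtain ⟨h2, h3⟩ := hcon
  have := h.solvable
  have hpp : Cfsg.pPrimeCore 2 G = ⊥ := by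
    rw [eq_bot_iff, Cfsg.pPrimeCore]
    apply sSup_le
    rintro N ⟨hNn, hNc⟩
    rw [← h3]
    apply le_pCore hNn
    intro g
    refine ⟨1, ?_⟩
    rw [pow_one]
    rcases h.cases (g : G) with h3' | h4'
    · exact Subtype.ext (by simpa using h3')
    · have hd : orderOf g ∣ Nat.card N := orderOf_dvd_natCard g
      have hd4 : orderOf (g : G) ∣ 2 ^ 2 := orderOf_dvd_of_pow_eq_one h4'
      rw [Subgroup.orderOf_coe] at hd4
      have hc : Nat.Coprime (Nat.card N) (2 ^ 2) := Nat.Coprime.pow_right 2 hNc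
      have h1 : orderOf g = 1 := Nat.eq_one_of_dvd_coprimes hc hd hd4
      rw [orderOf_eq_one_iff] at h1
      rw [h1, one_pow]
  have hcen := Cfsg.Agent.H1.centralizer_pCore_le (G := G) 2 hpp
  rw [h2] at hcen
  have htop : Subgroup.centralizer (((⊥ : Subgroup G) : Set G)) = ⊤ := by
    rw [Subgroup.centralizer_eq_top_iff_subset]
    intro x hx
    have : x = 1 := hx
    rw [this]; exact Subgroup.one_mem _
  rw [htop] at hcen
  obtain ⟨x, hx⟩ := exists_ne (1 : G)
  exact hx ((Subgroup.mem_bot).mp (hcen (Subgroup.mem_top x)))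

end Basic

section CaseThree

variable {G : Type*} [Group G] [Finite G]

/-- The case `O₃(G) ≠ 1`. -/
theorem case_three (h : Ord4 G) (hB : Cfsg.pCore 3 G ≠ ⊥) (g4 : G) (hg4 : orderOf g4 = 4) :
    ∃ (N : Subgroup G) (_ : N.Normal), Cfsg.IsElementaryAbelian 3 N ∧
      ((IsCyclic (G ⧸ N) ∧ N.index = 4) ∨ Nonempty (G ⧸ N ≃* QuaternionGroup 2)) := by
  classical
  have : Fact (Nat.Prime 2) := ⟨Nat.prime_two⟩
  have : Fact (Nat.Prime 3) := ⟨Nat.prime_three⟩
  obtain ⟨B, hBdef⟩ : ∃ B : Subgroup G, B = Cfsg.pCore 3 G := ⟨_, rfl⟩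
  rw [← hBdef] at hB
  have hBn : B.Normal := by rw [hBdef]; exact pCore_normal 3 G
  have hBp : IsPGroup 3 B := by rw [hBdef]; exact pCore_isPGroup 3 G
  have hB3 : ∀ b ∈ B, b ^ 3 = 1 := by
    intro b hb
    obtain ⟨k, hk⟩ := hBp ⟨b, hb⟩
    have hk' : b ^ 3 ^ k = 1 := by simpa using congrArg Subtype.val hk
    exact h.pow3 hk'
  obtain ⟨b₀, hb₀, hb₀1⟩ : ∃ b₀ ∈ B, b₀ ≠ 1 := by
    by_contra hcon
    push Not at hcon
    exact hB ((Subgroup.eq_bot_iff_forall B).mpr hcon)
  -- the involution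
  obtain ⟨z, hz⟩ : ∃ z : G, z = g4 ^ 2 := ⟨_, rfl⟩
  have hz2 : z * z = 1 := by
    have := pow_orderOf_eq_one g4
    rw [hg4] at this
    rw [hz, ← pow_add]; exact this
  have hz1 : z ≠ 1 := by
    rw [hz]; exact pow_ne_one_of_lt_orderOf (by norm_num) (by rw [hg4]; norm_num)
  have hz4 : z ^ 4 = 1 := by
    have hzz : z ^ 2 = 1 := by rw [pow_two]; exact hz2
    rw [show (4 : ℕ) = 2 * 2 from rfl, pow_mul, hzz, one_pow]
  have hzinv : z⁻¹ = z := inv_eq_iff_mul_eq_one.mpr hz2
  have hinvol : ∀ w : G, w * w = 1 → w ≠ 1 → ∀ b ∈ B, w * b * w⁻¹ = b⁻¹ := by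
    intro w hw2 hw1 b hb
    have hwinv : w⁻¹ = w := inv_eq_iff_mul_eq_one.mpr hw2
    have hwB : w ∉ B := by
      intro hwB
      have h3 := hB3 w hwB
      apply hw1
      have : w ^ 3 = w * w * w := by rw [pow_succ, pow_succ, pow_one]
      rw [this, hw2, one_mul] at h3; exact h3
    have hu2 : (w * b) * (w * b) = (w * b * w⁻¹) * b := by rw [hwinv]; simp only [mul_assoc]
    have hu2B : (w * b) * (w * b) ∈ B := by
      rw [hu2]; exact B.mul_mem (hBn.conj_mem b hb w) hb
    rcases h.cases (w * b) with h3 | h4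
    · exfalso
      have : w * b = ((w * b) * (w * b))⁻¹ := by
        rw [eq_inv_iff_mul_eq_one, ← h3, pow_succ, pow_succ, pow_one]; simp only [mul_assoc]
      have hwb : w * b ∈ B := by rw [this]; exact B.inv_mem hu2B
      exact hwB (by simpa using B.mul_mem hwb (B.inv_mem hb))
    · have h2 : ((w * b) * (w * b)) ^ 2 = 1 := by
        rw [← h4, pow_two, pow_succ, pow_succ, pow_succ, pow_one]; simp only [mul_assoc]
      have h3 := hB3 _ hu2B
      have h1 : (w * b) * (w * b) = 1 := by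
        have : ((w * b) * (w * b)) ^ 3 = ((w * b) * (w * b)) ^ 2 * ((w * b) * (w * b)) :=
          pow_succ _ 2
        rw [h3, h2, one_mul] at this; exact this.symm
      rw [hu2] at h1
      exact eq_inv_of_mul_eq_one_left h1
  have hBcomm : ∀ a ∈ B, ∀ b ∈ B, a * b = b * a := by
    intro a ha b hb
    have e1 := hinvol z hz2 hz1 (a * b) (B.mul_mem ha hb)
    have e2 := hinvol z hz2 hz1 a ha
    have e3 := hinvol z hz2 hz1 b hb
    have : z * (a * b) * z⁻¹ = (z * a * z⁻¹) * (z * b * z⁻¹) := by simp [mul_assoc]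
    rw [this, e2, e3] at e1
    have := congrArg (fun u => u⁻¹) e1
    exact (by simpa using this : b * a = a * b).symm
  have hCB : Subgroup.centralizer (B : Set G) ≤ B := by
    have hCn : (Subgroup.centralizer (B : Set G)).Normal := inferInstance
    have hCp : IsPGroup 3 (Subgroup.centralizer (B : Set G)) := by
      intro g
      refine ⟨1, ?_⟩
      rw [pow_one]
      have hc : Commute b₀ (g : G) := by
        have := (Subgroup.mem_centralizer_iff.mp g.2) b₀ hb₀
        exact this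
      rcases h.cases (g : G) with h3 | h4
      · exact Subtype.ext (by simpa using h3)
      · by_cases hg1 : (g : G) = 1
        · have : g = 1 := Subtype.ext hg1
          rw [this, one_pow]
        · exact absurd (h.no6 hc (hB3 b₀ hb₀) hb₀1 h4 hg1) id
    have := le_pCore hCn hCp
    rw [← hBdef] at this
    exact this
  have hall3 : ∀ y : G, y ^ 3 = 1 → y ∈ B := by
    intro y hy3
    have hv2 : (y * z * y⁻¹) * (y * z * y⁻¹) = 1 := by
      have : (y * z * y⁻¹) * (y * z * y⁻¹) = y * (z * z) * y⁻¹ := by simp [mul_assoc]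
      rw [this, hz2]; simp
    have hv1 : y * z * y⁻¹ ≠ 1 := by
      intro hv; apply hz1
      have : z = y⁻¹ * (y * z * y⁻¹) * y := by simp [mul_assoc]
      rw [this, hv]; simp
    have hwC : z * (y * z * y⁻¹) ∈ Subgroup.centralizer (B : Set G) := by
      rw [Subgroup.mem_centralizer_iff]
      intro b hb
      have e1 := hinvol (y * z * y⁻¹) hv2 hv1 b hb
      have e2 := hinvol z hz2 hz1 b⁻¹ (B.inv_mem hb)
      rw [inv_inv] at e2
      have e3 : (z * (y * z * y⁻¹)) * b * (z * (y * z * y⁻¹))⁻¹ = b := by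
        calc (z * (y * z * y⁻¹)) * b * (z * (y * z * y⁻¹))⁻¹
            = z * ((y * z * y⁻¹) * b * (y * z * y⁻¹)⁻¹) * z⁻¹ := by simp [mul_assoc]
          _ = b := by rw [e1, e2]
      calc b * (z * (y * z * y⁻¹))
          = ((z * (y * z * y⁻¹)) * b * (z * (y * z * y⁻¹))⁻¹) * (z * (y * z * y⁻¹)) := by
            rw [e3]
        _ = (z * (y * z * y⁻¹)) * b := by simp [mul_assoc]
    obtain ⟨w, hw⟩ : ∃ w, w = z * (y * z * y⁻¹) := ⟨_, rfl⟩
    rw [← hw] at hwC
    have hwB : w ∈ B := hCB hwC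
    have e4 : y * z * y⁻¹ = z * w := by rw [hw, ← mul_assoc, hz2, one_mul]
    have hwz : w⁻¹ * z = z * w := by
      have e := hinvol z hz2 hz1 w⁻¹ (B.inv_mem hwB)
      rw [inv_inv, hzinv] at e
      calc w⁻¹ * z = (z * z) * w⁻¹ * z := by rw [hz2, one_mul]
        _ = z * (z * w⁻¹ * z) := by simp only [mul_assoc]
        _ = z * w := by rw [e]
    have hww : w * w = w⁻¹ := by
      have : w * w * w = 1 := by rw [← hB3 w hwB, pow_succ, pow_succ, pow_one]
      exact eq_inv_of_mul_eq_one_left this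
    have hyz : y * z = z * w * y := by rw [← e4]; simp [mul_assoc]
    have hs : Commute (w⁻¹ * y) z := by
      show w⁻¹ * y * z = z * (w⁻¹ * y)
      calc w⁻¹ * y * z = w⁻¹ * (y * z) := by rw [mul_assoc]
        _ = (w⁻¹ * z) * w * y := by rw [hyz]; simp only [mul_assoc]
        _ = z * (w * w) * y := by rw [hwz]; simp only [mul_assoc]
        _ = z * (w⁻¹ * y) := by rw [hww]; simp only [mul_assoc]
    have hsB : w⁻¹ * y ∈ B := by
      rcases h.cases (w⁻¹ * y) with h3 | h4
      · by_cases hs1 : w⁻¹ * y = 1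
        · rw [hs1]; exact B.one_mem
        · exact absurd (h.no6 hs h3 hs1 hz4 hz1) id
      · have h3B : (w⁻¹ * y) ^ 3 ∈ B := by
          rw [← QuotientGroup.eq_one_iff (N := B), QuotientGroup.mk_pow, QuotientGroup.mk_mul,
            QuotientGroup.mk_inv, (QuotientGroup.eq_one_iff w).mpr hwB, inv_one, one_mul,
            ← QuotientGroup.mk_pow, hy3]
          rfl
        have : w⁻¹ * y = ((w⁻¹ * y) ^ 3)⁻¹ := by
          rw [eq_inv_iff_mul_eq_one, ← pow_succ']; exact h4
        rw [this]; exact B.inv_mem h3B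
    simpa using B.mul_mem hwB hsB
  -- the quotient is a 2-group
  have hQ4 : ∀ q : G ⧸ B, q ^ 4 = 1 := by
    intro q
    obtain ⟨g, rfl⟩ := QuotientGroup.mk_surjective q
    rcases h.cases g with h3 | h4
    · have : ((g : G) : G ⧸ B) = 1 := (QuotientGroup.eq_one_iff g).mpr (hall3 g h3)
      rw [this, one_pow]
    · rw [← QuotientGroup.mk_pow, h4]; rfl
  have hQp : IsPGroup 2 (G ⧸ B) := fun q => ⟨2, hQ4 q⟩
  -- a Sylow 2-subgroup through `g4`
  have hzp : IsPGroup 2 (Subgroup.zpowers g4) :=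
    IsPGroup.of_card (n := 2) (by rw [Nat.card_zpowers, hg4]; norm_num)
  obtain ⟨T, hT⟩ := hzp.exists_le_sylow
  have hg4T : g4 ∈ (T : Subgroup G) := hT (Subgroup.mem_zpowers g4)
  have hT4 : ∀ u ∈ (T : Subgroup G), u ^ 4 = 1 := by
    intro u hu
    obtain ⟨k, hk⟩ := T.isPGroup' ⟨u, hu⟩
    exact h.pow4 (by simpa using congrArg Subtype.val hk)
  obtain ⟨j, hj⟩ := (IsPGroup.iff_card (p := 3)).mp hBp
  obtain ⟨l, hl⟩ := (IsPGroup.iff_card (p := 2)).mp hQp
  obtain ⟨k, hk⟩ := (IsPGroup.iff_card (p := 2)).mp T.isPGroup'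
  have hG : Nat.card G = 2 ^ l * 3 ^ j := by
    rw [Subgroup.card_eq_card_quotient_mul_card_subgroup B, hl, hj]
  have hkl : k = l := by
    have h1 : 2 ^ k ∣ 2 ^ l * 3 ^ j := by
      rw [← hG, ← hk]; exact Subgroup.card_subgroup_dvd_card _
    have h2 : 2 ^ k ∣ 2 ^ l :=
      (Nat.Coprime.dvd_mul_right (Nat.Coprime.pow k j (by norm_num))).mp h1
    have hidx := Subgroup.card_mul_index (T : Subgroup G)
    rw [hk, hG] at hidx
    have h3 : 2 ^ l ∣ 2 ^ k * (T : Subgroup G).index := by rw [hidx]; exact Dvd.intro _ rfl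
    have hnd : ¬ 2 ∣ (T : Subgroup G).index := T.not_dvd_index
    have hcop : Nat.Coprime (2 ^ l) (T : Subgroup G).index :=
      Nat.Coprime.pow_left l ((Nat.Prime.coprime_iff_not_dvd Nat.prime_two).mpr hnd)
    have h4 : 2 ^ l ∣ 2 ^ k := (Nat.Coprime.dvd_mul_right hcop).mp h3
    exact Nat.pow_right_injective (le_refl 2) (Nat.dvd_antisymm h2 h4)
  have hcard : Nat.card B * Nat.card (T : Subgroup G) = Nat.card G := by
    rw [hj, hk, hG, hkl, mul_comm]
  have hcop : Nat.Coprime (Nat.card B) (Nat.card (T : Subgroup G)) := by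
    rw [hj, hk]; exact Nat.Coprime.pow j k (by norm_num)
  have hcompl : B.IsComplement' (T : Subgroup G) := Subgroup.isComplement'_of_coprime hcard hcop
  have hfpf : ∀ u ∈ (T : Subgroup G), u ≠ 1 → B ⊓ Subgroup.centralizer {u} = ⊥ := by
    intro u hu hu1
    rw [eq_bot_iff]
    intro b hb
    rw [Subgroup.mem_inf, Subgroup.mem_centralizer_iff] at hb
    rw [Subgroup.mem_bot]
    by_contra hb1
    have hc : Commute b u := (hb.2 u (Set.mem_singleton u)).symm
    exact h.no6 hc (hB3 b hb.1) hb1 (hT4 u hu) hu1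
  have hTp : IsPGroup 2 ↥(⊤ : Subgroup ↥(T : Subgroup G)) := T.isPGroup'.to_subgroup ⊤
  let P : Sylow 2 ↥(T : Subgroup G) := hTp.toSylow (by rw [Subgroup.index_top]; norm_num)
  have hS := Cfsg.Agent.S0040.result B (T : Subgroup G) hcompl hB hfpf 2 P
  have eP : ↥(P : Subgroup ↥(T : Subgroup G)) ≃* ↥(T : Subgroup G) := Subgroup.topEquiv
  have eQ : G ⧸ B ≃* ↥(T : Subgroup G) := hcompl.symm.QuotientMulEquiv
  refine ⟨B, hBn, ⟨⟨⟨fun a b => Subtype.ext (hBcomm a a.2 b b.2)⟩⟩, hB3⟩, ?_⟩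
  have hcyc_case : IsCyclic ↥(T : Subgroup G) → IsCyclic (G ⧸ B) ∧ B.index = 4 := by
    intro hc
    refine ⟨isCyclic_of_surjective eQ.symm eQ.symm.surjective, ?_⟩
    obtain ⟨g, hg⟩ := hc.exists_generator
    have ho := orderOf_eq_card_of_forall_mem_zpowers hg
    have hle : Nat.card ↥(T : Subgroup G) ≤ 4 := by
      rw [← ho, ← Subgroup.orderOf_coe]; exact (h (g : G)).2
    have hdvd : 4 ∣ Nat.card ↥(T : Subgroup G) := by
      rw [← hg4]; exact Subgroup.orderOf_dvd_natCard _ hg4T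
    have h4 : Nat.card ↥(T : Subgroup G) = 4 :=
      Nat.le_antisymm hle (Nat.le_of_dvd Nat.card_pos hdvd)
    rw [Subgroup.index_eq_card, Nat.card_congr eQ.toEquiv, h4]
  rcases hS with hc | ⟨n, ⟨e⟩⟩
  · left
    exact hcyc_case (isCyclic_of_surjective eP eP.surjective)
  · have eT : ↥(T : Subgroup G) ≃* QuaternionGroup (2 ^ n) := eP.symm.trans e
    have hexp : Monoid.exponent (QuaternionGroup (2 ^ n)) ∣ 4 := by
      apply Monoid.exponent_dvd_of_forall_pow_eq_one
      intro q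
      obtain ⟨u, rfl⟩ := eT.surjective q
      rw [← map_pow]
      have : u ^ 4 = 1 := Subtype.ext (by simpa using hT4 u u.2)
      rw [this, map_one]
    rw [QuaternionGroup.exponent] at hexp
    have hn : n ≤ 1 := by
      by_contra hn
      push Not at hn
      have h4 : 4 ∣ lcm (2 ^ n) 2 := by
        have : (4 : ℕ) ∣ 2 ^ n := by
          obtain ⟨m, rfl⟩ := Nat.exists_eq_add_of_le hn
          exact ⟨2 ^ m, by rw [pow_add]; norm_num⟩
        exact dvd_trans this (dvd_lcm_left _ _)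
      have h8 : 2 * 4 ∣ 2 * lcm (2 ^ n) 2 := Nat.mul_dvd_mul_left 2 h4
      have := Nat.le_of_dvd (by norm_num) (dvd_trans h8 hexp)
      omega
    interval_cases n
    · left
      have : IsCyclic (QuaternionGroup (2 ^ 0)) := QuaternionGroup.quaternionGroup_one_isCyclic
      exact hcyc_case (isCyclic_of_surjective eT.symm eT.symm.surjective)
    · right
      exact ⟨eQ.trans eT⟩

end CaseThree

section CaseTwo

variable {G : Type*} [Group G]

/-- Relative version of `FpfThree.class_two`. -/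
theorem class_two_sub (K A : Subgroup G) [A.Normal] (hAK : A ≤ K) (x : G) (hxK : x ∈ K)
    (hxA : x ∉ A) (h3 : ∀ k ∈ K, k ∉ A → k ^ 3 = 1) (h4 : ∀ a ∈ A, a ^ 4 = 1)
    {g h b : G} (hg : g ∈ A) (hh : h ∈ A) (hb : b ∈ A) :
    (g * h * g⁻¹ * h⁻¹) * b = b * (g * h * g⁻¹ * h⁻¹) := by
  have key := FpfThree.class_two (K := ↥K) (A.subgroupOf K) ⟨x, hxK⟩
    (by rw [Subgroup.mem_subgroupOf]; exact hxA)
    (by
      intro k hk
      rw [Subgroup.mem_subgroupOf] at hk
      exact Subtype.ext (by simpa using h3 k k.2 hk))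
    (by
      intro a ha
      rw [Subgroup.mem_subgroupOf] at ha
      exact Subtype.ext (by simpa using h4 a ha))
    (g := ⟨g, hAK hg⟩) (h := ⟨h, hAK hh⟩) (b := ⟨b, hAK hb⟩)
    (by rw [Subgroup.mem_subgroupOf]; exact hg)
    (by rw [Subgroup.mem_subgroupOf]; exact hh)
    (by rw [Subgroup.mem_subgroupOf]; exact hb)
  have := congrArg Subtype.val key
  simpa using this

theorem comm_of_cyclic' {H : Type*} [Group H] (h : IsCyclic H) : ∀ x y : H, x * y = y * x := by
  intro x y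
  obtain ⟨g, hg⟩ := h.exists_generator
  obtain ⟨i, rfl⟩ := Subgroup.mem_zpowers_iff.mp (hg x)
  obtain ⟨j, rfl⟩ := Subgroup.mem_zpowers_iff.mp (hg y)
  rw [← zpow_add, ← zpow_add, add_comm]

/-- A non-commutative group of order six is the symmetric group of degree three. -/
theorem equiv_perm_six {H : Type*} [Group H] [Finite H] (h6 : Nat.card H = 6)
    (hnc : ¬ ∀ x y : H, x * y = y * x) : Nonempty (H ≃* Equiv.Perm (Fin 3)) := by
  classical
  have : Fact (Nat.Prime 2) := ⟨Nat.prime_two⟩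
  have : Fact (Nat.Prime 3) := ⟨Nat.prime_three⟩
  obtain ⟨t, ht⟩ := exists_prime_orderOf_dvd_card' (G := H) 2 (by rw [h6]; norm_num)
  obtain ⟨s, hs⟩ := exists_prime_orderOf_dvd_card' (G := H) 3 (by rw [h6]; norm_num)
  obtain ⟨T, hTdef⟩ : ∃ T : Subgroup H, T = Subgroup.zpowers t := ⟨_, rfl⟩
  have hTcard : Nat.card T = 2 := by rw [hTdef, Nat.card_zpowers, ht]
  have hTidx : T.index = 3 := by
    have := Subgroup.card_mul_index T
    rw [hTcard, h6] at this; omega
  have hTmem : ∀ x ∈ T, x = 1 ∨ x = t := by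
    intro x hx
    rw [hTdef] at hx
    obtain ⟨k, rfl⟩ := Subgroup.mem_zpowers_iff.mp hx
    have ht2 : t ^ (2 : ℤ) = 1 := by
      rw [show (2 : ℤ) = ((2 : ℕ) : ℤ) from rfl, zpow_natCast, ← ht, pow_orderOf_eq_one]
    rcases Int.even_or_odd' k with ⟨m, rfl | rfl⟩
    · left; rw [zpow_mul, ht2, one_zpow]
    · right; rw [zpow_add, zpow_mul, ht2, one_zpow, one_mul, zpow_one]
  let φ : H →* Equiv.Perm (H ⧸ T) := MulAction.toPermHom H (H ⧸ T)
  have hker : φ.ker = T.normalCore := (Subgroup.normalCore_eq_ker T).symm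
  have hinj : Function.Injective φ := by
    rw [← MonoidHom.ker_eq_bot_iff, hker, Subgroup.eq_bot_iff_forall]
    intro g hg
    by_contra hg1
    have hgt : g = t := (hTmem g (Subgroup.normalCore_le T hg)).resolve_left hg1
    have hcent : ∀ a : H, a * g * a⁻¹ = g := by
      intro a
      have h1 : a * g * a⁻¹ ∈ T.normalCore := (Subgroup.normalCore_normal T).conj_mem g hg a
      rcases hTmem _ (Subgroup.normalCore_le T h1) with h2 | h2
      · exfalso; apply hg1
        have : g = a⁻¹ * (a * g * a⁻¹) * a := by simp [mul_assoc]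
        rw [this, h2]; simp
      · rw [h2, hgt]
    have hcomm : Commute g s := by
      have h3 := hcent s
      show g * s = s * g
      calc g * s = (s * g * s⁻¹) * s := by rw [h3]
        _ = s * g := by simp [mul_assoc]
    have ho : orderOf (g * s) = 6 := by
      rw [hcomm.orderOf_mul_eq_mul_orderOf_of_coprime (by rw [hgt, ht, hs]; norm_num), hgt, ht, hs]
    have hcyc : IsCyclic H := isCyclic_of_orderOf_eq_card (g * s) (by rw [ho, h6])
    exact hnc (comm_of_cyclic' hcyc)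
  have hcardq : Nat.card (H ⧸ T) = 3 := by rw [← Subgroup.index_eq_card, hTidx]
  let e : (H ⧸ T) ≃ Fin 3 := Finite.equivFinOfCardEq hcardq
  let ψ : H →* Equiv.Perm (Fin 3) :=
    (e.permCongrHom : Equiv.Perm (H ⧸ T) ≃* Equiv.Perm (Fin 3)).toMonoidHom.comp φ
  have hψ : Function.Injective ψ := by
    intro a b hab
    exact hinj ((e.permCongrHom : Equiv.Perm (H ⧸ T) ≃* Equiv.Perm (Fin 3)).injective hab)
  have hcard : Nat.card H = Nat.card (Equiv.Perm (Fin 3)) := by
    rw [h6, Nat.card_eq_fintype_card, Fintype.card_perm, Fintype.card_fin]; rfl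
  have hbij : Function.Bijective ψ := (Nat.bijective_iff_injective_and_card ψ).mpr ⟨hψ, hcard⟩
  exact ⟨MulEquiv.ofBijective ψ hbij⟩

theorem nine_not_dvd [Finite G] (h : Ord4 G) (hA : Cfsg.pCore 2 G ≠ ⊥) : ¬ 9 ∣ Nat.card G := by
  classical
  have : Fact (Nat.Prime 2) := ⟨Nat.prime_two⟩
  have : Fact (Nat.Prime 3) := ⟨Nat.prime_three⟩
  intro h9
  obtain ⟨A, hAdef⟩ : ∃ A : Subgroup G, A = Cfsg.pCore 2 G := ⟨_, rfl⟩
  rw [← hAdef] at hA
  have hAn : A.Normal := by rw [hAdef]; exact pCore_normal 2 G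
  have hAp : IsPGroup 2 A := by rw [hAdef]; exact pCore_isPGroup 2 G
  have hA4 : ∀ a ∈ A, a ^ 4 = 1 := by
    intro a ha
    obtain ⟨k, hk⟩ := hAp ⟨a, ha⟩
    exact h.pow4 (by simpa using congrArg Subtype.val hk)
  obtain ⟨V, hVdef⟩ : ∃ V : Subgroup G, V = A ⊓ Subgroup.centralizer (A : Set G) := ⟨_, rfl⟩
  have hVn : V.Normal := by rw [hVdef]; infer_instance
  have hVc : IsMulCommutative ↥V := by
    refine ⟨⟨fun u v => Subtype.ext ?_⟩⟩
    have hu : (u : G) ∈ A ⊓ Subgroup.centralizer (A : Set G) := by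
      rw [← hVdef]; exact u.2
    have hv : (v : G) ∈ A ⊓ Subgroup.centralizer (A : Set G) := by
      rw [← hVdef]; exact v.2
    rw [Subgroup.mem_inf, Subgroup.mem_centralizer_iff] at hu hv
    show (u : G) * (v : G) = (v : G) * (u : G)
    exact hv.2 u hu.1
  have hVne : V ≠ ⊥ := by
    have : Nontrivial ↥A := (Subgroup.nontrivial_iff_ne_bot A).mpr hA
    have := hAp.center_nontrivial
    obtain ⟨c, hc⟩ := exists_ne (1 : ↥(Subgroup.center ↥A))
    intro hV
    apply hc
    have hcV : ((c : ↥A) : G) ∈ V := by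
      rw [hVdef, Subgroup.mem_inf, Subgroup.mem_centralizer_iff]
      refine ⟨(c : ↥A).2, fun a ha => ?_⟩
      have := (Subgroup.mem_center_iff.mp c.2) ⟨a, ha⟩
      exact congrArg Subtype.val this
    rw [hV, Subgroup.mem_bot] at hcV
    exact Subtype.ext (Subtype.ext hcV)
  obtain ⟨E, hE⟩ := Sylow.exists_subgroup_card_pow_prime 3 (n := 2) (G := G) (by simpa using h9)
  have hcyc : IsCyclic E := by
    apply Cfsg.Agent.S0041.result E V hVne
    · intro e _
      rw [Subgroup.mem_normalizer_iff]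
      intro v
      constructor
      · intro hv; exact hVn.conj_mem v hv e
      · intro hv
        have := hVn.conj_mem _ hv e⁻¹
        simpa [mul_assoc] using this
    · intro a ha ha1
      rw [eq_bot_iff]
      intro v hv
      rw [Subgroup.mem_inf, Subgroup.mem_centralizer_iff] at hv
      rw [Subgroup.mem_bot]
      by_contra hv1
      have ha9 : a ^ 3 ^ 2 = 1 := by
        have := Subgroup.orderOf_dvd_natCard E ha
        rw [hE] at this
        exact orderOf_dvd_iff_pow_eq_one.mp this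
      have ha3 := h.pow3 ha9
      have hvA : v ∈ A := by
        have := hv.1
        rw [hVdef, Subgroup.mem_inf] at this
        exact this.1
      have hc : Commute a v := hv.2 a (Set.mem_singleton a)
      exact h.no6 hc ha3 ha1 (hA4 v hvA) hv1
    · right
      exact ⟨3, 3, Nat.prime_three, Nat.prime_three, by rw [hE]; norm_num⟩
  obtain ⟨g, hg⟩ := hcyc.exists_generator
  have ho := orderOf_eq_card_of_forall_mem_zpowers hg
  rw [hE, ← Subgroup.orderOf_coe] at ho
  have := (h (g : G)).2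
  rw [ho] at this
  norm_num at this

/-- The case `O₃(G) = 1`. -/
theorem case_two [Finite G] (h : Ord4 G) (hB : Cfsg.pCore 3 G = ⊥) (g3 g4 : G)
    (hg3 : orderOf g3 = 3) (hg4 : orderOf g4 = 4) :
    ∃ (N : Subgroup G) (_ : N.Normal),
      (IsPGroup 2 ↥N ∧ Monoid.exponent ↥N = 4 ∧ Group.nilpotencyClass ↥N ≤ 2 ∧ N.index = 3) ∨
      (Cfsg.IsElementaryAbelian 2 N ∧ Nonempty (G ⧸ N ≃* Equiv.Perm (Fin 3))) := by
  classical
  have : Fact (Nat.Prime 2) := ⟨Nat.prime_two⟩
  have : Fact (Nat.Prime 3) := ⟨Nat.prime_three⟩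
  have hg3_1 : g3 ≠ 1 := by
    intro h1; rw [h1, orderOf_one] at hg3; norm_num at hg3
  have hg3_3 : g3 ^ 3 = 1 := by rw [← hg3]; exact pow_orderOf_eq_one g3
  have : Nontrivial G := ⟨⟨g3, 1, hg3_1⟩⟩
  have hA0 : Cfsg.pCore 2 G ≠ ⊥ := by
    rcases h.core_ne_bot with h2 | h3
    · exact h2
    · exact absurd hB h3
  have h9 := nine_not_dvd h hA0
  obtain ⟨A, hAdef⟩ : ∃ A : Subgroup G, A = Cfsg.pCore 2 G := ⟨_, rfl⟩
  have hAn : A.Normal := by rw [hAdef]; exact pCore_normal 2 G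
  have hAp : IsPGroup 2 A := by rw [hAdef]; exact pCore_isPGroup 2 G
  have hA4 : ∀ a ∈ A, a ^ 4 = 1 := by
    intro a ha
    obtain ⟨k, hk⟩ := hAp ⟨a, ha⟩
    exact h.pow4 (by simpa using congrArg Subtype.val hk)
  have hg3A : g3 ∉ A := fun hh => hg3_1 (one_of_pow3_pow4 hg3_3 (hA4 g3 hh))
  -- the quotient
  have hQ : Ord4 (G ⧸ A) := h.quotient A
  have hQnt : Nontrivial (G ⧸ A) :=
    ⟨⟨(g3 : G ⧸ A), 1, fun hh => hg3A ((QuotientGroup.eq_one_iff g3).mp hh)⟩⟩
  have hQ2 : Cfsg.pCore 2 (G ⧸ A) = ⊥ := by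
    rw [eq_bot_iff, Cfsg.pCore]
    apply sSup_le
    rintro N ⟨hNn, hNp⟩
    have hcn : (N.comap (QuotientGroup.mk' A)).Normal := hNn.comap _
    have hcp : IsPGroup 2 (N.comap (QuotientGroup.mk' A)) := by
      intro g
      obtain ⟨k, hk⟩ := hNp ⟨QuotientGroup.mk' A (g : G), g.2⟩
      have hk' : ((g : G) ^ 2 ^ k) ∈ A := by
        rw [← QuotientGroup.eq_one_iff]
        have := congrArg Subtype.val hk
        simpa using this
      obtain ⟨j, hj⟩ := hAp ⟨(g : G) ^ 2 ^ k, hk'⟩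
      refine ⟨k + j, Subtype.ext ?_⟩
      have hj' : ((g : G) ^ 2 ^ k) ^ 2 ^ j = 1 := by simpa using congrArg Subtype.val hj
      rw [Subgroup.coe_pow, Subgroup.coe_one, pow_add, pow_mul]
      exact hj'
    have hle := le_pCore hcn hcp
    rw [← hAdef] at hle
    intro q hq
    obtain ⟨g, rfl⟩ := QuotientGroup.mk_surjective q
    rw [Subgroup.mem_bot, QuotientGroup.eq_one_iff]
    exact hle hq
  have hB3ne : Cfsg.pCore 3 (G ⧸ A) ≠ ⊥ := by
    rcases hQ.core_ne_bot with h2 | h3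
    · exact absurd hQ2 h2
    · exact h3
  obtain ⟨B, hBdef⟩ : ∃ B : Subgroup (G ⧸ A), B = Cfsg.pCore 3 (G ⧸ A) := ⟨_, rfl⟩
  rw [← hBdef] at hB3ne
  have hBn : B.Normal := by rw [hBdef]; exact pCore_normal 3 _
  have hBp : IsPGroup 3 B := by rw [hBdef]; exact pCore_isPGroup 3 _
  have hB3 : ∀ b ∈ B, b ^ 3 = 1 := by
    intro b hb
    obtain ⟨k, hk⟩ := hBp ⟨b, hb⟩
    exact hQ.pow3 (by simpa using congrArg Subtype.val hk)
  have hBcard : Nat.card B = 3 := by
    obtain ⟨j, hj⟩ := (IsPGroup.iff_card (p := 3)).mp hBp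
    have hdvd : Nat.card B ∣ Nat.card G := by
      have h1 : Nat.card B ∣ Nat.card (G ⧸ A) := Subgroup.card_subgroup_dvd_card B
      have h2 : Nat.card (G ⧸ A) ∣ Nat.card G := by
        rw [Subgroup.card_eq_card_quotient_mul_card_subgroup A]; exact Dvd.intro _ rfl
      exact dvd_trans h1 h2
    rw [hj] at hdvd ⊢
    have hj1 : j ≠ 0 := by
      intro h0
      rw [h0, pow_zero] at hj
      exact hB3ne (Subgroup.card_eq_one.mp hj)
    have hj2 : j < 2 := by
      by_contra hcon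
      push Not at hcon
      exact h9 (dvd_trans (pow_dvd_pow 3 hcon) hdvd)
    interval_cases j
    · exact absurd rfl hj1
    · norm_num
  obtain ⟨b, hbB, hb1⟩ : ∃ b ∈ B, b ≠ 1 := by
    by_contra hcon
    push Not at hcon
    exact hB3ne ((Subgroup.eq_bot_iff_forall B).mpr hcon)
  have hb3 := hB3 b hbB
  have hbbb : b * b * b = 1 := by rw [← hb3, pow_succ, pow_succ, pow_one]
  have hbinv : b⁻¹ ≠ b := by
    intro hh
    have h2 : b * b = 1 := inv_eq_iff_mul_eq_one.mp hh
    rw [h2, one_mul] at hbbb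
    exact hb1 hbbb
  have hob : orderOf b = 3 := by
    have hd : orderOf b ∣ 3 := orderOf_dvd_of_pow_eq_one hb3
    rcases (Nat.dvd_prime Nat.prime_three).mp hd with h1 | h1
    · exact absurd (orderOf_eq_one_iff.mp h1) hb1
    · exact h1
  have hBz : ∀ c ∈ B, c = 1 ∨ c = b ∨ c = b⁻¹ := by
    intro c hc
    have hzle : Subgroup.zpowers b ≤ B := (Subgroup.zpowers_le).mpr hbB
    have heq : Subgroup.zpowers b = B :=
      Subgroup.eq_of_le_of_card_ge hzle (by rw [Nat.card_zpowers, hob, hBcard])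
    rw [← heq] at hc
    obtain ⟨i, rfl⟩ := Subgroup.mem_zpowers_iff.mp hc
    have hi : b ^ i = b ^ (i % 3) := by
      have := zpow_mod_orderOf b i
      rw [hob] at this
      exact_mod_cast this.symm
    rw [hi]
    have h0 : 0 ≤ i % 3 := Int.emod_nonneg _ (by norm_num)
    have h3 : i % 3 < 3 := Int.emod_lt_of_pos _ (by norm_num)
    obtain ⟨r, hr⟩ : ∃ r : ℤ, r = i % 3 := ⟨_, rfl⟩
    rw [← hr] at h0 h3 ⊢
    interval_cases r
    · left; simp
    · right; left; simp
    · right; right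
      rw [zpow_two]
      exact eq_inv_of_mul_eq_one_left hbbb
  have hCB : Subgroup.centralizer (B : Set (G ⧸ A)) ≤ B := by
    have hCn : (Subgroup.centralizer (B : Set (G ⧸ A))).Normal := inferInstance
    have hCp : IsPGroup 3 (Subgroup.centralizer (B : Set (G ⧸ A))) := by
      intro g
      refine ⟨1, ?_⟩
      rw [pow_one]
      have hc : Commute b (g : G ⧸ A) := (Subgroup.mem_centralizer_iff.mp g.2) b hbB
      rcases hQ.cases (g : G ⧸ A) with h3 | h4
      · exact Subtype.ext (by simpa using h3)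
      · by_cases hg1 : (g : G ⧸ A) = 1
        · have : g = 1 := Subtype.ext hg1
          rw [this, one_pow]
        · exact absurd (hQ.no6 hc hb3 hb1 h4 hg1) id
    have := le_pCore hCn hCp
    rw [← hBdef] at this
    exact this
  have hcentb : ∀ q : G ⧸ A, q * b = b * q → q ∈ B := by
    intro q hqb
    apply hCB
    rw [Subgroup.mem_centralizer_iff]
    intro c hc
    rcases hBz c hc with rfl | rfl | rfl
    · simp
    · exact hqb.symm
    · have C : Commute q b := hqb
      exact (C.inv_right).eq.symm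
  have hinvb : ∀ q : G ⧸ A, q ∉ B → q * b * q⁻¹ = b⁻¹ := by
    intro q hq
    rcases hBz _ (hBn.conj_mem b hbB q) with h1 | h1 | h1
    · exfalso; apply hb1
      have : b = q⁻¹ * (q * b * q⁻¹) * q := by simp [mul_assoc]
      rw [this, h1]; simp
    · exfalso; apply hq; apply hcentb
      calc q * b = (q * b * q⁻¹) * q := by simp [mul_assoc]
        _ = b * q := by rw [h1]
    · exact h1
  have hdich : B = ⊤ ∨ B.index = 2 := by
    by_cases hBt : B = ⊤
    · left; exact hBt
    · right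
      obtain ⟨q₀, hq₀⟩ : ∃ q₀, q₀ ∉ B := by
        by_contra hcon
        push Not at hcon
        exact hBt (eq_top_iff.mpr fun q _ => hcon q)
      rw [Subgroup.index_eq_two_iff]
      refine ⟨q₀, fun q => ?_⟩
      by_cases hq : q ∈ B
      · refine Or.inr ⟨hq, fun hqq => hq₀ ?_⟩
        have := B.mul_mem (B.inv_mem hq) hqq
        simpa using this
      · refine Or.inl ⟨?_, hq⟩
        apply hcentb
        have e1 := hinvb q₀ hq₀
        have e2 := hinvb q hq
        have hc : (q * q₀) * b * (q * q₀)⁻¹ = b := by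
          calc (q * q₀) * b * (q * q₀)⁻¹ = q * (q₀ * b * q₀⁻¹) * q⁻¹ := by simp [mul_assoc]
            _ = (q * b * q⁻¹)⁻¹ := by rw [e1]; simp [mul_assoc]
            _ = b := by rw [e2, inv_inv]
        calc (q * q₀) * b = ((q * q₀) * b * (q * q₀)⁻¹) * (q * q₀) := by simp [mul_assoc]
          _ = b * (q * q₀) := by rw [hc]
  rcases hdich with hBt | hB2
  · -- index three
    have hcard3 : Nat.card (G ⧸ A) = 3 := by
      rw [← hBcard, hBt]; exact (Subgroup.card_top).symm
    have hin : ∀ g : G, g ^ 4 = 1 → g ∈ A := by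
      intro g hg
      rw [← QuotientGroup.eq_one_iff]
      have h3 : (g : G ⧸ A) ^ 3 = 1 := by rw [← hcard3]; exact pow_card_eq_one'
      have h4 : (g : G ⧸ A) ^ 4 = 1 := by rw [← QuotientGroup.mk_pow, hg]; rfl
      exact one_of_pow3_pow4 h3 h4
    have h3out : ∀ k : G, k ∉ A → k ^ 3 = 1 := by
      intro k hk
      rcases h.cases k with h3 | h4
      · exact h3
      · exact absurd (hin k h4) hk
    refine ⟨A, hAn, Or.inl ⟨hAp, ?_, ?_, ?_⟩⟩
    · apply Nat.dvd_antisymm
      · apply Monoid.exponent_dvd_of_forall_pow_eq_one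
        intro a
        exact Subtype.ext (by simpa using hA4 a a.2)
      · have hg4A : g4 ∈ A := hin g4 (by rw [← hg4]; exact pow_orderOf_eq_one g4)
        have := Monoid.order_dvd_exponent (⟨g4, hg4A⟩ : ↥A)
        rw [Subgroup.orderOf_mk, hg4] at this
        exact this
    · have : Group.IsNilpotent ↥A := hAp.isNilpotent
      rw [← Subgroup.lowerCentralSeries_eq_bot_iff_nilpotencyClass_le]
      rw [Subgroup.lowerCentralSeries_succ, Subgroup.lowerCentralSeries_succ, Subgroup.lowerCentralSeries_zero]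
      rw [Subgroup.commutator_eq_bot_iff_le_centralizer, Subgroup.commutator_le]
      intro g₁ _ g₂ _
      rw [Subgroup.mem_centralizer_iff]
      intro c _
      apply Subtype.ext
      have := FpfThree.class_two A g3 hg3A h3out hA4 g₁.2 g₂.2 c.2
      simp only [Subgroup.coe_mul, commutatorElement_def, Subgroup.coe_inv]
      exact this.symm
    · rw [Subgroup.index_eq_card, hcard3]
  · -- index six
    have hcard6 : Nat.card (G ⧸ A) = 6 := by
      have := Subgroup.card_mul_index B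
      rw [hBcard, hB2] at this
      omega
    obtain ⟨q₀, hq₀⟩ : ∃ q₀, q₀ ∉ B := by
      by_contra hcon
      push Not at hcon
      have : B = ⊤ := eq_top_iff.mpr fun q _ => hcon q
      rw [this, Subgroup.index_top] at hB2
      norm_num at hB2
    have hcube : ∀ q : G ⧸ A, q ^ 3 = 1 → q ∈ B := by
      intro q hq3
      by_contra hq
      have h2 : q * q ∈ B := Subgroup.mul_self_mem_of_index_two hB2 q
      have : q = (q * q)⁻¹ := by
        rw [eq_inv_iff_mul_eq_one, ← hq3, pow_succ, pow_succ, pow_one]; simp only [mul_assoc]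
      exact hq (by rw [this]; exact B.inv_mem h2)
    obtain ⟨K, hKdef⟩ : ∃ K : Subgroup G, K = B.comap (QuotientGroup.mk' A) := ⟨_, rfl⟩
    have hKmem : ∀ g : G, g ∈ K ↔ (g : G ⧸ A) ∈ B := by
      intro g; rw [hKdef]; rfl
    have hAK : A ≤ K := by
      intro a ha
      rw [hKmem, (QuotientGroup.eq_one_iff a).mpr ha]; exact B.one_mem
    have hxK : g3 ∈ K := by
      rw [hKmem]; apply hcube
      rw [← QuotientGroup.mk_pow, hg3_3]; rfl
    have h3K : ∀ k ∈ K, k ∉ A → k ^ 3 = 1 := by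
      intro k hk hkA
      rw [hKmem] at hk
      have hk3 : k ^ 3 ∈ A := by
        rw [← QuotientGroup.eq_one_iff, QuotientGroup.mk_pow]; exact hB3 _ hk
      rcases h.cases k with h3 | h4
      · exact h3
      · exfalso; apply hkA
        have : k = (k ^ 3)⁻¹ := by
          rw [eq_inv_iff_mul_eq_one, ← pow_succ']; exact h4
        rw [this]; exact A.inv_mem hk3
    have h4out : ∀ g : G, g ∉ K → g ^ 4 = 1 := by
      intro g hg
      rcases h.cases g with h3 | h4
      · exfalso; apply hg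
        rw [hKmem]; apply hcube
        rw [← QuotientGroup.mk_pow, h3]; rfl
      · exact h4
    have hcl : ∀ g ∈ A, ∀ h ∈ A, ∀ b ∈ A,
        (g * h * g⁻¹ * h⁻¹) * b = b * (g * h * g⁻¹ * h⁻¹) :=
      fun g hg h hh b hb => class_two_sub K A hAK g3 hxK hg3A h3K hA4 hg hh hb
    obtain ⟨g₀, rfl⟩ := QuotientGroup.mk_surjective q₀
    have hg₀K : g₀ ∉ K := by rw [hKmem]; exact hq₀
    have ha₀ : g3 * (g₀ * g3 * g₀⁻¹) ∈ A := by
      rw [← QuotientGroup.eq_one_iff]
      have hx' : (g3 : G ⧸ A) ∈ B := (hKmem g3).mp hxK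
      have hinvc : (g₀ : G ⧸ A) * (g3 : G ⧸ A) * (g₀ : G ⧸ A)⁻¹ = (g3 : G ⧸ A)⁻¹ := by
        rcases hBz _ hx' with h1 | h1 | h1
        · rw [h1]; simp
        · rw [h1]; exact hinvb _ hq₀
        · rw [h1, inv_inv]
          have := hinvb _ hq₀
          calc (g₀ : G ⧸ A) * b⁻¹ * (g₀ : G ⧸ A)⁻¹
              = ((g₀ : G ⧸ A) * b * (g₀ : G ⧸ A)⁻¹)⁻¹ := by simp [mul_assoc]
            _ = b := by rw [this, inv_inv]
      rw [QuotientGroup.mk_mul, QuotientGroup.mk_mul, QuotientGroup.mk_mul, QuotientGroup.mk_inv,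
        hinvc]
      simp
    let φ : ↥A → ↥A := fun a =>
      ⟨(g3 * a * g3⁻¹)⁻¹ * a, A.mul_mem (A.inv_mem (hAn.conj_mem a a.2 g3)) a.2⟩
    have hφinj : Function.Injective φ := by
      intro a a' haa
      have e : (g3 * a * g3⁻¹)⁻¹ * a = (g3 * a' * g3⁻¹)⁻¹ * a' := congrArg Subtype.val haa
      have e1 : (a : G) * (a' : G)⁻¹
          = (g3 * a * g3⁻¹) * ((g3 * a * g3⁻¹)⁻¹ * a) * (a' : G)⁻¹ := by simp [mul_assoc]
      have e2 : (g3 * a * g3⁻¹) * ((g3 * a' * g3⁻¹)⁻¹ * a') * (a' : G)⁻¹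
          = g3 * ((a : G) * (a' : G)⁻¹) * g3⁻¹ := by simp [mul_assoc]
      have hc : g3 * ((a : G) * (a' : G)⁻¹) * g3⁻¹ = (a : G) * (a' : G)⁻¹ := by
        rw [← e2, ← e, ← e1]
      have hcA : (a : G) * (a' : G)⁻¹ ∈ A := A.mul_mem a.2 (A.inv_mem a'.2)
      have hcomm : Commute g3 ((a : G) * (a' : G)⁻¹) := by
        show g3 * ((a : G) * (a' : G)⁻¹) = (a : G) * (a' : G)⁻¹ * g3
        calc g3 * ((a : G) * (a' : G)⁻¹)
            = (g3 * ((a : G) * (a' : G)⁻¹) * g3⁻¹) * g3 := by simp [mul_assoc]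
          _ = (a : G) * (a' : G)⁻¹ * g3 := by rw [hc]
      have h1 : (a : G) * (a' : G)⁻¹ = 1 := by
        by_contra hne
        exact h.no6 hcomm hg3_3 hg3_1 (hA4 _ hcA) hne
      exact Subtype.ext (mul_inv_eq_one.mp h1)
    obtain ⟨a₁, ha₁⟩ := Finite.surjective_of_injective hφinj ⟨_, ha₀⟩
    have ha₁' : (g3 * a₁ * g3⁻¹)⁻¹ * a₁ = g3 * (g₀ * g3 * g₀⁻¹) := congrArg Subtype.val ha₁
    obtain ⟨t, ht⟩ : ∃ t : G, t = a₁ * g₀ := ⟨_, rfl⟩
    have htK : t ∉ K := by
      intro hh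
      apply hg₀K
      have := K.mul_mem (K.inv_mem (hAK a₁.2)) hh
      rw [ht] at this
      simpa using this
    have htx : t * g3 * t⁻¹ = g3⁻¹ := by
      have e1 : g₀ * g3 * g₀⁻¹ = g3⁻¹ * ((g3 * a₁ * g3⁻¹)⁻¹ * a₁) := by
        rw [ha₁']; simp [mul_assoc]
      calc t * g3 * t⁻¹ = a₁ * (g₀ * g3 * g₀⁻¹) * (a₁ : G)⁻¹ := by rw [ht]; simp [mul_assoc]
        _ = g3⁻¹ := by rw [e1]; simp [mul_assoc]
    have ht4 : t ^ 4 = 1 := h4out t htK
    have ht2 : t * t = 1 := by
      by_contra hne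
      have e1 : t * g3 = g3⁻¹ * t := by
        calc t * g3 = (t * g3 * t⁻¹) * t := by simp [mul_assoc]
          _ = g3⁻¹ * t := by rw [htx]
      have e2 : t * g3⁻¹ = g3 * t := by
        calc t * g3⁻¹ = g3 * (g3⁻¹ * t) * g3⁻¹ := by simp
          _ = g3 * (t * g3) * g3⁻¹ := by rw [e1]
          _ = g3 * t := by simp [mul_assoc]
      have hcomm : Commute g3 (t * t) := by
        show g3 * (t * t) = t * t * g3
        calc g3 * (t * t) = (g3 * t) * t := by rw [mul_assoc]
          _ = (t * g3⁻¹) * t := by rw [e2]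
          _ = t * (g3⁻¹ * t) := by rw [mul_assoc]
          _ = t * (t * g3) := by rw [e1]
          _ = t * t * g3 := by rw [mul_assoc]
      have h44 : (t * t) ^ 4 = 1 := by
        rw [← pow_two, ← pow_mul, show 2 * 4 = 4 * 2 from rfl, pow_mul, ht4, one_pow]
      exact h.no6 hcomm hg3_3 hg3_1 h44 hne
    have hx3 : g3 * g3 * g3 = 1 := by rw [← hg3_3, pow_succ, pow_succ, pow_one]
    have hax : ∀ a ∈ A, (a * g3) * (a * g3) * (a * g3) = 1 := by
      intro a ha
      have hk : a * g3 ∈ K := K.mul_mem (hAK ha) hxK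
      have hnA : a * g3 ∉ A := fun hh => hg3A (by simpa using A.mul_mem (A.inv_mem ha) hh)
      have := h3K _ hk hnA
      rw [pow_succ, pow_succ, pow_one] at this
      exact this
    have hat : ∀ a ∈ A,
        (a * t) ^ 4 = 1 ∧ (a * (t * g3)) ^ 4 = 1 ∧ (a * (t * g3 * g3)) ^ 4 = 1 := by
      intro a ha
      have haK := hAK ha
      refine ⟨h4out _ ?_, h4out _ ?_, h4out _ ?_⟩
      · intro hh
        exact htK (by simpa using K.mul_mem (K.inv_mem haK) hh)
      · intro hh
        have h1 := K.mul_mem (K.inv_mem haK) hh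
        have h2 := K.mul_mem h1 (K.inv_mem hxK)
        exact htK (by simpa [mul_assoc] using h2)
      · intro hh
        have h1 := K.mul_mem (K.inv_mem haK) hh
        have h2 := K.mul_mem (K.mul_mem h1 (K.inv_mem hxK)) (K.inv_mem hxK)
        exact htK (by simpa [mul_assoc] using h2)
    have hsq : ∀ n ∈ A, n * n = 1 := fun n hn =>
      FpfThree.s3_exponent_two A g3 t hA4 hcl hx3 hax ht2 htx hat hn
    refine ⟨A, hAn, Or.inr ⟨⟨⟨⟨fun a b => Subtype.ext ?_⟩⟩,
      fun a ha => by rw [pow_two]; exact hsq a ha⟩, ?_⟩⟩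
    · show (a : G) * (b : G) = (b : G) * (a : G)
      have h1 := hsq _ (A.mul_mem a.2 b.2)
      have h2 := hsq _ a.2
      have h3 := hsq _ b.2
      have ea : (a : G)⁻¹ = a := inv_eq_iff_mul_eq_one.mpr h2
      have eb : (b : G)⁻¹ = b := inv_eq_iff_mul_eq_one.mpr h3
      have eab : ((a : G) * b)⁻¹ = a * b := inv_eq_iff_mul_eq_one.mpr h1
      rw [← eab, mul_inv_rev, ea, eb]
    · apply equiv_perm_six hcard6
      intro hcomm
      have := hinvb _ hq₀
      rw [hcomm (g₀ : G ⧸ A) b, mul_inv_cancel_right] at this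
      exact hbinv this.symm

end CaseTwo

end Cfsg.Agent.H63.OrdFour
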