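import Mathlib
import Cfsg.Agent.H82.JxDefs

/-!
# JX-CNT (clause 5 of the existence of a `J(T)`-component): the counting argument
-/

set_option autoImplicit false
open Cfsg

namespace Cfsg.Agent.H63.Jx

open Cfsg.Agent.H82.Jx

universe u

theorem card_mul_relIndex' {Γ : Type u} [Group Γ] {X Y : Subgroup Γ} (h : X ≤ Y) :
    Nat.card X * X.relIndex Y = Nat.card Y := by
  have := Subgroup.relIndex_mul_relIndex ⊥ X Y bot_le h
  rwa [Subgroup.relIndex_bot_left, Subgroup.relIndex_bot_left] at this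

/-- `|P| |R| ≤ |⟨P, R⟩| |P ∩ R|`. -/
theorem card_mul_card_le {Γ : Type u} [Group Γ] [Finite Γ] (P R : Subgroup Γ) :
    Nat.card P * Nat.card R ≤
      Nat.card (P ⊔ R : Subgroup Γ) * Nat.card (P ⊓ R : Subgroup Γ) := by
  have h1 := card_mul_relIndex' (inf_le_left : P ⊓ R ≤ P)
  rw [Subgroup.inf_relIndex_left] at h1
  have h2 := card_mul_relIndex' (le_sup_right : R ≤ P ⊔ R)
  have h3 : R.relIndex P ≤ R.relIndex (P ⊔ R) := by
    apply Subgroup.relIndex_le_of_le_right le_sup_left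
    intro h0
    rw [h0, mul_zero] at h2
    exact (Nat.card_pos (α := ↥(P ⊔ R))).ne' h2.symm
  calc Nat.card P * Nat.card R
      = Nat.card (P ⊓ R : Subgroup Γ) * R.relIndex P * Nat.card R := by rw [h1]
    _ ≤ Nat.card (P ⊓ R : Subgroup Γ) * R.relIndex (P ⊔ R) * Nat.card R := by gcongr
    _ = Nat.card (P ⊔ R : Subgroup Γ) * Nat.card (P ⊓ R : Subgroup Γ) := by rw [← h2]; ring

/-- The join of two commuting elementary abelian 2-subgroups is elementary abelian. -/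
theorem ea_sup {Γ : Type u} [Group Γ] (P R : Subgroup Γ)
    (hPc : ∀ p ∈ P, ∀ q ∈ P, p * q = q * p) (hP2 : ∀ p ∈ P, p * p = 1)
    (hRc : ∀ p ∈ R, ∀ q ∈ R, p * q = q * p) (hR2 : ∀ p ∈ R, p * p = 1)
    (hPR : ∀ p ∈ P, ∀ r ∈ R, p * r = r * p) : IsElementaryAbelian 2 (P ⊔ R) := by
  have hcl : P ⊔ R = Subgroup.closure ((P : Set Γ) ∪ (R : Set Γ)) := by
    rw [Subgroup.closure_union, Subgroup.closure_eq, Subgroup.closure_eq]
  have hgen : ∀ x ∈ ((P : Set Γ) ∪ (R : Set Γ)), ∀ y ∈ ((P : Set Γ) ∪ (R : Set Γ)),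
      x * y = y * x := by
    rintro x (hx | hx) y (hy | hy)
    · exact hPc x hx y hy
    · exact hPR x hx y hy
    · exact (hPR y hy x hx).symm
    · exact hRc x hx y hy
  have hcomm := Subgroup.isMulCommutative_closure hgen
  rw [hcl]
  refine ⟨hcomm, ?_⟩
  intro g hg
  induction hg using Subgroup.closure_induction with
  | mem y hy =>
    rcases hy with hy | hy
    · rw [pow_two]; exact hP2 y hy
    · rw [pow_two]; exact hR2 y hy
  | one => exact one_pow _
  | mul a b ha hb iha ihb =>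
    have hc : a * b = b * a := congrArg Subtype.val (hcomm.is_comm.comm ⟨a, ha⟩ ⟨b, hb⟩)
    have hc' : Commute a b := hc
    rw [hc'.mul_pow, iha, ihb, one_mul]
  | inv a _ iha => rw [inv_pow, iha, inv_one]

theorem cnt (hSq : StSq.{u}) (hFun : StFun.{u}) : StCnt.{u} := by
  intro G _ _ T Q A W a x hQT hAT hAel hAmax haA hidx F
  classical
  have hAc : ∀ p ∈ A, ∀ q ∈ A, p * q = q * p := fun p hp q hq =>
    congrArg Subtype.val (hAel.1.is_comm.comm ⟨p, hp⟩ ⟨q, hq⟩)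
  have hA2 : ∀ p ∈ A, p * p = 1 := fun p hp => by rw [← pow_two]; exact hAel.2 p hp
  have haa : a * a = 1 := hA2 a haA
  have hainv : a⁻¹ = a := inv_eq_of_mul_eq_one_left haa
  have hWT : W ≤ T := F.hWQ.trans hQT
  have ha2 : ∀ y : G, a * (a * y * a⁻¹) * a⁻¹ = y := by
    intro y
    rw [hainv]
    calc a * (a * y * a) * a = (a * a) * y * (a * a) := by group
      _ = y := by rw [haa, one_mul, mul_one]
  have hA₀A : A ⊓ Q ≤ A := inf_le_left
  have hba : ∀ b ∈ A ⊓ Q, b * a = a * b := fun b hb => hAc b (hA₀A hb) a haA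
  -- `Y := C_W(A₀)`
  have hYW : W ⊓ Subgroup.centralizer ((A ⊓ Q : Subgroup G) : Set G) ≤ W := inf_le_left
  have hYmem : ∀ y, y ∈ W ⊓ Subgroup.centralizer ((A ⊓ Q : Subgroup G) : Set G) ↔
      y ∈ W ∧ ∀ b ∈ A ⊓ Q, b * y = y * b := by
    intro y
    rw [Subgroup.mem_inf, Subgroup.mem_centralizer_iff]
    exact Iff.rfl
  have hconj_comm : ∀ b z : G, b * z * b⁻¹ = z → b * z = z * b := by
    intro b z h
    calc b * z = (b * z * b⁻¹) * b := by group
      _ = z * b := by rw [h]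
  have hcomm_conj : ∀ b z : G, b * z = z * b → b * z * b⁻¹ = z := by
    intro b z h
    rw [h]; group
  have hYx : ∀ y ∈ W ⊓ Subgroup.centralizer ((A ⊓ Q : Subgroup G) : Set G),
      x * y * x⁻¹ ∈ W ⊓ Subgroup.centralizer ((A ⊓ Q : Subgroup G) : Set G) := by
    intro y hy
    obtain ⟨hyW, hyc⟩ := (hYmem y).mp hy
    refine (hYmem _).mpr ⟨F.hxW y hyW, ?_⟩
    intro b hb
    have h1 := F.hbx b hb y hyW
    rw [hcomm_conj b y (hyc b hb)] at h1
    exact hconj_comm b _ h1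
  have hYa : ∀ y ∈ W ⊓ Subgroup.centralizer ((A ⊓ Q : Subgroup G) : Set G),
      a * y * a⁻¹ ∈ W ⊓ Subgroup.centralizer ((A ⊓ Q : Subgroup G) : Set G) := by
    intro y hy
    obtain ⟨hyW, hyc⟩ := (hYmem y).mp hy
    refine (hYmem _).mpr ⟨F.haW y hyW, ?_⟩
    intro b hb
    have h1 := hba b hb
    have h2 := hyc b hb
    rw [hainv]
    calc b * (a * y * a) = (b * a) * y * a := by group
      _ = (a * b) * y * a := by rw [h1]
      _ = a * (b * y) * a := by group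
      _ = a * (y * b) * a := by rw [h2]
      _ = a * y * (b * a) := by group
      _ = a * y * (a * b) := by rw [h1]
      _ = (a * y * a) * b := by group
  have hsqY := hSq (W ⊓ Subgroup.centralizer ((A ⊓ Q : Subgroup G) : Set G)) a x
    (fun y hy z hz => F.hWc y (hYW hy) z (hYW hz)) (fun y hy => F.hW2 y (hYW hy))
    hYa hYx (fun y _ => ha2 y) (fun y hy => F.hx3 y (hYW hy)) (fun y hy => F.hax y (hYW hy))
    (fun y hy h => F.hxf y (hYW hy) h)
  -- `Y A₀` is elementary abelian in `T`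
  have hE1 : IsElementaryAbelian 2
      ((W ⊓ Subgroup.centralizer ((A ⊓ Q : Subgroup G) : Set G)) ⊔ (A ⊓ Q)) :=
    ea_sup _ _ (fun y hy z hz => F.hWc y (hYW hy) z (hYW hz)) (fun y hy => F.hW2 y (hYW hy))
      (fun p hp q hq => hAc p (hA₀A hp) q (hA₀A hq)) (fun p hp => hA2 p (hA₀A hp))
      (fun y hy b hb => (((hYmem y).mp hy).2 b hb).symm)
  have hE1T : (W ⊓ Subgroup.centralizer ((A ⊓ Q : Subgroup G) : Set G)) ⊔ (A ⊓ Q) ≤ T :=
    sup_le (hYW.trans hWT) (hA₀A.trans hAT)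
  have hE1card := hAmax _ hE1T hE1
  have h1 := card_mul_card_le (W ⊓ Subgroup.centralizer ((A ⊓ Q : Subgroup G) : Set G)) (A ⊓ Q)
  have hYA₀ : (W ⊓ Subgroup.centralizer ((A ⊓ Q : Subgroup G) : Set G)) ⊓ (A ⊓ Q) ≤
      (W ⊓ Subgroup.centralizer ((A ⊓ Q : Subgroup G) : Set G)) ⊓
        Subgroup.centralizer ({a} : Set G) := by
    intro g hg
    obtain ⟨hgY, hgA⟩ := Subgroup.mem_inf.mp hg
    refine Subgroup.mem_inf.mpr ⟨hgY, ?_⟩
    rw [Subgroup.mem_centralizer_singleton_iff]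
    exact hba g hgA
  have hc1 := Subgroup.card_le_of_le hYA₀
  have hA₀pos : 0 < Nat.card ↥(A ⊓ Q) := Nat.card_pos
  have hYle : Nat.card ↥(W ⊓ Subgroup.centralizer ((A ⊓ Q : Subgroup G) : Set G)) ≤
      2 * Nat.card ↥((W ⊓ Subgroup.centralizer ((A ⊓ Q : Subgroup G) : Set G)) ⊓
        Subgroup.centralizer ({a} : Set G)) := by
    have h3 : Nat.card ↥(W ⊓ Subgroup.centralizer ((A ⊓ Q : Subgroup G) : Set G)) *
        Nat.card ↥(A ⊓ Q) ≤
        (2 * Nat.card ↥((W ⊓ Subgroup.centralizer ((A ⊓ Q : Subgroup G) : Set G)) ⊓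
          Subgroup.centralizer ({a} : Set G))) * Nat.card ↥(A ⊓ Q) := by
      calc Nat.card ↥(W ⊓ Subgroup.centralizer ((A ⊓ Q : Subgroup G) : Set G)) *
            Nat.card ↥(A ⊓ Q)
          ≤ _ := h1
        _ ≤ Nat.card ↥A * Nat.card ↥((W ⊓ Subgroup.centralizer ((A ⊓ Q : Subgroup G) : Set G)) ⊓
              Subgroup.centralizer ({a} : Set G)) := Nat.mul_le_mul hE1card hc1
        _ ≤ (2 * Nat.card ↥(A ⊓ Q)) *
              Nat.card ↥((W ⊓ Subgroup.centralizer ((A ⊓ Q : Subgroup G) : Set G)) ⊓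
              Subgroup.centralizer ({a} : Set G)) := Nat.mul_le_mul_right _ hidx
        _ = _ := by ring
    exact Nat.le_of_mul_le_mul_right h3 hA₀pos
  have hDYle : Nat.card ↥((W ⊓ Subgroup.centralizer ((A ⊓ Q : Subgroup G) : Set G)) ⊓
      Subgroup.centralizer ({a} : Set G)) ≤ 2 := by
    have h := hsqY.1
    rw [h] at hYle
    have hpos : 0 < Nat.card ↥((W ⊓ Subgroup.centralizer ((A ⊓ Q : Subgroup G) : Set G)) ⊓
      Subgroup.centralizer ({a} : Set G)) := Nat.card_pos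
    nlinarith
  -- `W ∩ A ≤ C_Y(a)`
  have hWA : W ⊓ A ≤ (W ⊓ Subgroup.centralizer ((A ⊓ Q : Subgroup G) : Set G)) ⊓
      Subgroup.centralizer ({a} : Set G) := by
    intro g hg
    obtain ⟨hgW, hgA⟩ := Subgroup.mem_inf.mp hg
    refine Subgroup.mem_inf.mpr
      ⟨(hYmem g).mpr ⟨hgW, fun b hb => hAc b (hA₀A hb) g hgA⟩, ?_⟩
    rw [Subgroup.mem_centralizer_singleton_iff]
    exact hAc g hgA a haA
  -- `W C_A(W)` is elementary abelian in `T`
  have hCAA : A ⊓ Subgroup.centralizer (W : Set G) ≤ A := inf_le_left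
  have hE2 : IsElementaryAbelian 2 (W ⊔ (A ⊓ Subgroup.centralizer (W : Set G))) :=
    ea_sup _ _ F.hWc F.hW2
      (fun p hp q hq => hAc p (hCAA hp) q (hCAA hq)) (fun p hp => hA2 p (hCAA hp))
      (fun w hw c hc => Subgroup.mem_centralizer_iff.mp (Subgroup.mem_inf.mp hc).2 w hw)
  have hE2T : W ⊔ (A ⊓ Subgroup.centralizer (W : Set G)) ≤ T := sup_le hWT (hCAA.trans hAT)
  have hE2card := hAmax _ hE2T hE2
  have h2 := card_mul_card_le W (A ⊓ Subgroup.centralizer (W : Set G))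
  have hWCA : W ⊓ (A ⊓ Subgroup.centralizer (W : Set G)) ≤
      (W ⊓ Subgroup.centralizer ((A ⊓ Q : Subgroup G) : Set G)) ⊓
        Subgroup.centralizer ({a} : Set G) := fun g hg =>
    hWA (Subgroup.mem_inf.mpr ⟨(Subgroup.mem_inf.mp hg).1,
      (Subgroup.mem_inf.mp (Subgroup.mem_inf.mp hg).2).1⟩)
  have hc2 := Subgroup.card_le_of_le hWCA
  -- `|W| |C_A(W)| ≤ 2 |A|`
  have hW1 : Nat.card ↥W * Nat.card ↥(A ⊓ Subgroup.centralizer (W : Set G)) ≤
      2 * Nat.card ↥A := by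
    calc Nat.card ↥W * Nat.card ↥(A ⊓ Subgroup.centralizer (W : Set G)) ≤ _ := h2
      _ ≤ Nat.card ↥A * 2 := Nat.mul_le_mul hE2card (hc2.trans hDYle)
      _ = 2 * Nat.card ↥A := by ring
  -- SQ on `W`
  have hsqW := hSq W a x F.hWc F.hW2 F.haW F.hxW (fun y _ => ha2 y) F.hx3 F.hax F.hxf
  have hUpW : W ⊓ Subgroup.centralizer ({a} : Set G) ≤ W := inf_le_left
  by_cases hUp : W ⊓ Subgroup.centralizer ({a} : Set G) = ⊥
  · left
    have h := hsqW.1
    rw [hUp, Subgroup.card_bot, one_pow] at h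
    exact (Subgroup.card_eq_one).mp h
  · right
    -- FUN for `B := A₀`, `U := C_W(a)`
    have hB2 : IsPGroup 2 ↥(A ⊓ Q) := by
      intro g
      refine ⟨1, ?_⟩
      apply Subtype.ext
      have := hA2 g (hA₀A g.2)
      simpa [pow_two] using this
    have hnorm : ∀ b ∈ A ⊓ Q, ∀ u ∈ W ⊓ Subgroup.centralizer ({a} : Set G),
        b * u * b⁻¹ ∈ W ⊓ Subgroup.centralizer ({a} : Set G) := by
      intro b hb u hu
      obtain ⟨huW, hua⟩ := Subgroup.mem_inf.mp hu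
      rw [Subgroup.mem_centralizer_singleton_iff] at hua
      refine Subgroup.mem_inf.mpr ⟨F.hbW b hb u huW, ?_⟩
      rw [Subgroup.mem_centralizer_singleton_iff]
      have h1 := hba b hb
      have h3 : b⁻¹ * a = a * b⁻¹ := by
        calc b⁻¹ * a = b⁻¹ * (a * b) * b⁻¹ := by group
          _ = b⁻¹ * (b * a) * b⁻¹ := by rw [h1]
          _ = a * b⁻¹ := by group
      calc b * u * b⁻¹ * a = b * u * (b⁻¹ * a) := by group
        _ = b * u * (a * b⁻¹) := by rw [h3]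
        _ = b * (u * a) * b⁻¹ := by group
        _ = b * (a * u) * b⁻¹ := by rw [hua]
        _ = (b * a) * u * b⁻¹ := by group
        _ = (a * b) * u * b⁻¹ := by rw [h1]
        _ = a * (b * u * b⁻¹) := by group
    have hfix : (W ⊓ Subgroup.centralizer ({a} : Set G)) ⊓
        Subgroup.centralizer ((A ⊓ Q : Subgroup G) : Set G) ≤
        (W ⊓ Subgroup.centralizer ((A ⊓ Q : Subgroup G) : Set G)) ⊓
          Subgroup.centralizer ({a} : Set G) := by
      intro g hg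
      obtain ⟨hg1, hg2⟩ := Subgroup.mem_inf.mp hg
      obtain ⟨hgW, hga⟩ := Subgroup.mem_inf.mp hg1
      exact Subgroup.mem_inf.mpr ⟨Subgroup.mem_inf.mpr ⟨hgW, hg2⟩, hga⟩
    have hfixcard := (Subgroup.card_le_of_le hfix).trans hDYle
    have hF := hFun (A ⊓ Q) (W ⊓ Subgroup.centralizer ({a} : Set G))
      (fun p hp q hq => hAc p (hA₀A hp) q (hA₀A hq)) hB2
      (fun u hu v hv => F.hWc u (hUpW hu) v (hUpW hv)) (fun u hu => F.hW2 u (hUpW hu))
      hnorm hfixcard hUp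
    -- `C_{A₀}(U⁺) ≤ C_A(W)`
    have hker : (A ⊓ Q) ⊓ Subgroup.centralizer
        ((W ⊓ Subgroup.centralizer ({a} : Set G) : Subgroup G) : Set G) ≤
        A ⊓ Subgroup.centralizer (W : Set G) := by
      intro b hb
      obtain ⟨hbA₀, hbc⟩ := Subgroup.mem_inf.mp hb
      rw [Subgroup.mem_centralizer_iff] at hbc
      refine Subgroup.mem_inf.mpr ⟨hA₀A hbA₀, ?_⟩
      rw [Subgroup.mem_centralizer_iff]
      intro w hw
      obtain ⟨u, hu, v, hv, rfl⟩ := hsqW.2 w hw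
      have hvW : v ∈ W := hUpW hv
      have h1 : b * u * b⁻¹ = u := hcomm_conj b u (hbc u hu).symm
      have h2 : b * v * b⁻¹ = v := hcomm_conj b v (hbc v hv).symm
      have h3 := F.hbx b hbA₀ v hvW
      rw [h2] at h3
      have h4 : b * (u * (x * v * x⁻¹)) * b⁻¹ = u * (x * v * x⁻¹) := by
        calc b * (u * (x * v * x⁻¹)) * b⁻¹ = (b * u * b⁻¹) * (b * (x * v * x⁻¹) * b⁻¹) := by group
          _ = u * (x * v * x⁻¹) := by rw [h1, h3]
      exact (hconj_comm b _ h4).symm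
    have hkc := Subgroup.card_le_of_le hker
    have hrel := card_mul_relIndex' (inf_le_left : (A ⊓ Q) ⊓ Subgroup.centralizer
        ((W ⊓ Subgroup.centralizer ({a} : Set G) : Subgroup G) : Set G) ≤ A ⊓ Q)
    -- numbers
    have hsq := hsqW.1
    have hkpos : 0 < Nat.card ↥((A ⊓ Q) ⊓ Subgroup.centralizer
        ((W ⊓ Subgroup.centralizer ({a} : Set G) : Subgroup G) : Set G)) := Nat.card_pos
    have hupos : 0 < Nat.card ↥(W ⊓ Subgroup.centralizer ({a} : Set G)) := Nat.card_pos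
    have hune : Nat.card ↥(W ⊓ Subgroup.centralizer ({a} : Set G)) ≠ 1 := by
      intro h
      exact hUp ((Subgroup.card_eq_one).mp h)
    generalize Nat.card ↥((A ⊓ Q) ⊓ Subgroup.centralizer
        ((W ⊓ Subgroup.centralizer ({a} : Set G) : Subgroup G) : Set G)) = k at *
    generalize ((A ⊓ Q) ⊓ Subgroup.centralizer
        ((W ⊓ Subgroup.centralizer ({a} : Set G) : Subgroup G) : Set G)).relIndex (A ⊓ Q) = r at *
    generalize Nat.card ↥(W ⊓ Subgroup.centralizer ({a} : Set G)) = n at *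
    generalize Nat.card ↥(A ⊓ Subgroup.centralizer (W : Set G)) = c at *
    generalize Nat.card ↥(A ⊓ Q) = a₀ at *
    generalize Nat.card ↥A = cA at *
    generalize Nat.card ↥W = w at *
    -- hW1 : w * c ≤ 2 * cA; hidx : cA ≤ 2 * a₀; hkc : k ≤ c; hrel : k * r = a₀; hF : 2 * r ≤ n;
    -- hsq : w = n ^ 2
    subst hsq
    have h5 : n ^ 2 * k ≤ 4 * (k * r) := by
      calc n ^ 2 * k ≤ n ^ 2 * c := Nat.mul_le_mul_left _ hkc
        _ ≤ 2 * cA := hW1
        _ ≤ 2 * (2 * a₀) := Nat.mul_le_mul_left _ hidx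
        _ = 4 * (k * r) := by rw [hrel]; ring
    have h6 : n ^ 2 ≤ 4 * r := by
      have : n ^ 2 * k ≤ (4 * r) * k := by rw [show (4 * r) * k = 4 * (k * r) by ring]; exact h5
      exact Nat.le_of_mul_le_mul_right this hkpos
    have h7 : n ≤ 2 := by nlinarith
    have h8 : n = 2 := by omega
    rw [h8]
    norm_num

end Cfsg.Agent.H63.Jx

universe u in
example (hSq : Cfsg.Agent.H82.Jx.StSq.{u}) (hFun : Cfsg.Agent.H82.Jx.StFun.{u}) :
    Cfsg.Agent.H82.Jx.StCnt.{u} := Cfsg.Agent.H63.Jx.cnt hSq hFun
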