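import Cfsg.Agent.H23.StbDecDefs2

/-!
# S2156 team project (helper23), piece SD-NF2 (helper63)

An automorphism mapping `X_{±α_i}` onto `X_{±α_{π i}}` through additive bijections is brought into
normal form by an element of `Ĥ` (assembly of HATEX, HATAUT, PSIG, EDGE).
-/

set_option autoImplicit false

universe u

namespace Cfsg.Agent.H63.StbD

open Cfsg.Lie Cfsg.Agent.H23 Cfsg.Agent.H23.Stb Cfsg.Agent.H78.StbG Cfsg.Agent.H23.StbD

/-- left multiplication by a nonzero scalar, as an additive equivalence -/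
def scaleEquiv {F : Type*} [Field F] (a : F) (ha : a ≠ 0) : F ≃+ F where
  toFun t := a * t
  invFun t := a⁻¹ * t
  left_inv t := inv_mul_cancel_left₀ ha t
  right_inv t := mul_inv_cancel_left₀ ha t
  map_add' s t := mul_add a s t

theorem scaleEquiv_apply {F : Type*} [Field F] (a : F) (ha : a ≠ 0) (t : F) :
    scaleEquiv a ha t = a * t := rfl

/-- SD-NF2 -/
theorem nf2 (h1 : StHatEx.{u}) (h2 : StHatAut.{u}) (h3 : StPsiG.{u}) (h4 : StEdge.{u}) :
    StNF2.{u} := by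
  intro D F _ z η rT w0 hC m hm θ π φ ψ hπlt hπinj hpos hneg
  classical
  have hφ1 : ∀ i, φ i 1 ≠ 0 := by
    intro i h
    have h0 : φ i 1 = φ i 0 := by rw [h, map_zero]
    exact one_ne_zero ((φ i).injective h0)
  let c : ℕ → F := fun j =>
    if h : ∃ i, i < D.rank ∧ π i = j then (φ (Classical.choose h) 1)⁻¹ else 1
  have hcπ : ∀ i < D.rank, c (π i) = (φ i 1)⁻¹ := by
    intro i hi
    have h : ∃ i', i' < D.rank ∧ π i' = π i := ⟨i, hi, rfl⟩
    have hspec := Classical.choose_spec h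
    have heq : Classical.choose h = i := hπinj _ hspec.1 i hi hspec.2
    show (if h : ∃ i', i' < D.rank ∧ π i' = π i then (φ (Classical.choose h) 1)⁻¹ else 1) = _
    rw [dif_pos h, heq]
  have hc0 : ∀ j < D.rank, c j ≠ 0 := by
    intro j _
    show (if h : ∃ i, i < D.rank ∧ π i = j then (φ (Classical.choose h) 1)⁻¹ else 1) ≠ 0
    split_ifs with h
    · exact inv_ne_zero (hφ1 _)
    · exact one_ne_zero
  obtain ⟨k, hk, hkx⟩ := h1 D F z η hC.hP m hm c hc0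
  obtain ⟨δ, hδ⟩ := h2 D F z hC.hP.sem k hk
  have hδpos : ∀ j < D.rank, ∀ s : F,
      δ (xG hC.hP.sem (D.simple j) s) = xG hC.hP.sem (D.simple j) (c j * s) := by
    intro j hj s
    apply Subtype.ext
    rw [hδ]
    exact (hkx j hj s).1
  have hδneg : ∀ j < D.rank, ∀ s : F,
      δ (xG hC.hP.sem (D.neg (D.simple j)) s) =
        xG hC.hP.sem (D.neg (D.simple j)) ((c j)⁻¹ * s) := by
    intro j hj s
    apply Subtype.ext
    rw [hδ]
    exact (hkx j hj s).2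
  let φ' : ℕ → F ≃+ F := fun i => (φ i).trans (scaleEquiv (φ i 1)⁻¹ (inv_ne_zero (hφ1 i)))
  let ψ' : ℕ → F ≃+ F := fun i => (ψ i).trans (scaleEquiv (φ i 1) (hφ1 i))
  have hP : ∀ i < D.rank, ∀ t : F, (θ.trans δ) (xG hC.hP.sem (D.simple i) t) =
      xG hC.hP.sem (D.simple (π i)) (φ' i t) := by
    intro i hi t
    show δ (θ (xG hC.hP.sem (D.simple i) t)) = _
    rw [hpos i hi t, hδpos (π i) (hπlt i hi), hcπ i hi]
    rfl
  have hN : ∀ i < D.rank, ∀ t : F, (θ.trans δ) (xG hC.hP.sem (D.neg (D.simple i)) t) =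
      xG hC.hP.sem (D.neg (D.simple (π i))) (ψ' i t) := by
    intro i hi t
    show δ (θ (xG hC.hP.sem (D.neg (D.simple i)) t)) = _
    rw [hneg i hi t, hδneg (π i) (hπlt i hi), hcπ i hi, inv_inv]
    rfl
  have hφ'1 : ∀ i, φ' i 1 = 1 := by
    intro i
    show (φ i 1)⁻¹ * φ i 1 = 1
    exact inv_mul_cancel₀ (hφ1 i)
  have hpsi := fun (i : ℕ) (hi : i < D.rank) =>
    h3 D F z η rT w0 hC (θ.trans δ) i (π i) hi (hπlt i hi) (φ' i) (ψ' i) (hP i hi) (hN i hi)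
      (hφ'1 i)
  refine ⟨δ, φ', ⟨k, hk, hδ⟩, ?_⟩
  unfold NormalForm
  refine ⟨hP, ?_, fun i _ => hφ'1 i, fun i hi => (hpsi i hi).2.1, ?_⟩
  · intro i hi t
    rw [hN i hi t, (hpsi i hi).1 t]
  · intro i hi j hj a ha u
    exact h4 D F z η hC.hP (θ.trans δ) i j (π i) (π j) hi hj (hπlt i hi) (hπlt j hj) (φ' i)
      (φ' j) (hP i hi) ((hpsi j hj).2.2) a ha u

end Cfsg.Agent.H63.StbD

namespace Cfsg.Agent.H63.StbDNF2Check

open Cfsg.Lie Cfsg.Agent.H23 Cfsg.Agent.H23.Stb Cfsg.Agent.H78.StbG Cfsg.Agent.H23.StbD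

example (h1 : StHatEx.{u}) (h2 : StHatAut.{u}) (h3 : StPsiG.{u}) (h4 : StEdge.{u}) :
    Cfsg.Agent.H23.StbD.StNF2.{u} :=
  Cfsg.Agent.H63.StbD.nf2 h1 h2 h3 h4

end Cfsg.Agent.H63.StbDNF2Check
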