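import Mathlib
import Cfsg.Agent.H47.BG1312Defs
import Cfsg.Agent.H63.Sig
import Cfsg.Agent.H92.BG123
import Cfsg.Agent.H58.BG10FG
import Cfsg.Agent.H58.BG10Defs3
import Cfsg.Agent.H57.BG129Defs
import Cfsg.Agent.H25.CycSub
import Cfsg.Agent.Helper55.PRankOne
import Cfsg.Agent.Lib.Helper30.BG129C
import Cfsg.Agent.Lib.Helper30.PiCore
import Cfsg.Agent.H76.BG10x

set_option autoImplicit false
set_option linter.style.haveILetI false
set_option linter.unusedSectionVars false

/-!
# BG1312-KILL (helper63, for helper47's team project BG1312 = B&G Lemma 13.12)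

In a configuration `Side M N P Q p q`: if some complement `E` of `N_σ` in `N` lies in `M`, then
no non-identity element of `C_{M_α}(P)` lies in `N`.
-/

namespace Cfsg.Agent.H63.BG1312

open Cfsg Subgroup Cfsg.Agent.H58.BG10 Cfsg.Agent.H63.Sig Cfsg.Agent.H47.BG139
  Cfsg.Agent.H47.BG1312
open scoped Pointwise

universe u

variable {G : Type u} [Group G]

/-- Non-conjugate maximal subgroups have `σ`-cores meeting trivially. -/
theorem sigmaCore_inf_eq_bot [Finite G] (h50 : St1350 G) (h78 : St1378b G) {M N : Subgroup G}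
    (hM : IsCoatom M) (hN : IsCoatom N) (hnc : ∀ g : G, N ≠ MulAut.conj g • M) :
    sigmaCore M ⊓ sigmaCore N = ⊥ := by
  rw [Subgroup.eq_bot_iff_card]
  by_contra hne
  obtain ⟨r, hr, hrd⟩ := Nat.exists_prime_and_dvd hne
  have h1 : r ∣ Nat.card (sigmaCore M) := hrd.trans (Subgroup.card_dvd_of_le inf_le_left)
  have h2 : r ∣ Nat.card (sigmaCore N) := hrd.trans (Subgroup.card_dvd_of_le inf_le_right)
  have hrM : r ∈ sigma M := (h50 M hM).1.2.1 r hr h1
  have hrN : r ∈ sigma N := (h50 N hN).1.2.1 r hr h2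
  obtain ⟨g, hg⟩ := h78 M N hM hN ⟨r, hrM, hrN⟩
  exact hnc g hg

/-- A subgroup `Q` of a cyclic subgroup `S` is normalized by `N_G(S)`. -/
theorem normalizer_le_of_le_cyclic [Finite G] {Q S : Subgroup G} (hQS : Q ≤ S)
    (hS : IsCyclic ↥S) : normalizer (S : Set G) ≤ normalizer (Q : Set G) := by
  intro g hg
  apply mem_normalizer_of_cj_eq
  have hS' : MulAut.conj g • S = S := cj_eq_self_of_mem_normalizer hg
  have hle : MulAut.conj g • Q ≤ S := by
    rw [← hS']
    exact cj_mono g hQS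
  have h1 : (MulAut.conj g • Q : Subgroup G).subgroupOf S = Q.subgroupOf S := by
    apply Cfsg.Agent.H25.cyclic_subgroup_eq_of_card_eq hS
    rw [Nat.card_congr (Subgroup.subgroupOfEquivOfLe hle).toEquiv,
      Nat.card_congr (Subgroup.subgroupOfEquivOfLe hQS).toEquiv, card_cj]
  have h2 := congrArg (fun K => K.map S.subtype) h1
  simp only [Subgroup.map_subgroupOf_eq_of_le hle, Subgroup.map_subgroupOf_eq_of_le hQS] at h2
  exact h2

theorem kill [Finite G] (hG : IsMinSimpleOddOrder G) (h03 : St1403 G) (h05 : St1405 G)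
    (h50 : St1350 G) (h17 : St1417 G) (h78 : St1378b G) (hSig : StSig G)
    (hLR : Cfsg.Agent.Lib.Helper30.BG134.StLR G) (hSC : Cfsg.Agent.H57.BG12.StSigConj G) :
    StKill G := by
  intro M N P Q p q hS E hE hEM x hxα hx1 hxP hxN
  have hq : q.Prime := hS.hq
  haveI : Fact q.Prime := ⟨hq⟩
  have hM := hS.hM
  have hN := hS.hN
  have hQN : Q ≤ N := le_normalizer.trans hS.hNQ
  have hNM : N ≠ M := by
    intro h
    apply hS.hnc 1
    rw [cj_one]
    exact h
  have hqσM : q ∉ sigma M := hSig M N P Q p q hS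
  have hqα : q ∉ alpha M := fun h => hqσM (alpha_subset_sigma hG h03 hM h)
  have hxσ : x ∈ sigmaCore M := (h05 M hM).2.2.1 hxα
  have hMα : alphaCore M ≠ ⊥ := by
    intro h
    rw [h, mem_bot] at hxα
    exact hx1 hxα
  by_cases hqσN : q ∈ sigma N
  · -- `Q ≤ N_σ`, so `[x, Q] ≤ M_σ ∩ N_σ = 1`
    have hQσN : Q ≤ sigmaCore N :=
      Cfsg.Agent.H92.BG12.le_sigmaCore_of_mem h50 hN hqσN hS.hQq hQN
    have hbot := sigmaCore_inf_eq_bot h50 h78 hM hN hS.hnc
    have hxQ : x ∈ centralizer (Q : Set G) := by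
      rw [mem_centralizer_iff]
      intro z hz
      have hc : x * z * x⁻¹ * z⁻¹ ∈ sigmaCore M ⊓ sigmaCore N := by
        refine Subgroup.mem_inf.mpr ⟨?_, ?_⟩
        · have hzn : z ∈ normalizer (sigmaCore M : Set G) :=
            Cfsg.Agent.Lib.Helper30.le_normalizer_piCoreOf (sigma M) M (hS.hQM hz)
          have h1 : z * x⁻¹ * z⁻¹ ∈ sigmaCore M :=
            (mem_normalizer_iff.mp hzn _).mp (inv_mem hxσ)
          have h2 := mul_mem hxσ h1
          have e : x * z * x⁻¹ * z⁻¹ = x * (z * x⁻¹ * z⁻¹) := by group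
          rw [e]
          exact h2
        · have hxn : x ∈ normalizer (sigmaCore N : Set G) :=
            Cfsg.Agent.Lib.Helper30.le_normalizer_piCoreOf (sigma N) N hxN
          have h1 : x * z * x⁻¹ ∈ sigmaCore N := (mem_normalizer_iff.mp hxn _).mp (hQσN hz)
          exact mul_mem h1 (inv_mem (hQσN hz))
      rw [hbot, mem_bot] at hc
      have h2 := mul_inv_eq_one.mp hc
      have h3 := mul_inv_eq_iff_eq_mul.mp h2
      exact h3.symm
    have hMC : M ⊓ centralizer (Q : Set G) ≤ N :=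
      inf_le_right.trans ((Subgroup.centralizer_le_normalizer _).trans hS.hNQ)
    have hLR' := (hLR M N P Q p q hM hS.hp hS.hPM hS.hPc hq hqα hS.hQM hS.hQq hS.hQ1 hS.hPQ
      hS.hfix hN hNM hMC hMα).2
    have hxmem : x ∈ alphaCore M ⊓ centralizer (Q : Set G) ⊓ centralizer (P : Set G) :=
      Subgroup.mem_inf.mpr ⟨Subgroup.mem_inf.mpr ⟨hxα, hxQ⟩, hxP⟩
    rw [hLR'] at hxmem
    exact hx1 (mem_bot.mp hxmem)
  · -- `q ∉ σ(N)`
    have hqQ : q ∣ Nat.card Q := by
      obtain ⟨n, hn⟩ := IsPGroup.iff_card.mp hS.hQq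
      rw [hn]
      apply dvd_pow_self
      rintro rfl
      rw [pow_zero] at hn
      exact hS.hQ1 (Subgroup.eq_bot_of_card_eq Q hn)
    have hqN : q ∣ Nat.card N := hqQ.trans (Subgroup.card_dvd_of_le hQN)
    have hq2 : q ≠ 2 := Cfsg.Agent.H76.BG10.ne_two_of_dvd hG N hqN
    have hrk : ¬ PRankLE q 1 ↥N := by
      intro hrk
      apply hqσN
      obtain ⟨S, hQS⟩ := (hS.hQq.comap_subtype (K := N)).exists_le_sylow
      have hScyc : IsCyclic ↥(S : Subgroup N) :=
        Cfsg.Agent.Helper55.isCyclic_of_pRankLE_one hq2 S.isPGroup'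
          (Cfsg.Agent.H76.BG10.pRankLE_subgroup _ hrk)
      have hQS' : Q ≤ (S : Subgroup N).map N.subtype := by
        intro z hz
        exact ⟨⟨z, hQN hz⟩, hQS hz, rfl⟩
      have hS'cyc : IsCyclic ↥((S : Subgroup N).map N.subtype) :=
        isCyclic_of_surjective
          ((S : Subgroup N).equivMapOfInjective N.subtype N.subtype_injective).toMonoidHom
          (MulEquiv.surjective _)
      exact ⟨hq, hqN, S, (normalizer_le_of_le_cyclic hQS' hS'cyc).trans hS.hNQ⟩
    obtain ⟨A, hAN, hAel, hAc⟩ :=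
      Cfsg.Agent.Lib.Helper30.BG12.exists_elem_sq_of_not_pRankLE_one hrk
    obtain ⟨g, hgN, hgE⟩ := hSC N hN E hE A hAN (by
      intro r hr hrd
      rw [hAc] at hrd
      have : r = q := (Nat.prime_dvd_prime_iff_eq hr hq).mp (hr.dvd_of_dvd_pow hrd)
      rw [this]
      exact hqσN)
    have hA'c : Nat.card (A.map (MulAut.conj g).toMonoidHom) = q ^ 2 := by
      rw [Subgroup.card_map_of_injective (MulAut.conj g).injective, hAc]
    have hA'el : IsElementaryAbelian q (A.map (MulAut.conj g).toMonoidHom) := by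
      refine ⟨⟨⟨fun a b => Subtype.ext ?_⟩⟩, ?_⟩
      · obtain ⟨a', ha', ha⟩ := a.2
        obtain ⟨b', hb', hb⟩ := b.2
        have hab : a' * b' = b' * a' :=
          congrArg Subtype.val (hAel.1.is_comm.comm ⟨a', ha'⟩ ⟨b', hb'⟩)
        show (a : G) * (b : G) = (b : G) * (a : G)
        rw [← ha, ← hb, ← map_mul, ← map_mul, hab]
      · rintro _ ⟨a, ha, rfl⟩
        rw [← map_pow, hAel.2 a ha, map_one]
    have hA'M : A.map (MulAut.conj g).toMonoidHom ≤ M := hgE.trans hEM
    have hA'N : A.map (MulAut.conj g).toMonoidHom ≤ N := hgE.trans hE.1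
    have hτ2 : q ∈ tau2 M := by
      refine ⟨hq, hqσM, ?_, ?_⟩
      · by_contra h
        exact hqα ⟨hq, h⟩
      · intro h
        have h1 := h ((A.map (MulAut.conj g).toMonoidHom).subgroupOf M) ?_ ?_
        · rw [Nat.card_congr (Subgroup.subgroupOfEquivOfLe hA'M).toEquiv, hA'c] at h1
          have h2 : q ^ 1 < q ^ 2 := Nat.pow_lt_pow_right hq.one_lt (by norm_num)
          omega
        · refine ⟨⟨fun a b => Subtype.ext (Subtype.ext ?_)⟩⟩
          have ha : ((a : M) : G) ∈ A.map (MulAut.conj g).toMonoidHom :=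
            Subgroup.mem_subgroupOf.mp a.2
          have hb : ((b : M) : G) ∈ A.map (MulAut.conj g).toMonoidHom :=
            Subgroup.mem_subgroupOf.mp b.2
          show ((a : M) : G) * ((b : M) : G) = ((b : M) : G) * ((a : M) : G)
          exact congrArg Subtype.val (hA'el.1.is_comm.comm ⟨_, ha⟩ ⟨_, hb⟩)
        · intro a ha
          apply Subtype.ext
          have ha' : (a : G) ∈ A.map (MulAut.conj g).toMonoidHom := Subgroup.mem_subgroupOf.mp ha
          have := hA'el.2 (a : G) ha'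
          simpa using this
    have h := (h17 M hM q hτ2 (A.map (MulAut.conj g).toMonoidHom)
      ⟨hA'M, hA'el, hA'c⟩).2.2.2.2.1 N hN hNM hA'N
    have hxmem : x ∈ sigmaCore M ⊓ N := Subgroup.mem_inf.mpr ⟨hxσ, hxN⟩
    rw [h] at hxmem
    exact hx1 (mem_bot.mp hxmem)

example [Finite G] (hG : IsMinSimpleOddOrder G) (h03 : St1403 G) (h05 : St1405 G)
    (h50 : St1350 G) (h17 : St1417 G) (h78 : St1378b G) (hSig : StSig G)
    (hLR : Cfsg.Agent.Lib.Helper30.BG134.StLR G) (hSC : Cfsg.Agent.H57.BG12.StSigConj G) :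
    ∀ (M N P Q : Subgroup G) (p q : ℕ), Side M N P Q p q →
    ∀ E : Subgroup G, IsComplIn E (sigmaCore N) N → E ≤ M →
    ∀ x : G, x ∈ alphaCore M → x ≠ 1 → x ∈ centralizer (P : Set G) → x ∈ N → False :=
  kill hG h03 h05 h50 h17 h78 hSig hLR hSC

end Cfsg.Agent.H63.BG1312
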