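import Cfsg.Agent.H61.TmExDefs
import Cfsg.Agent.H60.OtCommon

/-!
# TMX-BLOCKEX (helper63, for helper61's sub-project S5987-EXEVEN)

For `i = ii F r` even, one block of every type `φ₀`: take the fixed-point-free block `(V, Q, g)`
of dimension `i` from TMX-BLOCKONE and replace `g` by the power `g ^ e` from TMX-POWERS which is
killed by `φ₀`.
-/

set_option autoImplicit false
open scoped MatrixGroups
open scoped Matrix

namespace Cfsg.Agent.H63.Tm

open Cfsg.Agent.H45 Cfsg.Agent.H42.Spd Cfsg.Agent.H42.Ti Cfsg.Agent.H77.Tq Cfsg.Agent.H77.Tm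
  Cfsg.Agent.H61.Tm Module Polynomial

universe u

open Classical in
theorem blockEx (hOne : StBlockOne.{u}) (hPow : StPowers.{u}) : StBlockEx.{u} := by
  intro F _ _ p _ _ r hr hr2 hrp hev a b hab Φs hΦ φ₀ hφ₀
  obtain ⟨V, iA, iM, iF, Q, g, hctx, hdim, hker⟩ := hOne F p r hr hr2 hrp hev a b hab
  have hipos : 0 < ii F r := Cfsg.Agent.H60.Ot.ot_ii_pos r hr hctx.cast_ne
  obtain ⟨e, he⟩ := hPow F V r g hr hctx.cast_ne hctx.pow hker hdim hipos Φs hΦ φ₀ hφ₀
  have hisom : ∀ (k : ℕ) (x : V), Q ((g ^ k) x) = Q x := by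
    intro k
    induction k with
    | zero => intro x; simp
    | succ k ih =>
      intro x
      rw [pow_succ, Module.End.mul_apply, ih, hctx.isom]
  have hctx' : QCtx r Q (g ^ e) :=
    { prime := hctx.prime
      ne_two := hctx.ne_two
      cast_ne := hctx.cast_ne
      nondeg := hctx.nondeg
      isom := hisom e
      pow := by rw [← pow_mul, mul_comm, pow_mul, hctx.pow, one_pow] }
  have hφ₀' := (hΦ φ₀).mp hφ₀
  have hev1 : φ₀.eval 1 ≠ 0 := by
    intro h0
    obtain ⟨c, hc⟩ := hφ₀'.2.2
    have h1 : (cyclotomic r F).eval 1 = 0 := by rw [hc, eval_mul, h0, zero_mul]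
    have : Fact r.Prime := ⟨hr⟩
    rw [eval_one_cyclotomic_prime] at h1
    exact hctx.cast_ne h1
  refine ⟨V, iA, iM, iF, Q, g ^ e, hctx', hdim, ?_, ?_⟩
  · -- no fixed points
    have hbot : LinearMap.ker (g ^ e - 1) = ⊥ := by
      rw [eq_bot_iff]
      intro v hv
      rw [Submodule.mem_bot]
      by_contra hv0
      have hfix : (g ^ e) v = v := by
        have h1 : (g ^ e - 1) v = 0 := hv
        rw [LinearMap.sub_apply, Module.End.one_apply, sub_eq_zero] at h1
        exact h1
      have hvec : Module.End.HasEigenvector (g ^ e) 1 v := by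
        refine ⟨?_, hv0⟩
        rw [Module.End.mem_eigenspace_iff, hfix, one_smul]
      have h2 := Module.End.aeval_apply_of_hasEigenvector (p := φ₀) hvec
      rw [he, LinearMap.zero_apply] at h2
      rcases smul_eq_zero.mp h2.symm with h3 | h3
      · exact hev1 h3
      · exact hv0 h3
    rw [hbot, finrank_bot]
  · intro φ hφ
    show Module.finrank F ↥(LinearMap.ker (aeval (g ^ e) φ)) = if φ = φ₀ then ii F r else 0
    by_cases hφe : φ = φ₀
    · rw [if_pos hφe, hφe, he, LinearMap.ker_zero, finrank_top, hdim]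
    · rw [if_neg hφe]
      have hφ' := (hΦ φ).mp hφ
      have hcop : IsCoprime φ φ₀ := by
        rw [hφ'.2.1.coprime_iff_not_dvd]
        intro hdvd
        apply hφe
        exact eq_of_monic_of_associated hφ'.1 hφ₀'.1
          (hφ'.2.1.associated_of_dvd hφ₀'.2.1 hdvd)
      obtain ⟨s, t, hst⟩ := hcop
      have hbot : LinearMap.ker (aeval (g ^ e) φ) = ⊥ := by
        rw [eq_bot_iff]
        intro v hv
        rw [Submodule.mem_bot]
        have hv' : (aeval (g ^ e) φ) v = 0 := hv
        have h1 : (aeval (g ^ e) (s * φ + t * φ₀)) v = v := by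
          rw [hst, map_one, Module.End.one_apply]
        rw [map_add, map_mul, map_mul, he, mul_zero, add_zero, Module.End.mul_apply, hv',
          map_zero] at h1
        exact h1.symm
      rw [hbot, finrank_bot]

open Classical in
example (hOne : StBlockOne.{u}) (hPow : StPowers.{u}) :
    ∀ (F : Type u) [Field F] [Fintype F] (p : ℕ) [Fact p.Prime] [CharP F p] (r : ℕ), r.Prime →
    r ≠ 2 → r ≠ p → Even (ii F r) → ∀ a b : F, Aniso a b →
    ∀ Φs : Finset F[X], IsCycSet F r Φs → ∀ φ₀ ∈ Φs,
    ModelQ F r (ii F r) 0 Φs (fun φ => if φ = φ₀ then ii F r else 0) :=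
  blockEx hOne hPow

end Cfsg.Agent.H63.Tm
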