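import Mathlib

set_option autoImplicit false
set_option linter.unusedSectionVars false

namespace Cfsg.Agent.H63.NilCount

open Module

section basic

variable {F : Type*} [Field F] {V : Type*} [AddCommGroup V] [Module F V]

/-- chain condition: `T (v i) = v (i+1)` -/
def Chain {k : ℕ} (v : Fin k → V) (T : Module.End F V) : Prop :=
  ∀ i : Fin k, ∀ h : i.val + 1 < k, T (v i) = v ⟨i.val + 1, h⟩

/-- end condition: `T (v last) = w` -/
def EndsAt {k : ℕ} (v : Fin k → V) (T : Module.End F V) (w : V) : Prop :=
  ∀ i : Fin k, i.val + 1 = k → T (v i) = w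

theorem pow_chain {k : ℕ} {v : Fin k → V} {T : Module.End F V} (hc : Chain v T) :
    ∀ j : ℕ, ∀ i : Fin k, ∀ h : i.val + j < k, (T ^ j) (v i) = v ⟨i.val + j, h⟩ := by
  intro j
  induction j with
  | zero => intro i h; simp
  | succ j ih =>
    intro i h
    have h1 : i.val + 1 < k := by omega
    rw [pow_succ, Module.End.mul_apply, hc i h1, ih ⟨i.val + 1, h1⟩ (by simp; omega)]
    congr 1
    ext
    simp; omega

theorem pow_ends {k : ℕ} {v : Fin k → V} {T : Module.End F V} {w : V} (hc : Chain v T)
    (he : EndsAt v T w) (i : Fin k) : (T ^ (k - i.val)) (v i) = w := by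
  have hi := i.isLt
  obtain ⟨j, hj⟩ : ∃ j, k - i.val = j + 1 := ⟨k - i.val - 1, by omega⟩
  rw [hj, pow_succ', Module.End.mul_apply, pow_chain hc j i (by omega)]
  exact he _ (by simp; omega)

theorem pow_eq_zero_on_span {k : ℕ} {v : Fin k → V} {T : Module.End F V} (hc : Chain v T)
    (he : EndsAt v T 0) : ∀ u ∈ Submodule.span F (Set.range v), (T ^ k) u = 0 := by
  have h1 : Submodule.span F (Set.range v) ≤ LinearMap.ker (T ^ k) := by
    rw [Submodule.span_le]
    rintro _ ⟨i, rfl⟩
    rw [SetLike.mem_coe, LinearMap.mem_ker]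
    have h3 : T ^ k = T ^ i.val * T ^ (k - i.val) := by
      rw [← pow_add]; congr 1; have := i.isLt; omega
    rw [h3, Module.End.mul_apply, pow_ends hc he i, map_zero]
  intro u hu
  exact LinearMap.mem_ker.mp (h1 hu)

theorem ends_zero_of_mem_span [FiniteDimensional F V] {k : ℕ} (hk : 1 ≤ k) {v : Fin k → V}
    (hv : LinearIndependent F v) {T : Module.End F V} (hT : IsNilpotent T) {w : V}
    (hc : Chain v T) (he : EndsAt v T w) (hw : w ∈ Submodule.span F (Set.range v)) : w = 0 := by
  set U := Submodule.span F (Set.range v) with hU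
  have hUk : finrank F U = k := by
    rw [hU, finrank_span_eq_card hv, Fintype.card_fin]
  have hmaps : ∀ x ∈ U, T x ∈ U := by
    have h1 : U ≤ U.comap T := by
      rw [hU, Submodule.span_le]
      rintro _ ⟨i, rfl⟩
      rw [SetLike.mem_coe, Submodule.mem_comap]
      by_cases h : i.val + 1 < k
      · rw [hc i h]; exact Submodule.subset_span ⟨_, rfl⟩
      · rw [he i (by have := i.isLt; omega)]; exact hw
    exact fun x hx => h1 hx
  set R : Module.End F U := T.restrict hmaps with hR
  obtain ⟨m, hm⟩ := hT
  have hRpow : ∀ j : ℕ, ∀ x : U, (((R ^ j) x : U) : V) = (T ^ j) (x : V) := by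
    intro j
    induction j with
    | zero => intro x; simp
    | succ j ih =>
      intro x
      rw [pow_succ, Module.End.mul_apply, ih, pow_succ, Module.End.mul_apply]
      rfl
  have hRm : R ^ m = 0 := by
    ext x
    rw [hRpow, hm]; simp
  have hRk : R ^ k = 0 := by
    rcases le_total k m with h | h
    · have h3 := Module.End.ker_pow_eq_ker_pow_finrank_of_le (f := R) (m := m)
        (by rw [hUk]; exact h)
      rw [hRm, LinearMap.ker_zero, hUk] at h3
      exact LinearMap.ker_eq_top.mp h3.symm
    · have h4 : R ^ k = R ^ (k - m) * R ^ m := by rw [← pow_add]; congr 1; omega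
      rw [h4, hRm, mul_zero]
  have h0 : (T ^ k) (v ⟨0, hk⟩) = w := by
    have := pow_ends hc he ⟨0, hk⟩
    simpa using this
  have hmem : v ⟨0, hk⟩ ∈ U := Submodule.subset_span ⟨_, rfl⟩
  have h5 := hRpow k ⟨v ⟨0, hk⟩, hmem⟩
  rw [hRk] at h5
  rw [← h0, ← h5]; simp

theorem pow_agree {U : Submodule F V} {S T : Module.End F V} (hSU : ∀ u ∈ U, S u ∈ U)
    (hT : ∀ u ∈ U, T u = S u) : ∀ j : ℕ, ∀ u ∈ U, (T ^ j) u = (S ^ j) u ∧ (S ^ j) u ∈ U := by
  intro j
  induction j with
  | zero => intro u hu; simpa using hu
  | succ j ih =>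
    intro u hu
    obtain ⟨h1, h2⟩ := ih u hu
    rw [pow_succ', pow_succ', Module.End.mul_apply, Module.End.mul_apply, h1, hT _ h2]
    exact ⟨rfl, hSU _ h2⟩

end basic

section count

variable {F : Type*} [Field F] {V : Type*} [AddCommGroup V] [Module F V]

theorem card_nilpotent_extensions (U C : Submodule F V) (h : IsCompl U C) (S : Module.End F V)
    (m : ℕ) (hSU : ∀ u ∈ U, S u ∈ U) (hSm : ∀ u ∈ U, (S ^ m) u = 0) :
    Nat.card {T : Module.End F V // IsNilpotent T ∧ ∀ u ∈ U, T u = S u} =
      Nat.card (C →ₗ[F] U) * Nat.card {Y : Module.End F C // IsNilpotent Y} := by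
  classical
  set pU : V →ₗ[F] U := U.projectionOnto C h with hpU
  set pC : V →ₗ[F] C := C.projectionOnto U h.symm with hpC
  have hsum : ∀ x : V, (pU x : V) + (pC x : V) = x := fun x =>
    Submodule.projection_add_projection_eq_self h x
  have hpUU : ∀ u : U, pU (u : V) = u := fun u => Submodule.projectionOnto_apply_left h u
  have hpCC : ∀ c : C, pC (c : V) = c := fun c => Submodule.projectionOnto_apply_left h.symm c
  have hpUC : ∀ c : C, pU (c : V) = 0 := fun c => Submodule.projectionOnto_apply_right h c
  have hpCU : ∀ u : U, pC (u : V) = 0 := fun u => Submodule.projectionOnto_apply_right h.symm u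
  have hpCU' : ∀ x : V, x ∈ U → pC x = 0 := fun x hx => hpCU ⟨x, hx⟩
  have hker : ∀ x : V, pC x = 0 → x ∈ U := fun x hx =>
    (Submodule.projectionOnto_apply_eq_zero_iff h.symm).mp hx
  have hkey : ∀ T : Module.End F V, (∀ u ∈ U, T u = S u) → ∀ x : V,
      pC (T x) = (pC ∘ₗ T ∘ₗ C.subtype) (pC x) := by
    intro T hT x
    have hx := hsum x
    conv_lhs => rw [← hx]
    rw [map_add, map_add, hT _ (pU x).2, hpCU' _ (hSU _ (pU x).2), zero_add]
    rfl
  have hkeypow : ∀ T : Module.End F V, (∀ u ∈ U, T u = S u) → ∀ j : ℕ, ∀ x : V,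
      pC ((T ^ j) x) = ((pC ∘ₗ T ∘ₗ C.subtype : Module.End F C) ^ j) (pC x) := by
    intro T hT j
    induction j with
    | zero => intro x; simp
    | succ j ih =>
      intro x
      rw [pow_succ', Module.End.mul_apply, hkey T hT, ih, pow_succ', Module.End.mul_apply]
  have hnil1 : ∀ T : Module.End F V, (∀ u ∈ U, T u = S u) → IsNilpotent T →
      IsNilpotent (pC ∘ₗ T ∘ₗ C.subtype : Module.End F C) := by
    rintro T hT ⟨j, hj⟩
    refine ⟨j, ?_⟩
    ext c
    have h1 := hkeypow T hT j (c : V)
    rw [hj, hpCC] at h1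
    rw [← h1]; simp
  have hnil2 : ∀ T : Module.End F V, (∀ u ∈ U, T u = S u) →
      IsNilpotent (pC ∘ₗ T ∘ₗ C.subtype : Module.End F C) → IsNilpotent T := by
    rintro T hT ⟨j, hj⟩
    refine ⟨m + j, ?_⟩
    ext x
    have h1 := hkeypow T hT j x
    rw [hj] at h1
    have h2 : (T ^ j) x ∈ U := hker _ (by simpa using h1)
    have h3 := (pow_agree hSU hT m _ h2).1
    rw [pow_add, Module.End.mul_apply, h3, hSm _ h2]
    simp
  have he1 : ∀ (A : C →ₗ[F] U) (Y : Module.End F C), ∀ u ∈ U,
      (S ∘ₗ (U.subtype ∘ₗ pU) + (U.subtype ∘ₗ A + C.subtype ∘ₗ Y) ∘ₗ pC : Module.End F V) u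
        = S u := by
    intro A Y u hu
    have h1 : pU u = ⟨u, hu⟩ := hpUU ⟨u, hu⟩
    have h2 : pC u = 0 := hpCU' u hu
    simp [h1, h2]
  have he2 : ∀ (A : C →ₗ[F] U) (Y : Module.End F C),
      pU ∘ₗ (S ∘ₗ (U.subtype ∘ₗ pU) + (U.subtype ∘ₗ A + C.subtype ∘ₗ Y) ∘ₗ pC :
        Module.End F V) ∘ₗ C.subtype = A := by
    intro A Y
    ext c
    simp [hpUC, hpCC, hpUU]
  have he3 : ∀ (A : C →ₗ[F] U) (Y : Module.End F C),
      pC ∘ₗ (S ∘ₗ (U.subtype ∘ₗ pU) + (U.subtype ∘ₗ A + C.subtype ∘ₗ Y) ∘ₗ pC :
        Module.End F V) ∘ₗ C.subtype = Y := by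
    intro A Y
    ext c
    simp [hpUC, hpCC, hpCU]
  have he4 : ∀ T : Module.End F V, (∀ u ∈ U, T u = S u) →
      (S ∘ₗ (U.subtype ∘ₗ pU) + (U.subtype ∘ₗ (pU ∘ₗ T ∘ₗ C.subtype) +
        C.subtype ∘ₗ (pC ∘ₗ T ∘ₗ C.subtype)) ∘ₗ pC : Module.End F V) = T := by
    intro T hT
    ext x
    simp only [LinearMap.add_apply, LinearMap.comp_apply, Submodule.subtype_apply]
    rw [← hT _ (pU x).2, hsum (T (pC x)), ← map_add, hsum x]
  rw [← Nat.card_prod]
  apply Nat.card_congr
  exact
    { toFun := fun T => (pU ∘ₗ T.1 ∘ₗ C.subtype,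
        ⟨pC ∘ₗ T.1 ∘ₗ C.subtype, hnil1 T.1 T.2.2 T.2.1⟩)
      invFun := fun AY =>
        ⟨S ∘ₗ (U.subtype ∘ₗ pU) + (U.subtype ∘ₗ AY.1 + C.subtype ∘ₗ AY.2.1) ∘ₗ pC,
          hnil2 _ (he1 AY.1 AY.2.1) (by rw [he3]; exact AY.2.2), he1 AY.1 AY.2.1⟩
      left_inv := fun T => Subtype.ext (he4 T.1 T.2.2)
      right_inv := fun AY => Prod.ext (he2 AY.1 AY.2.1) (Subtype.ext (he3 AY.1 AY.2.1)) }

end count

section recursion

variable {F : Type*} [Field F] [Fintype F] {V : Type*} [AddCommGroup V] [Module F V] [Finite V]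

/-- extend a tuple by one vector -/
def ext1 {k : ℕ} (v : Fin k → V) (w : V) : Fin (k + 1) → V :=
  fun i => if h : i.val < k then v ⟨i.val, h⟩ else w

omit [Fintype F] [Finite V] in
theorem ext1_eq_snoc {k : ℕ} (v : Fin k → V) (w : V) : ext1 v w = Fin.snoc v w := by
  funext i
  by_cases h : i.val < k
  · simp [ext1, Fin.snoc, h]
    rfl
  · simp [ext1, Fin.snoc, h]

omit [Fintype F] [Finite V] in
theorem chain_ext1_iff {k : ℕ} (v : Fin k → V) (w : V) (T : Module.End F V) :
    Chain (ext1 v w) T ↔ (Chain v T ∧ EndsAt v T w) := by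
  constructor
  · intro h
    refine ⟨fun i hi => ?_, fun i hi => ?_⟩
    · have h1 := h ⟨i.val, by omega⟩ (by show i.val + 1 < k + 1; omega)
      simp only [ext1] at h1
      rw [dif_pos i.isLt, dif_pos hi] at h1
      exact h1
    · have h1 := h ⟨i.val, by omega⟩ (by show i.val + 1 < k + 1; omega)
      simp only [ext1] at h1
      rw [dif_pos i.isLt, dif_neg (by omega)] at h1
      exact h1
  · rintro ⟨hc, he⟩ i hi
    have hik : i.val < k := by omega
    simp only [ext1]
    rw [dif_pos hik]
    by_cases h1 : i.val + 1 < k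
    · rw [dif_pos h1]; exact hc ⟨i.val, hik⟩ h1
    · rw [dif_neg h1]; exact he ⟨i.val, hik⟩ (by show i.val + 1 = k; omega)

theorem card_chain_rec {k : ℕ} (hk : 1 ≤ k) (v : Fin k → V) (hv : LinearIndependent F v)
    (C : Submodule F V) (hC : IsCompl (Submodule.span F (Set.range v)) C) (B : ℕ)
    (hB : ∀ w : V, w ∉ Submodule.span F (Set.range v) →
      Nat.card {T : Module.End F V // IsNilpotent T ∧ Chain (ext1 v w) T} = B) :
    Nat.card {T : Module.End F V // IsNilpotent T ∧ Chain v T} =
      Nat.card (C →ₗ[F] Submodule.span F (Set.range v)) *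
        Nat.card {Y : Module.End F C // IsNilpotent Y}
        + (Nat.card V - Nat.card (Submodule.span F (Set.range v))) * B := by
  classical
  have : Fintype V := Fintype.ofFinite V
  have hfinEnd : Finite (Module.End F V) := DFunLike.finite _
  set U := Submodule.span F (Set.range v) with hU
  have hfd : FiniteDimensional F V := Module.Finite.of_finite
  let last : Fin k := ⟨k - 1, by omega⟩
  let b := Basis.span hv
  let tgt : Fin k → V := fun i => if h : i.val + 1 < k then v ⟨i.val + 1, h⟩ else 0
  let S : Module.End F V := (b.constr F tgt) ∘ₗ (U.projectionOnto C hC)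
  have hSv : ∀ i : Fin k, S (v i) = tgt i := by
    intro i
    have hmem : v i ∈ U := Submodule.subset_span ⟨i, rfl⟩
    have h1 : U.projectionOnto C hC (v i) = b i := by
      rw [Submodule.projectionOnto_apply_of_mem_left hC hmem]
      apply Subtype.ext
      rw [Basis.span_apply]
    show (b.constr F tgt) (U.projectionOnto C hC (v i)) = tgt i
    rw [h1, Basis.constr_basis]
  have hSchain : Chain v S := by
    intro i hi
    rw [hSv]
    simp only [tgt]
    rw [dif_pos hi]
  have hSend : EndsAt v S 0 := by
    intro i hi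
    rw [hSv]
    simp only [tgt]
    rw [dif_neg (by omega)]
  have hSU : ∀ u ∈ U, S u ∈ U := by
    have h1 : U ≤ U.comap S := by
      rw [hU, Submodule.span_le]
      rintro _ ⟨i, rfl⟩
      rw [SetLike.mem_coe, Submodule.mem_comap, hSv]
      simp only [tgt]
      split_ifs with h
      · exact Submodule.subset_span ⟨_, rfl⟩
      · exact Submodule.zero_mem _
    exact fun u hu => h1 hu
  have hSm : ∀ u ∈ U, (S ^ k) u = 0 := pow_eq_zero_on_span hSchain hSend
  have hagree : ∀ T : Module.End F V, (Chain v T ∧ EndsAt v T 0) ↔ ∀ u ∈ U, T u = S u := by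
    intro T
    constructor
    · rintro ⟨hc, he⟩ u hu
      apply LinearMap.eqOn_span (R := F) (s := Set.range v) ?_ hu
      rintro _ ⟨i, rfl⟩
      rw [hSv]
      simp only [tgt]
      split_ifs with h
      · exact hc i h
      · exact he i (by have := i.isLt; omega)
    · intro h
      constructor
      · intro i hi
        rw [h _ (Submodule.subset_span ⟨i, rfl⟩)]; exact hSchain i hi
      · intro i hi
        rw [h _ (Submodule.subset_span ⟨i, rfl⟩)]; exact hSend i hi
  have hfib : ∀ w : V,
      Nat.card {T : Module.End F V // IsNilpotent T ∧ Chain v T ∧ EndsAt v T w} =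
      (if w = 0 then Nat.card (C →ₗ[F] U) * Nat.card {Y : Module.End F C // IsNilpotent Y}
        else 0) + (if w ∈ U then 0 else B) := by
    intro w
    by_cases hw0 : w = 0
    · subst hw0
      rw [if_pos rfl, if_pos (Submodule.zero_mem _), Nat.add_zero,
        ← card_nilpotent_extensions U C hC S k hSU hSm]
      apply Nat.card_congr
      exact Equiv.subtypeEquivRight (fun T => by rw [hagree])
    · rw [if_neg hw0, Nat.zero_add]
      by_cases hwU : w ∈ U
      · rw [if_pos hwU, Nat.card_eq_zero]
        left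
        constructor
        rintro ⟨T, hT, hc, he⟩
        exact hw0 (ends_zero_of_mem_span hk hv hT hc he hwU)
      · rw [if_neg hwU, ← hB w hwU]
        apply Nat.card_congr
        exact Equiv.subtypeEquivRight (fun T => by rw [chain_ext1_iff])
  have htot : Nat.card {T : Module.End F V // IsNilpotent T ∧ Chain v T} =
      ∑ w : V, Nat.card {T : Module.End F V // IsNilpotent T ∧ Chain v T ∧ EndsAt v T w} := by
    rw [← Nat.card_sigma]
    apply Nat.card_congr
    exact
      { toFun := fun T => ⟨T.1 (v last), ⟨T.1, T.2.1, T.2.2, fun i hi => by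
          have h1 : i = last := Fin.ext (by simp only [last]; omega)
          rw [h1]⟩⟩
        invFun := fun x => ⟨x.2.1, x.2.2.1, x.2.2.2.1⟩
        left_inv := fun T => rfl
        right_inv := fun x => by
          obtain ⟨w, T, hT, hc, he⟩ := x
          have h1 : T (v last) = w := he last (by simp only [last]; omega)
          subst h1
          rfl }
  have hcntU : Nat.card U = (Finset.univ.filter (fun w : V => w ∈ U)).card := by
    rw [Nat.card_eq_fintype_card]
    exact Fintype.card_of_subtype _ (by simp)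
  have hcnt : (Finset.univ.filter (fun w : V => w ∉ U)).card = Nat.card V - Nat.card U := by
    rw [hcntU, ← Finset.compl_filter, Finset.card_compl, Nat.card_eq_fintype_card]
  rw [htot, Finset.sum_congr rfl (fun w _ => hfib w), Finset.sum_add_distrib,
    Finset.sum_ite_eq' Finset.univ (0 : V), if_pos (Finset.mem_univ _)]
  congr 1
  rw [← hcnt, Finset.card_filter, Finset.sum_mul]
  apply Finset.sum_congr rfl
  intro w _
  by_cases hwU : w ∈ U
  · simp [hwU]
  · simp [hwU]

end recursion

section main

universe u v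

theorem card_chain_formula {F : Type v} [Field F] [Fintype F] {V : Type u} [AddCommGroup V]
    [Module F V] [Finite V]
    (IHC : ∀ C : Submodule F V, finrank F C < finrank F V →
      Nat.card {Y : Module.End F C // IsNilpotent Y} =
        Fintype.card F ^ (finrank F C * (finrank F C - 1)))
    {k : ℕ} (hk : 1 ≤ k) (v : Fin k → V) (hv : LinearIndependent F v) (B : ℕ)
    (hB : ∀ w : V, w ∉ Submodule.span F (Set.range v) →
      Nat.card {T : Module.End F V // IsNilpotent T ∧ Chain (ext1 v w) T} = B) :
    Nat.card {T : Module.End F V // IsNilpotent T ∧ Chain v T} =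
      Fintype.card F ^ ((finrank F V - k) * k) *
        Fintype.card F ^ ((finrank F V - k) * (finrank F V - k - 1))
        + (Fintype.card F ^ finrank F V - Fintype.card F ^ k) * B := by
  have hfd : FiniteDimensional F V := Module.Finite.of_finite
  set U := Submodule.span F (Set.range v) with hU
  obtain ⟨C, hC⟩ := Submodule.exists_isCompl U
  have hUk : finrank F U = k := by
    rw [hU, finrank_span_eq_card hv, Fintype.card_fin]
  have hsum := Submodule.finrank_add_eq_of_isCompl hC
  have hCk : finrank F C = finrank F V - k := by omega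
  have hq : Nat.card F = Fintype.card F := Nat.card_eq_fintype_card
  rw [card_chain_rec hk v hv C hC B hB, IHC C (by omega)]
  rw [Module.natCard_eq_pow_finrank (K := F) (V := (C →ₗ[F] U)),
    Module.natCard_eq_pow_finrank (K := F) (V := V),
    Module.natCard_eq_pow_finrank (K := F) (V := U), Module.finrank_linearMap, hq, hUk, hCk]

theorem card_nilpotent_end (F : Type v) [Field F] [Fintype F] :
    ∀ (n : ℕ) (V : Type u) [AddCommGroup V] [Module F V] [Finite V], finrank F V = n →
      Nat.card {T : Module.End F V // IsNilpotent T} = Fintype.card F ^ (n * (n - 1)) := by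
  intro n
  induction n using Nat.strong_induction_on with
  | _ n IH =>
    intro V _ _ _ hn
    have hfd : FiniteDimensional F V := Module.Finite.of_finite
    have hq1 : 1 ≤ Fintype.card F := Fintype.card_pos
    rcases Nat.eq_zero_or_pos n with h0 | hpos
    · subst h0
      have hsub : Subsingleton V := (Module.finrank_zero_iff (R := F)).mp hn
      have hsub2 : Subsingleton (Module.End F V) :=
        ⟨fun f g => LinearMap.ext fun x => Subsingleton.elim _ _⟩
      have : Unique {T : Module.End F V // IsNilpotent T} :=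
        ⟨⟨⟨0, IsNilpotent.zero⟩⟩, fun T => Subtype.ext (Subsingleton.elim _ _)⟩
      rw [Nat.card_unique]; simp
    · have IHC : ∀ C : Submodule F V, finrank F C < finrank F V →
          Nat.card {Y : Module.End F C // IsNilpotent Y} =
            Fintype.card F ^ (finrank F C * (finrank F C - 1)) := by
        intro C hC
        exact IH (finrank F C) (by omega) C rfl
      have inner : ∀ d k : ℕ, ∀ v : Fin k → V, 1 ≤ k → LinearIndependent F v → k + d = n →
          Nat.card {T : Module.End F V // IsNilpotent T ∧ Chain v T} =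
            Fintype.card F ^ (n * d) := by
        intro d
        induction d with
        | zero =>
          intro k v hk hv hkd
          have hUtop : Submodule.span F (Set.range v) = ⊤ := by
            apply Submodule.eq_top_of_finrank_eq
            rw [finrank_span_eq_card hv, Fintype.card_fin]; omega
          rw [card_chain_formula IHC hk v hv 0 (fun w hw => absurd (hUtop ▸ Submodule.mem_top) hw)]
          have hk' : finrank F V - k = 0 := by omega
          rw [hk']
          simp
        | succ d ih =>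
          intro k v hk hv hkd
          have hB : ∀ w : V, w ∉ Submodule.span F (Set.range v) →
              Nat.card {T : Module.End F V // IsNilpotent T ∧ Chain (ext1 v w) T} =
                Fintype.card F ^ (n * d) := by
            intro w hw
            apply ih (k + 1) (ext1 v w) (by omega) _ (by omega)
            rw [ext1_eq_snoc]
            exact linearIndependent_finSnoc.mpr ⟨hv, hw⟩
          rw [card_chain_formula IHC hk v hv _ hB]
          have hk' : finrank F V - k = d + 1 := by omega
          rw [hk', hn]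
          set x := Fintype.card F with hx
          have e1 : x ^ ((d + 1) * k) * x ^ ((d + 1) * (d + 1 - 1)) = x ^ (k + n * d) := by
            rw [← pow_add]; congr 1
            rw [← hkd]; simp only [Nat.add_sub_cancel]; ring
          have e2 : (x ^ n - x ^ k) * x ^ (n * d) = x ^ (n * (d + 1)) - x ^ (k + n * d) := by
            rw [Nat.sub_mul, ← pow_add, ← pow_add]; congr 2; ring
          have e3 : x ^ (k + n * d) ≤ x ^ (n * (d + 1)) := by
            apply Nat.pow_le_pow_right hq1
            have : n * (d + 1) = n * d + n := by ring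
            omega
          rw [e1, e2]
          omega
      obtain ⟨x, hx⟩ := (Module.finrank_pos_iff_exists_ne_zero (R := F) (M := V)).mp (by omega)
      have hv : LinearIndependent F (fun _ : Fin 1 => x) :=
        linearIndependent_unique_iff.mpr hx
      rw [← inner (n - 1) 1 (fun _ : Fin 1 => x) le_rfl hv (by omega)]
      apply Nat.card_congr
      exact Equiv.subtypeEquivRight (fun T =>
        (and_iff_left (fun i hi => absurd hi (by omega))).symm)

theorem card_nilpotent_matrix (F : Type v) [Field F] [Fintype F] (n : ℕ) :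
    Nat.card {N : Matrix (Fin n) (Fin n) F // IsNilpotent N} =
      Fintype.card F ^ (n * (n - 1)) := by
  rw [← card_nilpotent_end F n (Fin n → F) (by simp)]
  apply Nat.card_congr
  let e := Matrix.toLinAlgEquiv' (R := F) (n := Fin n)
  exact
    { toFun := fun N => ⟨e N.1, N.2.map e⟩
      invFun := fun T => ⟨e.symm T.1, T.2.map e.symm⟩
      left_inv := fun N => Subtype.ext (e.symm_apply_apply N.1)
      right_inv := fun T => Subtype.ext (e.apply_symm_apply T.1) }

theorem card_unipotent (F : Type v) [Field F] [Fintype F] (p : ℕ) [Fact p.Prime] [CharP F p]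
    (n : ℕ) :
    Nat.card {g : Matrix.GeneralLinearGroup (Fin n) F // ∃ k : ℕ, orderOf g = p ^ k} =
      Fintype.card F ^ (n * (n - 1)) := by
  rcases Nat.eq_zero_or_pos n with h0 | hpos
  · subst h0
    have hsub : Subsingleton (Matrix.GeneralLinearGroup (Fin 0) F) :=
      ⟨fun a b => Units.ext (Subsingleton.elim _ _)⟩
    have : Unique {g : Matrix.GeneralLinearGroup (Fin 0) F // ∃ k : ℕ, orderOf g = p ^ k} :=
      ⟨⟨⟨1, 0, by simp⟩⟩, fun g => Subtype.ext (Subsingleton.elim _ _)⟩
    rw [Nat.card_unique]; simp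
  · have hne : Nonempty (Fin n) := ⟨⟨0, hpos⟩⟩
    have hp : p.Prime := Fact.out
    rw [← card_nilpotent_matrix F n]
    apply Nat.card_congr
    have key : ∀ g : Matrix.GeneralLinearGroup (Fin n) F,
        (∃ k : ℕ, orderOf g = p ^ k) ↔ IsNilpotent ((g : Matrix (Fin n) (Fin n) F) - 1) := by
      intro g
      constructor
      · rintro ⟨k, hk⟩
        refine ⟨p ^ k, ?_⟩
        rw [sub_pow_char_pow_of_commute p _ (Commute.one_right _), one_pow,
          ← Units.val_pow_eq_pow_val, ← hk, pow_orderOf_eq_one, Units.val_one, sub_self]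
      · rintro ⟨m, hm⟩
        have hpm : m ≤ p ^ m := (Nat.lt_pow_self hp.one_lt).le
        have h1 : ((g : Matrix (Fin n) (Fin n) F) - 1) ^ (p ^ m) = 0 := pow_eq_zero_of_le hpm hm
        rw [sub_pow_char_pow_of_commute p _ (Commute.one_right _), one_pow, sub_eq_zero,
          ← Units.val_pow_eq_pow_val] at h1
        have h2 : g ^ (p ^ m) = 1 := Units.ext h1
        have h3 := orderOf_dvd_of_pow_eq_one h2
        obtain ⟨j, -, hj⟩ := (Nat.dvd_prime_pow hp).mp h3
        exact ⟨j, hj⟩
    exact
      { toFun := fun g => ⟨(g.1 : Matrix (Fin n) (Fin n) F) - 1, (key g.1).mp g.2⟩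
        invFun := fun N => ⟨(N.2.isUnit_one_add).unit, (key _).mpr (by simpa using N.2)⟩
        left_inv := fun g => by
          apply Subtype.ext; apply Units.ext; simp
        right_inv := fun N => by
          apply Subtype.ext; simp }

end main

end Cfsg.Agent.H63.NilCount
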