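import Mathlib
import Cfsg.Agent.H51.RsDefs

/-!
# RS-NUZETA (helper63, for helper51's project S2113): `nuL L` kills `ζ(K)` when `L` enumerates
the units
-/

set_option autoImplicit false

namespace Cfsg.Agent.H63.Rs

open Cfsg.Agent.H96.Ro Cfsg.Agent.H51.Rs

universe u v w

theorem nuZeta (h3 : StStep3.{u, v, w}) : StNuZeta.{u, v, w} := by
  classical
  intro K _ _ _ m hm hcard G _ Γ _ E L hnd hall v
  obtain ⟨hadd, hconj, -⟩ := h3 K m hm hcard G Γ E
  have hz0 : E.ζ 0 = 1 := by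
    have h := hadd 0 0
    rw [add_zero] at h
    exact (mul_eq_left (a := E.ζ 0)).1 h.symm
  have hlist : ∀ L' : List Kˣ,
      (L'.map (fun κ => E.hh κ * E.ζ v * (E.hh κ)⁻¹)).prod =
        E.ζ ((L'.map (fun κ : Kˣ => (κ : K) ^ (3 ^ (m + 1) + 2))).sum * v) := by
    intro L'
    induction L' with
    | nil => simp [hz0]
    | cons κ L' ih =>
      rw [List.map_cons, List.prod_cons, ih, hconj κ (E.hh κ) (E.σ_hh κ) v, ← hadd,
        List.map_cons, List.sum_cons, add_mul]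
  unfold Ext.nuL
  rw [hlist L]
  have hsum : (L.map (fun κ : Kˣ => (κ : K) ^ (3 ^ (m + 1) + 2))).sum = 0 := by
    rw [← List.sum_toFinset _ hnd]
    have hL : L.toFinset = Finset.univ := by
      rw [Finset.eq_univ_iff_forall]
      intro κ
      rw [List.mem_toFinset]
      exact hall κ
    rw [hL, FiniteField.sum_pow_units, if_neg]
    rw [hcard]
    intro hdvd
    have hle := Nat.le_of_dvd (by positivity) hdvd
    have h1 : 3 ^ (2 * m + 1) = 3 ^ m * 3 ^ (m + 1) := by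
      rw [← pow_add]
      congr 1
      omega
    have h2 : 3 ≤ 3 ^ m := by
      calc 3 = 3 ^ 1 := by norm_num
        _ ≤ 3 ^ m := Nat.pow_le_pow_right (by norm_num) hm
    have h4 : 9 ≤ 3 ^ (m + 1) := by
      calc 9 = 3 ^ 2 := by norm_num
        _ ≤ 3 ^ (m + 1) := Nat.pow_le_pow_right (by norm_num) (by omega)
    have h5 : 3 * 3 ^ (m + 1) ≤ 3 ^ m * 3 ^ (m + 1) := Nat.mul_le_mul_right _ h2
    omega
  rw [hsum, zero_mul, hz0]

example (h3 : StStep3.{u, v, w}) :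
    ∀ (K : Type u) [Field K] [Fintype K] [CharP K 3] (m : ℕ), 1 ≤ m →
    Fintype.card K = 3 ^ (2 * m + 1) → ∀ (G : Type v) [Group G] (Γ : Type w) [Group Γ]
    (E : Ext K G (3 ^ (m + 1)) Γ),
    ∀ L : List Kˣ, L.Nodup → (∀ κ : Kˣ, κ ∈ L) → ∀ v : K, E.nuL L (E.ζ v) = 1 :=
  nuZeta h3

end Cfsg.Agent.H63.Rs
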