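import Cfsg.Agent.H61.TmExDefs

/-!
# TMX-TYPEV (helper63, for helper61's sub-project S5987-EXEVEN)

`i` even, `dim range (T - 1) = i A`, `dim ker (T - 1) = 2 e`, `dim V = 2 n`: if the fixed space
has a totally singular subspace of half its dimension exactly when `A` is odd, then `V` has no
totally singular subspace of dimension `n`.
-/

set_option autoImplicit false
open scoped MatrixGroups
open scoped Matrix

namespace Cfsg.Agent.H63.Tm

open Cfsg.Agent.H45 Cfsg.Agent.H42.Spd Cfsg.Agent.H42.Ti Cfsg.Agent.H77.Tq Cfsg.Agent.H77.Tm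
  Cfsg.Agent.H61.Tm Module Polynomial

universe u

theorem typeV (hQS : StQStruct.{u,u}) (hTU : StTypeU.{u,u}) (hCP : StComplPlus.{u,u})
    (hHalf : Cfsg.Agent.H14.Ot.StOHalf.{u,u}) : StTypeV.{u} := by
  intro F _ _ V _ _ _ r Q T hctx hev A n e hR hK hV hOdd hEven U hU
  obtain ⟨⟨hdisj, hsup, horth, hKnd, hRnd⟩, -, -, -⟩ := hQS F V r Q T hctx
  by_contra hlt
  push Not at hlt
  -- `U` is totally isotropic for the polar form
  have hTI : TI (pol Q) U := by
    intro x hx y hy
    show QuadraticMap.polar ⇑Q x y = 0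
    unfold QuadraticMap.polar
    rw [hU _ (U.add_mem hx hy), hU x hx, hU y hy]
    simp
  have hsymm : ∀ x y : V, pol Q x y = pol Q y x := by
    intro x y
    show QuadraticMap.polar ⇑Q x y = QuadraticMap.polar ⇑Q y x
    exact QuadraticMap.polar_comm _ x y
  have htop : (⊤ : Submodule F V) ⊓ perp (pol Q) ⊤ = ⊥ := by
    rw [eq_bot_iff]
    rintro x ⟨-, hx⟩
    rw [Submodule.mem_bot]
    apply hctx.nondeg x
    intro y
    have h1 : pol Q y x = 0 := hx y Submodule.mem_top
    have h2 : QuadraticMap.polar ⇑Q y x = 0 := h1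
    rw [QuadraticMap.polar_comm] at h2
    exact h2
  have h1 := hHalf F V (pol Q) hsymm ⊤ U htop le_top hTI
  rw [finrank_top, hV] at h1
  have hUn : Module.finrank F ↥U = n := by omega
  -- dimensions
  have hdim : Module.finrank F ↥(LinearMap.ker (T - 1)) +
      Module.finrank F ↥(LinearMap.range (T - 1)) = 2 * n := by
    have h2 := Submodule.finrank_sup_add_finrank_inf_eq (LinearMap.ker (T - 1))
      (LinearMap.range (T - 1))
    rw [hsup, hdisj, finrank_top, finrank_bot, hV, add_zero] at h2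
    exact h2.symm
  rcases Nat.even_or_odd A with hA | hA
  · -- `A` even
    obtain ⟨L, hLR, hLTS, hLdim⟩ := (hTU F V r Q T hctx hev A hR).1 hA
    obtain ⟨N, hNK, hNTS, hNdim⟩ := hCP F V Q (LinearMap.ker (T - 1)) (LinearMap.range (T - 1))
      L U horth hRnd hLR hLTS hLdim (by rw [hsup]; exact le_top) hU (by
        rw [hsup, finrank_top, hV, hUn])
    have h3 := hEven hA N hNK hNTS
    omega
  · -- `A` odd
    obtain ⟨L, hLK, hLTS, hLdim⟩ := hOdd hA
    have horth' : ∀ c ∈ LinearMap.range (T - 1), ∀ u ∈ LinearMap.ker (T - 1),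
        QuadraticMap.polar ⇑Q c u = 0 := by
      intro c hc u hu
      rw [QuadraticMap.polar_comm]
      exact horth u hu c hc
    obtain ⟨N, hNR, hNTS, hNdim⟩ := hCP F V Q (LinearMap.range (T - 1)) (LinearMap.ker (T - 1))
      L U horth' hKnd hLK hLTS (by rw [hLdim, hK]) (by rw [sup_comm, hsup]; exact le_top) hU (by
        rw [sup_comm, hsup, finrank_top, hV, hUn])
    have h3 := (hTU F V r Q T hctx hev A hR).2 hA N hNR hNTS
    omega

example (hQS : StQStruct.{u,u}) (hTU : StTypeU.{u,u}) (hCP : StComplPlus.{u,u})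
    (hHalf : Cfsg.Agent.H14.Ot.StOHalf.{u,u}) :
    ∀ (F : Type u) [Field F] [Fintype F] (V : Type u) [AddCommGroup V] [Module F V]
    [FiniteDimensional F V] (r : ℕ) (Q : QuadraticForm F V) (T : Module.End F V),
    QCtx r Q T → Even (ii F r) → ∀ A n e : ℕ,
    Module.finrank F ↥(LinearMap.range (T - 1)) = ii F r * A →
    Module.finrank F ↥(LinearMap.ker (T - 1)) = 2 * e →
    Module.finrank F V = 2 * n →
    (Odd A → ∃ L : Submodule F V, L ≤ LinearMap.ker (T - 1) ∧ TS Q L ∧
      Module.finrank F ↥L = e) →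
    (Even A → ∀ L : Submodule F V, L ≤ LinearMap.ker (T - 1) → TS Q L →
      Module.finrank F ↥L < e) →
    ∀ U : Submodule F V, TS Q U → Module.finrank F ↥U < n :=
  typeV hQS hTU hCP hHalf

end Cfsg.Agent.H63.Tm
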