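import Mathlib
import Cfsg.Agent.H57.BG1218Defs
import Cfsg.Agent.H73.BG129B
import Cfsg.Agent.Lib.Helper30.BG129C
import Cfsg.Agent.H63.Sig

set_option autoImplicit false

/-!
# B&G Lemma 12.18 (S1427), piece RED: the statement from the key form (helper63, for helper57)
-/

namespace Cfsg.Agent.H63.BG1218

open Cfsg Subgroup Cfsg.Agent.H58.BG10 Cfsg.Agent.H57.BG1218 Cfsg.Agent.H63.Sig
open scoped Pointwise

universe u

variable {G : Type u} [Group G]

/-- S1427-RED. -/
theorem red [Finite G] (_hG : IsMinSimpleOddOrder G) (h50 : St1350 G) (hKey : StKey G) :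
    St1427 G := by
  intro M hM E hE p _ S hS1 hSc x hx hx1
  have hpp : p.Prime := Fact.out
  have hE' := hE
  obtain ⟨hEM, hsM, hdisj, hprod⟩ := hE
  obtain ⟨S₁, hS₁⟩ : ∃ S₁ : Subgroup G, S₁ = (S : Subgroup E).map E.subtype := ⟨_, rfl⟩
  rw [← hS₁] at hx ⊢
  have hS₁E : S₁ ≤ E := hS₁ ▸ Subgroup.map_subtype_le _
  have hS₁M : S₁ ≤ M := hS₁E.trans hEM
  have hS₁p : IsPGroup p S₁ := hS₁ ▸ S.isPGroup'.map _
  have hcardS : Nat.card S₁ = Nat.card (S : Subgroup E) := by
    rw [hS₁]
    exact Subgroup.card_map_of_injective E.subtype_injective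
  have hS₁c : IsCyclic S₁ := by
    rw [hS₁]
    exact (Subgroup.equivMapOfInjective (S : Subgroup E) E.subtype E.subtype_injective).isCyclic.mp
      hSc
  obtain ⟨hHall, -, -⟩ := h50 M hM
  obtain ⟨-, hSprime, hSidx⟩ := hHall
  have hcardE : Nat.card E = (sigmaCore M).relIndex M :=
    Cfsg.Agent.H73.BG12.card_eq_relIndex_of_isComplIn hE'
  have hpS : p ∣ Nat.card (S : Subgroup E) := by
    rcases S.isPGroup'.card_eq_or_dvd with h | h
    · exact absurd (Subgroup.card_eq_one.mp h) hS1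
    · exact h
  have hpE : p ∣ Nat.card E := hpS.trans (Subgroup.card_subgroup_dvd_card _)
  have hpσ : p ∉ sigma M := fun h => hSidx p hpp h (hcardE ▸ hpE)
  have hpMσ : ¬ p ∣ Nat.card (sigmaCore M) := fun h => hpσ (hSprime p hpp h)
  -- `S₁` is a Sylow `p`-subgroup of `M`
  have hidx : ¬ p ∣ (S₁.subgroupOf M).index := by
    intro hdvd
    have h1 : Nat.card (S₁.subgroupOf M) * (S₁.subgroupOf M).index = Nat.card M :=
      Subgroup.card_mul_index _
    have h2 : Nat.card (S₁.subgroupOf M) = Nat.card (S : Subgroup E) := by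
      rw [← hcardS]
      exact Nat.card_congr (Subgroup.subgroupOfEquivOfLe hS₁M).toEquiv
    have h3 : Nat.card M = Nat.card E * Nat.card (sigmaCore M) :=
      Cfsg.Agent.H73.BG12.card_mul_card_of_isComplIn hE'
    have h4 : Nat.card (S : Subgroup E) * (S : Subgroup E).index = Nat.card E :=
      Subgroup.card_mul_index _
    have h5 : (S₁.subgroupOf M).index = (S : Subgroup E).index * Nat.card (sigmaCore M) := by
      have hpos : 0 < Nat.card (S : Subgroup E) := Nat.card_pos
      apply Nat.eq_of_mul_eq_mul_left hpos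
      rw [← h2, h1, h3, ← h4, h2]
      ring
    rw [h5] at hdvd
    rcases (Nat.Prime.dvd_mul hpp).mp hdvd with h | h
    · exact S.not_dvd_index h
    · exact hpMσ h
  have hrk : PRankLE p 1 M := by
    by_contra hcon
    obtain ⟨A, hAM, hAel, hAcard⟩ :=
      Cfsg.Agent.Lib.Helper30.BG12.exists_elem_sq_of_not_pRankLE_one hcon
    obtain ⟨P_M, hP_M⟩ : ∃ P_M : Sylow p M, (P_M : Subgroup M) = S₁.subgroupOf M :=
      ⟨(hS₁p.comap_subtype).toSylow hidx, IsPGroup.toSylow_coe _ _⟩
    have hAp : IsPGroup p (A.subgroupOf M) := (IsPGroup.of_card hAcard).comap_subtype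
    obtain ⟨Q, hQ⟩ := hAp.exists_le_sylow
    obtain ⟨m, hm⟩ := MulAction.exists_smul_eq M Q P_M
    have hconj : ∀ a ∈ A, (m : G) * a * (m : G)⁻¹ ∈ S₁ := by
      intro a ha
      have h1 : (⟨a, hAM ha⟩ : M) ∈ (Q : Subgroup M) := hQ (mem_subgroupOf.mpr ha)
      have h2 : MulAut.conj m • (⟨a, hAM ha⟩ : M) ∈ MulAut.conj m • (Q : Subgroup M) :=
        Subgroup.smul_mem_pointwise_smul _ _ _ h1
      rw [← Sylow.coe_subgroup_smul, hm, hP_M, mem_subgroupOf] at h2
      exact h2
    have hBle : MulAut.conj (m : G) • A ≤ S₁ := by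
      intro y hy
      rw [mem_cj] at hy
      have h1 := hconj _ hy
      have e : (m : G) * ((m : G)⁻¹ * y * m) * (m : G)⁻¹ = y := by group
      rwa [e] at h1
    have hBcard : Nat.card ((MulAut.conj (m : G) • A).subgroupOf S₁) = p ^ 2 := by
      rw [Nat.card_congr (Subgroup.subgroupOfEquivOfLe hBle).toEquiv, card_cj, hAcard]
    have := hS₁c
    obtain ⟨b, hb⟩ :=
      IsCyclic.exists_generator (α := ↥((MulAut.conj (m : G) • A).subgroupOf S₁))
    have hord : orderOf b = p ^ 2 := by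
      rw [orderOf_eq_card_of_forall_mem_zpowers hb, hBcard]
    have hbp : b ^ p = 1 := by
      have hbA := mem_cj.mp (mem_subgroupOf.mp b.2)
      have h1 := hAel.2 _ hbA
      have h2 : (m : G)⁻¹ * ((b : S₁) : G) * m = (m : G)⁻¹ * ((b : S₁) : G) * (m : G)⁻¹⁻¹ := by
        rw [inv_inv]
      rw [h2, conj_pow] at h1
      have h3 : ((b : S₁) : G) ^ p = 1 := by
        have e : ((b : S₁) : G) ^ p
            = (m : G) * ((m : G)⁻¹ * ((b : S₁) : G) ^ p * (m : G)⁻¹⁻¹) * (m : G)⁻¹ := by group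
        rw [e, h1]
        group
      apply Subtype.ext
      apply Subtype.ext
      simpa using h3
    have h6 := orderOf_dvd_of_pow_eq_one hbp
    rw [hord] at h6
    have h7 := Nat.le_of_dvd hpp.pos h6
    nlinarith [hpp.one_lt]
  apply le_antisymm
  · have hxS : zpowers x ≤ S₁ := zpowers_le.mpr hx
    have hxo : p ∣ Nat.card (zpowers x) := by
      rcases (hS₁p.to_le hxS).card_eq_or_dvd with h | h
      · exact absurd (zpowers_eq_bot.mp (Subgroup.card_eq_one.mp h)) hx1
      · exact h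
    obtain ⟨g, hg⟩ := exists_prime_orderOf_dvd_card' p hxo
    have hgx : (g : G) ∈ zpowers x := g.2
    have hXcard : Nat.card (zpowers (g : G)) = p := by
      rw [Nat.card_zpowers, Subgroup.orderOf_coe, hg]
    have hXS : zpowers (g : G) ≤ S₁ := zpowers_le.mpr (hxS hgx)
    have hkey := hKey M hM p hpσ hrk S₁ (zpowers (g : G)) hS₁M hS₁p hS₁c hXS hXcard
    refine le_inf inf_le_left (le_trans (inf_le_inf_left _ ?_) hkey)
    intro c hc
    rw [mem_centralizer_iff] at hc ⊢
    intro y hy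
    obtain ⟨k, rfl⟩ := mem_zpowers_iff.mp ((zpowers_le.mpr hgx) hy)
    exact Commute.zpow_left (show Commute x c from hc x rfl) k
  · refine inf_le_inf_left _ (centralizer_le ?_)
    intro y hy
    rw [Set.mem_singleton_iff] at hy
    rw [hy]
    exact hx

example [Finite G] (hG : IsMinSimpleOddOrder G) (h50 : St1350 G) (hKey : StKey G) :
    St1427 G := red hG h50 hKey

end Cfsg.Agent.H63.BG1218
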