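import Mathlib
import Cfsg.Agent.H57.BG1218Defs
import Cfsg.Agent.H57.BG126
import Cfsg.Agent.Lib.Helper30.BG129C
import Cfsg.Agent.H63.Sig
import Cfsg.Agent.H58.Sig2
import Cfsg.Agent.H54.BG11T

set_option autoImplicit false

/-!
# B&G Lemma 12.18 (S1427), piece SYLH (helper63, for helper57)
-/

namespace Cfsg.Agent.H63.BG1218

open Cfsg Subgroup Cfsg.Agent.H58.BG10 Cfsg.Agent.H57.BG1218 Cfsg.Agent.H63.Sig
open scoped Pointwise

universe u

variable {G : Type u} [Group G]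

/-- Frattini argument: if `h` normalizes `X` and `A ≤ X` is a Sylow `p`-subgroup of `X`, then
`h = k n` with `k ∈ X` and `n ∈ N_G(A)`. -/
theorem frat_arg [Finite G] {p : ℕ} [Fact p.Prime] {X A : Subgroup G} (hAX : A ≤ X)
    (hAp : IsPGroup p A) (hidx : ¬ p ∣ A.relIndex X) {h : G}
    (hh : h ∈ normalizer (X : Set G)) :
    ∃ k ∈ X, ∃ n ∈ normalizer (A : Set G), h = k * n := by
  have hA'p : IsPGroup p (A.subgroupOf X) := hAp.comap_subtype
  obtain ⟨P₁, hP₁⟩ : ∃ P₁ : Sylow p X, (P₁ : Subgroup X) = A.subgroupOf X :=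
    ⟨hA'p.toSylow hidx, IsPGroup.toSylow_coe _ _⟩
  have hBX : MulAut.conj h • A ≤ X := by
    intro x hx
    rw [mem_cj] at hx
    have h1 := (mem_normalizer_iff.mp hh (h⁻¹ * x * h)).mp (hAX hx)
    have h2 : h * (h⁻¹ * x * h) * h⁻¹ = x := by group
    rw [h2] at h1
    exact h1
  have hB'p : IsPGroup p ((MulAut.conj h • A).subgroupOf X) :=
    (isPGroup_cj h hAp).comap_subtype
  obtain ⟨P₂, hP₂⟩ := hB'p.exists_le_sylow
  obtain ⟨k, hk⟩ := MulAction.exists_smul_eq X P₁ P₂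
  have hn : ∀ a ∈ A, ((k : G)⁻¹ * h) * a * ((k : G)⁻¹ * h)⁻¹ ∈ A := by
    intro a ha
    have h1 : h * a * h⁻¹ ∈ MulAut.conj h • A := by
      rw [mem_cj]
      have h2 : h⁻¹ * (h * a * h⁻¹) * h = a := by group
      rw [h2]
      exact ha
    have h2 : (⟨h * a * h⁻¹, hBX h1⟩ : X) ∈ (P₂ : Subgroup X) :=
      hP₂ (mem_subgroupOf.mpr h1)
    rw [← hk, Sylow.coe_subgroup_smul, mem_cj, hP₁, mem_subgroupOf] at h2
    have h3 : (k : G)⁻¹ * h * a * ((k : G)⁻¹ * h)⁻¹ = (k : G)⁻¹ * (h * a * h⁻¹) * k := by group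
    rw [h3]
    simpa using h2
  have hcj : MulAut.conj ((k : G)⁻¹ * h) • A = A := by
    apply Subgroup.eq_of_le_of_card_ge
    · intro x hx
      rw [mem_cj] at hx
      have h1 := hn _ hx
      have h2 : (k : G)⁻¹ * h * (((k : G)⁻¹ * h)⁻¹ * x * ((k : G)⁻¹ * h)) * ((k : G)⁻¹ * h)⁻¹
          = x := by group
      rw [h2] at h1
      exact h1
    · rw [card_cj]
  exact ⟨k, k.2, (k : G)⁻¹ * h, mem_normalizer_of_cj_eq hcj, by group⟩

/-- S1427-SYLH. -/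
theorem sylH [Finite G] (_hG : IsMinSimpleOddOrder G) (h50 : St1350 G) (h16 : St1416 G)
    (h17 : St1417 G) (hN : StSylN G) : StSylH G := by
  intro H hH p _ hp hcomm S hSH hSp
  have hpp : p.Prime := Fact.out
  obtain ⟨P_H, hSP⟩ := Cfsg.Agent.H57.BG12.exists_sylow_map_ge hSp hSH
  obtain ⟨A₁, hA₁H, hA₁el, hA₁card⟩ :=
    Cfsg.Agent.Lib.Helper30.BG12.exists_elem_sq_of_not_pRankLE_one hp.2.2.2
  -- conjugate `A₁` into `P_H`
  obtain ⟨A, hAH, hAel, hAcard, hAP⟩ : ∃ A : Subgroup G, A ≤ H ∧ IsElementaryAbelian p A ∧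
      Nat.card A = p ^ 2 ∧ A ≤ (P_H : Subgroup H).map H.subtype := by
    have hA₁p : IsPGroup p (A₁.subgroupOf H) := (IsPGroup.of_card hA₁card).comap_subtype
    obtain ⟨Q, hQ⟩ := hA₁p.exists_le_sylow
    obtain ⟨m, hm⟩ := MulAction.exists_smul_eq H Q P_H
    refine ⟨MulAut.conj (m : G) • A₁, ?_, ⟨?_, ?_⟩, ?_, ?_⟩
    · intro x hx
      rw [mem_cj] at hx
      have h1 := hA₁H hx
      have h2 : x = (m : G) * ((m : G)⁻¹ * x * m) * (m : G)⁻¹ := by group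
      rw [h2]
      exact mul_mem (mul_mem m.2 h1) (inv_mem m.2)
    · refine ⟨⟨fun a b => Subtype.ext ?_⟩⟩
      have ha := mem_cj.mp a.2
      have hb := mem_cj.mp b.2
      have h1 : ((m : G)⁻¹ * a * m) * ((m : G)⁻¹ * b * m)
          = ((m : G)⁻¹ * b * m) * ((m : G)⁻¹ * a * m) :=
        congrArg Subtype.val (hA₁el.1.is_comm.comm ⟨_, ha⟩ ⟨_, hb⟩)
      show (a : G) * b = b * a
      calc (a : G) * b = (m : G) * (((m : G)⁻¹ * a * m) * ((m : G)⁻¹ * b * m)) * (m : G)⁻¹ := by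
            group
        _ = (m : G) * (((m : G)⁻¹ * b * m) * ((m : G)⁻¹ * a * m)) * (m : G)⁻¹ := by rw [h1]
        _ = b * a := by group
    · intro a ha
      have h1 := hA₁el.2 _ (mem_cj.mp ha)
      have h2 : (m : G)⁻¹ * a * m = (m : G)⁻¹ * a * (m : G)⁻¹⁻¹ := by rw [inv_inv]
      rw [h2, conj_pow] at h1
      have h3 : a ^ p = (m : G) * ((m : G)⁻¹ * a ^ p * (m : G)⁻¹⁻¹) * (m : G)⁻¹ := by group
      rw [h3, h1]
      group
    · rw [card_cj]
      exact hA₁card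
    · intro x hx
      rw [mem_cj] at hx
      have h1 : (⟨(m : G)⁻¹ * x * m, hA₁H hx⟩ : H) ∈ (Q : Subgroup H) :=
        hQ (mem_subgroupOf.mpr hx)
      have h2 : MulAut.conj m • (⟨(m : G)⁻¹ * x * m, hA₁H hx⟩ : H)
          ∈ MulAut.conj m • (Q : Subgroup H) := Subgroup.smul_mem_pointwise_smul _ _ _ h1
      rw [← Sylow.coe_subgroup_smul, hm] at h2
      refine ⟨_, h2, ?_⟩
      show (m : G) * ((m : G)⁻¹ * x * m) * (m : G)⁻¹ = x
      group
  obtain ⟨hnil, hb, hc, hd, he, hf⟩ := h17 H hH p hp A ⟨hAH, hAel, hAcard⟩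
  obtain ⟨P, hPHP⟩ := (P_H.isPGroup'.map H.subtype).exists_le_sylow
  have hPcomm : IsMulCommutative (P : Subgroup G) := by
    obtain ⟨P₀, hP₀⟩ := hcomm
    obtain ⟨g, hg⟩ := MulAction.exists_smul_eq G P₀ P
    refine ⟨⟨fun a b => Subtype.ext ?_⟩⟩
    have ha : (a : G) ∈ MulAut.conj g • (P₀ : Subgroup G) := by
      rw [← Sylow.coe_subgroup_smul, hg]
      exact a.2
    have hb' : (b : G) ∈ MulAut.conj g • (P₀ : Subgroup G) := by
      rw [← Sylow.coe_subgroup_smul, hg]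
      exact b.2
    rw [mem_cj] at ha hb'
    have h1 : (g⁻¹ * a * g) * (g⁻¹ * b * g) = (g⁻¹ * b * g) * (g⁻¹ * a * g) :=
      congrArg Subtype.val (hP₀.is_comm.comm ⟨_, ha⟩ ⟨_, hb'⟩)
    show (a : G) * b = b * a
    calc (a : G) * b = g * ((g⁻¹ * a * g) * (g⁻¹ * b * g)) * g⁻¹ := by group
      _ = g * ((g⁻¹ * b * g) * (g⁻¹ * a * g)) * g⁻¹ := by rw [h1]
      _ = b * a := by group
  have hAleP : A ≤ (P : Subgroup G) := hAP.trans hPHP
  have hPC : (P : Subgroup G) ≤ centralizer (A : Set G) := by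
    intro x hx
    rw [mem_centralizer_iff]
    intro a ha
    exact congrArg Subtype.val (hPcomm.is_comm.comm ⟨a, hAleP ha⟩ ⟨x, hx⟩)
  have hPH : (P : Subgroup G) ≤ H := hPC.trans (h16 H hH p A ⟨hAH, hAel, hAcard⟩).1
  have hNAP := hN H hH p hp A hAH hAel hAcard P hAleP hPcomm
  refine ⟨P, hSP.trans hPHP, hPH, ?_⟩
  intro h hh
  -- `A` is a Sylow `p`-subgroup of `H_σ A`
  obtain ⟨hHall, -, -⟩ := h50 H hH
  obtain ⟨hSM, hSprime, hSidx⟩ := hHall
  have hpS : ¬ p ∣ Nat.card (sigmaCore H) := fun h' => hp.2.1 (hSprime p hpp h')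
  have hHnorm : H ≤ normalizer (sigmaCore H : Set G) :=
    Cfsg.Agent.H54.BG11.le_normalizer_sigmaCore H
  have hidx : ¬ p ∣ A.relIndex (sigmaCore H ⊔ A) := by
    intro hdvd
    have h1 : Nat.card (A.subgroupOf (sigmaCore H ⊔ A)) * A.relIndex (sigmaCore H ⊔ A)
        = Nat.card ↥(sigmaCore H ⊔ A) := Subgroup.card_mul_index _
    have h2 : Nat.card (A.subgroupOf (sigmaCore H ⊔ A)) = Nat.card A :=
      Nat.card_congr (Subgroup.subgroupOfEquivOfLe le_sup_right).toEquiv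
    have h3 : Nat.card ↥(sigmaCore H ⊔ A) ∣ Nat.card (sigmaCore H) * Nat.card A :=
      Cfsg.Agent.H58.card_sup_dvd (hAH.trans hHnorm)
    rw [← h1, h2, mul_comm (Nat.card A)] at h3
    have hA0 : 0 < Nat.card A := Nat.card_pos
    have h4 : A.relIndex (sigmaCore H ⊔ A) ∣ Nat.card (sigmaCore H) :=
      Nat.dvd_of_mul_dvd_mul_right hA0 h3
    exact hpS (hdvd.trans h4)
  obtain ⟨k, hk, n, hn, rfl⟩ :=
    frat_arg le_sup_right (IsPGroup.of_card hAcard) hidx (hc hh)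
  have hsH : sigmaCore H ≤ H := Subgroup.map_subtype_le _
  have hkX : k ∈ sigmaCore H ⊔ (P : Subgroup G) := (sup_le_sup_left hAleP _) hk
  have hnH : n ∈ H := by
    have hkH : k ∈ H := (sup_le hsH hAH) hk
    have h1 : n = k⁻¹ * (k * n) := by group
    rw [h1]
    exact mul_mem (inv_mem hkH) hh
  have hnN : n ∈ normalizer ((sigmaCore H ⊔ (P : Subgroup G) : Subgroup G) : Set G) := by
    apply mem_normalizer_of_cj_eq
    rw [Subgroup.smul_sup, cj_eq_self_of_mem_normalizer (hHnorm hnH),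
      cj_eq_self_of_mem_normalizer (hNAP hn)]
  exact mul_mem (le_normalizer hkX) hnN

example [Finite G] (hG : IsMinSimpleOddOrder G) (h50 : St1350 G) (h16 : St1416 G)
    (h17 : St1417 G) (hN : StSylN G) : StSylH G := sylH hG h50 h16 h17 hN

end Cfsg.Agent.H63.BG1218
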