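import Mathlib
import Cfsg.Agent.Lib.Helper30.BG134Defs
import Cfsg.Agent.H92.BG123

set_option autoImplicit false
set_option linter.style.haveILetI false
set_option linter.unusedVariables false

/-!
# Bender–Glauberman Theorem 13.4 (S1428), piece BG134-AB (helper63, for helper30)

`L ≠ M` maximal, `q ∈ σ(L) ∖ α(L)`, `S ≤ L` a `q`-subgroup with `N_G(S) ≤ M`.
Then `α(L) ⊆ β(L)`.
-/

namespace Cfsg.Agent.H63.BG134

open Cfsg Subgroup Cfsg.Agent.H58.BG10 Cfsg.Agent.Lib.Helper30.BG134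

universe u

variable {G : Type u} [Group G]

/-- A large elementary abelian subgroup inside `K` bounds the `p`-rank of `K` from below. -/
theorem ab_not_pRankLE_of_sub {K B : Subgroup G} {s k : ℕ} (hBK : B ≤ K)
    (hBc : ∀ a ∈ B, ∀ b ∈ B, a * b = b * a) (hBs : ∀ a ∈ B, a ^ s = 1)
    (hcard : s ^ k < Nat.card B) : ¬ PRankLE s k K := by
  intro h
  have h1 := h (B.subgroupOf K)
    ⟨⟨fun a b => Subtype.ext (Subtype.ext
      (hBc _ (Subgroup.mem_subgroupOf.mp a.2) _ (Subgroup.mem_subgroupOf.mp b.2)))⟩⟩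
    (fun a ha => Subtype.ext (hBs _ (Subgroup.mem_subgroupOf.mp ha)))
  rw [Nat.card_congr (Subgroup.subgroupOfEquivOfLe hBK).toEquiv] at h1
  omega

/-- **BG134-AB.** -/
theorem ab [Finite G] (hG : IsMinSimpleOddOrder G) (h50 : St1350 G) (h05 : St1405 G)
    (h06 : St1406 G) (h14 : St1414 G) : StAB G := by
  intro L M S q hL hM hLM hqσ hqα hSq hSL hNS s hsα
  by_contra hsβ
  have hs : s.Prime := hsα.1
  haveI : Fact s.Prime := ⟨hs⟩
  have hq : q.Prime := hqσ.1
  haveI : Fact q.Prime := ⟨hq⟩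
  have hqs : q ≠ s := fun h => hqα (h ▸ hsα)
  obtain ⟨⟨hαL, hαpi, -⟩, -, hασ, -, -⟩ := h05 L hL
  have hLtop : L ≠ ⊤ := hL.1
  -- an elementary abelian `s`-subgroup `B` of `L` of order `> s²`
  obtain ⟨B, hBL, hBc, hBs, hBcard⟩ := Cfsg.Agent.H31.T2.exists_elementary_of_not_pRankLE hsα.2
  have hBpg : IsPGroup s B := fun b => ⟨1, by rw [pow_one]; exact Subtype.ext (hBs b b.2)⟩
  have hBα : B ≤ alphaCore L := Cfsg.Agent.H92.BG12.le_alphaCore_of_mem h05 hL hsα hBpg hBL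
  have hsdvd : s ∣ Nat.card L := by
    obtain ⟨k, hk⟩ := IsPGroup.iff_card.mp hBpg
    have hk0 : k ≠ 0 := by
      rintro rfl
      rw [pow_zero] at hk
      rw [hk] at hBcard
      have := Nat.one_le_pow 2 s hs.pos
      omega
    have h1 : s ∣ Nat.card B := by rw [hk]; exact dvd_pow_self s hk0
    exact h1.trans (Subgroup.card_dvd_of_le hBL)
  -- the normal `s`-complement `K0` of `L_σ`
  obtain ⟨-, -, -, -, h14'⟩ := h14 L hL
  obtain ⟨-, hNC, -⟩ := h14' s hs hsdvd hsβ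
  obtain ⟨P0, K0, hK0n, hK0c⟩ := hNC
  haveI := hK0n
  have hK0idx : K0.index = Nat.card (P0 : Subgroup ↥(sigmaCore L)) := hK0c.symm.index_eq_card
  have hK0card : ¬ s ∣ Nat.card K0 := by
    rw [← hK0c.index_eq_card]
    exact P0.not_dvd_index
  -- `S ≤ K0`
  have hSσ : S ≤ sigmaCore L := Cfsg.Agent.H92.BG12.le_sigmaCore_of_mem h50 hL hqσ hSq hSL
  have hSK : S.subgroupOf (sigmaCore L) ≤ K0 := by
    apply Cfsg.Agent.H14.BG10.le_of_index_coprime K0 _ hSq.comap_subtype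
    rw [hK0idx]
    obtain ⟨k, hk⟩ := IsPGroup.iff_card.mp P0.isPGroup'
    rw [hk]
    exact Nat.Coprime.pow_left k ((Nat.coprime_primes hs hq).mpr (Ne.symm hqs))
  -- an `S`-invariant Sylow `s`-subgroup of `L_α`
  have hLN : L ≤ normalizer (alphaCore L : Set G) :=
    Cfsg.Agent.Lib.Helper30.le_normalizer_piCoreOf (alpha L) L
  have hSN : S ≤ normalizer (alphaCore L : Set G) := hSL.trans hLN
  have hαs : Group.IsSolvable (alphaCore L) :=
    hG.2.2.2 _ (fun h => hLtop (top_le_iff.mp (h ▸ hαL)))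
  have hcop : (Nat.card S).Coprime (Nat.card (alphaCore L)) := by
    obtain ⟨k, hk⟩ := IsPGroup.iff_card.mp hSq
    rw [hk]
    apply Nat.Coprime.pow_left
    exact (Nat.Prime.coprime_iff_not_dvd hq).mpr (fun h => hqα (hαpi q hq h))
  obtain ⟨P, hSP⟩ := Cfsg.Agent.Lib.Helper30.coprime_exists_invariant_sylow S (alphaCore L) hSN
    hcop (Or.inr hαs) s
  have hTpg : IsPGroup s ((P : Subgroup (alphaCore L)).map (alphaCore L).subtype) :=
    P.isPGroup'.map _
  have hTα : (P : Subgroup (alphaCore L)).map (alphaCore L).subtype ≤ alphaCore L := by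
    rintro _ ⟨y, -, rfl⟩; exact y.2
  -- `T ≤ C(S)`
  have hTC : (P : Subgroup (alphaCore L)).map (alphaCore L).subtype ≤ centralizer (S : Set G) := by
    intro t ht
    rw [mem_centralizer_iff]
    intro x hx
    have hxN := hSP hx
    rw [mem_normalizer_iff] at hxN
    have hcT : t * x * t⁻¹ * x⁻¹ ∈ (P : Subgroup (alphaCore L)).map (alphaCore L).subtype := by
      have h1 := (hxN t⁻¹).mp (Subgroup.inv_mem _ ht)
      have e : t * x * t⁻¹ * x⁻¹ = t * (x * t⁻¹ * x⁻¹) := by group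
      rw [e]; exact Subgroup.mul_mem _ ht h1
    have htσ : t ∈ sigmaCore L := hασ (hTα ht)
    have hxσ : x ∈ sigmaCore L := hSσ hx
    have hx' : (⟨x, hxσ⟩ : ↥(sigmaCore L)) ∈ K0 := hSK (Subgroup.mem_subgroupOf.mpr hx)
    have hc' : (⟨t, htσ⟩ : ↥(sigmaCore L)) * ⟨x, hxσ⟩ * (⟨t, htσ⟩ : ↥(sigmaCore L))⁻¹
        * (⟨x, hxσ⟩ : ↥(sigmaCore L))⁻¹ ∈ K0 :=
      K0.mul_mem (hK0n.conj_mem _ hx' _) (K0.inv_mem hx')
    obtain ⟨j, hj⟩ := hTpg ⟨_, hcT⟩
    have hj' : (t * x * t⁻¹ * x⁻¹) ^ s ^ j = 1 := by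
      have := congrArg Subtype.val hj
      simpa using this
    have ho1 : orderOf (t * x * t⁻¹ * x⁻¹) ∣ s ^ j := orderOf_dvd_of_pow_eq_one hj'
    have ho2 : orderOf (t * x * t⁻¹ * x⁻¹) ∣ Nat.card K0 := by
      have h1 := orderOf_dvd_natCard (⟨_, hc'⟩ : K0)
      rw [Subgroup.orderOf_mk, ← Subgroup.orderOf_coe] at h1
      exact h1
    have hco : (s ^ j).Coprime (Nat.card K0) :=
      Nat.Coprime.pow_left j ((Nat.Prime.coprime_iff_not_dvd hs).mpr hK0card)
    have ho : orderOf (t * x * t⁻¹ * x⁻¹) = 1 := by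
      have := Nat.dvd_gcd ho1 ho2
      rw [hco.gcd_eq_one] at this
      exact Nat.dvd_one.mp this
    have hc1 : t * x * t⁻¹ * x⁻¹ = 1 := orderOf_eq_one_iff.mp ho
    have e2 : x * t = (t * x * t⁻¹ * x⁻¹)⁻¹ * (t * x) := by group
    rw [e2, hc1, inv_one, one_mul]
  -- `C_{L_α}(S)` has rank at least `2`
  have hrank : ¬ RankLE 1 ↥(alphaCore L ⊓ centralizer (S : Set G)) := by
    intro hR
    have hle : (P : Subgroup (alphaCore L)).map (alphaCore L).subtype ≤
        alphaCore L ⊓ centralizer (S : Set G) := le_inf hTα hTC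
    have h1 : PRankLE s 1 ↥((P : Subgroup (alphaCore L)).map (alphaCore L).subtype) :=
      Cfsg.Agent.H76.BG10.pRankLE_of_injective (Subgroup.inclusion hle)
        (Subgroup.inclusion_injective hle) (hR s hs)
    have h2 : ¬ PRankLE s 2 ↥((P : Subgroup (alphaCore L)).map (alphaCore L).subtype) :=
      Cfsg.Agent.H58.BG10.not_pRankLE_sylow P (ab_not_pRankLE_of_sub hBα hBc hBs hBcard)
    exact h2 (fun A hA hAp => (h1 A hA hAp).trans (Nat.pow_le_pow_right hs.pos (by norm_num)))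
  -- uniqueness
  have hu := h06 L hL S hSL (fun p hp hpd => by
    obtain ⟨k, hk⟩ := IsPGroup.iff_card.mp hSq
    rw [hk] at hpd
    have hpq : p = q := (Nat.prime_dvd_prime_iff_eq hp hq).mp (hp.dvd_of_dvd_pow hpd)
    rw [hpq]; exact hqα) hrank
  obtain ⟨M0, -, huniq⟩ := hu
  have e1 : L = M0 := huniq L ⟨hL, inf_le_left⟩
  have e2 : M = M0 := huniq M
    ⟨hM, inf_le_right.trans ((Subgroup.centralizer_le_normalizer _).trans hNS)⟩
  exact hLM (e1.trans e2.symm)

example [Finite G] (hG : IsMinSimpleOddOrder G) (h50 : St1350 G) (h05 : St1405 G)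
    (h06 : St1406 G) (h14 : St1414 G) :
    Cfsg.Agent.Lib.Helper30.BG134.StAB G := ab hG h50 h05 h06 h14

end Cfsg.Agent.H63.BG134
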