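import Mathlib
import Cfsg.Agent.H63.BQuotB

set_option autoImplicit false

namespace Cfsg.Agent.H63.BQ

open Subgroup

/-- (B) is invariant under isomorphism. -/
theorem BProp.of_mulEquiv {G H : Type*} [Group G] [Group H] (e : G ≃* H) (hB : BProp G) :
    BProp H := by
  intro A B hA hBc hcard
  have hA' : IsMulCommutative ↥(A.map e.symm.toMonoidHom) := by
    refine ⟨⟨?_⟩⟩
    rintro ⟨_, a, ha, rfl⟩ ⟨_, b, hb, rfl⟩
    apply Subtype.ext
    have := congrArg Subtype.val (hA.is_comm.comm ⟨a, ha⟩ ⟨b, hb⟩)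
    simp only [Subgroup.coe_mul] at this ⊢
    rw [← map_mul, ← map_mul, this]
  have hB' : IsMulCommutative ↥(B.map e.symm.toMonoidHom) := by
    refine ⟨⟨?_⟩⟩
    rintro ⟨_, a, ha, rfl⟩ ⟨_, b, hb, rfl⟩
    apply Subtype.ext
    have := congrArg Subtype.val (hBc.is_comm.comm ⟨a, ha⟩ ⟨b, hb⟩)
    simp only [Subgroup.coe_mul] at this ⊢
    rw [← map_mul, ← map_mul, this]
  obtain ⟨g, hg⟩ := hB _ _ hA' hB' (by
    rw [Subgroup.card_map_of_injective e.symm.injective,
      Subgroup.card_map_of_injective e.symm.injective, hcard])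
  refine ⟨e g, ?_⟩
  have h1 := congrArg (Subgroup.map e.toMonoidHom) hg
  rw [Subgroup.map_map, Subgroup.map_map, Subgroup.map_map] at h1
  have h2 : e.toMonoidHom.comp e.symm.toMonoidHom = MonoidHom.id H := by
    ext x; simp
  rw [h2, Subgroup.map_id] at h1
  rw [h1]
  congr 1
  ext x
  simp

/-- In a (B)-group, a normal subgroup containing an element of order `n` contains every
element of order `n`. -/
theorem mem_of_orderOf_eq' {G : Type*} [Group G] [Finite G] (hB : BProp G) (M : Subgroup G)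
    [hMn : M.Normal] {m x : G} (hm : m ∈ M) (hx : orderOf x = orderOf m) : x ∈ M := by
  obtain ⟨g, hg⟩ := hB (zpowers m) (zpowers x) inferInstance inferInstance
    (by rw [Nat.card_zpowers, Nat.card_zpowers, hx])
  rw [MonoidHom.map_zpowers] at hg
  have h1 : x ∈ zpowers ((MulAut.conj g).toMonoidHom m) := hg ▸ mem_zpowers x
  have hle : zpowers ((MulAut.conj g).toMonoidHom m) ≤ M := by
    rw [zpowers_le]
    simpa using hMn.conj_mem _ hm g
  exact hle h1

/-- Key lifting lemma: an abelian subgroup of `G ⧸ M` (`M` of odd order, `G` a (B)-group) is the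
image of an abelian subgroup of `G` whose order is controlled. -/
theorem exists_abelian_lift' {G : Type*} [Group G] [Finite G] (M : Subgroup G)
    [M.Normal] (hcyc : ∀ (p : ℕ) [Fact p.Prime], p ∣ Nat.card M → ∀ P : Sylow p G,
      IsCyclic P ∨ (P : Subgroup G) ≤ M) (Abar : Subgroup (G ⧸ M)) (hA : IsMulCommutative ↥Abar) :
    ∃ A₁ : Subgroup G, A₁.map (QuotientGroup.mk' M) = Abar ∧ IsMulCommutative ↥A₁ ∧
      ∃ κ : ℕ, κ ≠ 0 ∧ Nat.card A₁ = κ * Nat.card Abar ∧
        ∀ p : ℕ, p.Prime → κ.factorization p =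
          if p ∣ Nat.card Abar then (Nat.card M).factorization p else 0 := by
  obtain ⟨A₁, hminA⟩ := exists_minimal_of_wellFoundedLT
    (fun A : Subgroup G => A.map (QuotientGroup.mk' M) = Abar)
    ⟨Abar.comap (QuotientGroup.mk' M),
      Subgroup.map_comap_eq_self_of_surjective (QuotientGroup.mk'_surjective M) Abar⟩
  have hA₁ : A₁.map (QuotientGroup.mk' M) = Abar := hminA.prop
  let φ : ↥A₁ →* G ⧸ M := (QuotientGroup.mk' M).comp A₁.subtype
  have hφ : ∀ s : ↥A₁, φ s = 1 ↔ (s : G) ∈ M := by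
    intro s
    show (QuotientGroup.mk' M) (s : G) = 1 ↔ _
    rw [QuotientGroup.mk'_apply, QuotientGroup.eq_one_iff]
  have hrange : φ.range = Abar := by
    rw [MonoidHom.range_comp, Subgroup.range_subtype, hA₁]
  have hmemA : ∀ s : ↥A₁, φ s ∈ Abar := fun s => hrange ▸ ⟨s, rfl⟩
  have hab : ∀ a b : ↥A₁, φ (a * b) = φ (b * a) := by
    intro a b
    rw [map_mul, map_mul]
    have := hA.is_comm.comm ⟨φ a, hmemA a⟩ ⟨φ b, hmemA b⟩
    exact congrArg Subtype.val this
  have hmin' : ∀ L : Subgroup ↥A₁, L.map φ = φ.range → L = ⊤ := by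
    intro L hL
    have h1 : (L.map A₁.subtype).map (QuotientGroup.mk' M) = Abar := by
      rw [Subgroup.map_map]; exact hL.trans hrange
    have h2 : A₁ ≤ L.map A₁.subtype := hminA.le_of_le h1 (Subgroup.map_subtype_le L)
    rw [eq_top_iff]
    intro x _
    obtain ⟨y, hy, hyx⟩ := h2 x.2
    have : y = x := Subtype.ext hyx
    exact this ▸ hy
  have hnorm := ms_normal φ hab hmin'
  have hSc : ∀ (p : ℕ) [Fact p.Prime] (S : Sylow p ↥A₁), ∀ a ∈ S, ∀ b ∈ S, a * b = b * a := by
    intro p _ S a ha b hb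
    have hSp : IsPGroup p ↥((S : Subgroup ↥A₁).map A₁.subtype) := S.isPGroup'.map _
    obtain ⟨P, hP⟩ := hSp.exists_le_sylow
    by_cases hpM : p ∣ Nat.card M
    · rcases hcyc p hpM P with hcyc | hle
      · obtain ⟨g, hg⟩ := IsCyclic.exists_generator (α := ↥P)
        have haP : (a : G) ∈ (P : Subgroup G) := hP ⟨a, ha, rfl⟩
        have hbP : (b : G) ∈ (P : Subgroup G) := hP ⟨b, hb, rfl⟩
        obtain ⟨i, hi⟩ := Subgroup.mem_zpowers_iff.mp (hg ⟨a, haP⟩)
        obtain ⟨j, hj⟩ := Subgroup.mem_zpowers_iff.mp (hg ⟨b, hbP⟩)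
        have hi' : (g : G) ^ i = a := by
          have := congrArg Subtype.val hi
          rwa [Subgroup.coe_zpow] at this
        have hj' : (g : G) ^ j = b := by
          have := congrArg Subtype.val hj
          rwa [Subgroup.coe_zpow] at this
        apply Subtype.ext
        rw [Subgroup.coe_mul, Subgroup.coe_mul, ← hi', ← hj', ← zpow_add, ← zpow_add, add_comm]
      · have hSk : (S : Subgroup ↥A₁) ≤ φ.ker := by
          intro s hs
          rw [MonoidHom.mem_ker, hφ]
          exact hle (hP ⟨s, hs, rfl⟩)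
        have := hnorm p S
        have hbot := ms_sylow_bot φ hmin' p S hSk
        have ha1 : a = 1 := by
          have : a ∈ (⊥ : Subgroup ↥A₁) := hbot ▸ ha
          simpa using this
        rw [ha1, one_mul, mul_one]
    · have hinj : ∀ s ∈ (S : Subgroup ↥A₁), φ s = 1 → s = 1 := by
        intro s hs h1
        have hsM : (s : G) ∈ M := (hφ s).mp h1
        obtain ⟨k, hk⟩ := (IsPGroup.iff_orderOf.mp S.isPGroup') ⟨s, hs⟩
        have hk' : orderOf (s : G) = p ^ k := by
          have e1 : orderOf (s : G) = orderOf s := Subgroup.orderOf_coe s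
          have e2 : orderOf (⟨s, hs⟩ : (S : Subgroup ↥A₁)) = orderOf s := Subgroup.orderOf_mk s hs
          rw [e1, ← e2, hk]
        have hdvd : orderOf (s : G) ∣ Nat.card M := by
          have := orderOf_dvd_natCard (⟨(s : G), hsM⟩ : M)
          rwa [Subgroup.orderOf_mk] at this
        have hk0 : k = 0 := by
          by_contra hk0
          exact hpM (dvd_trans (dvd_pow_self p hk0) (hk' ▸ hdvd))
        rw [hk0, pow_zero] at hk'
        have : (s : G) = 1 := orderOf_eq_one_iff.mp hk'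
        exact Subtype.ext this
      have hab' := hab a b
      have h2 : a * b * (b * a)⁻¹ = 1 :=
        hinj _ (S.mul_mem (S.mul_mem ha hb) (S.inv_mem (S.mul_mem hb ha)))
          (by rw [map_mul, map_inv, hab', mul_inv_cancel])
      exact mul_inv_eq_one.mp h2
  have hcomm := ms_comm (fun p _ S => hnorm p S) hSc
  have hcardA : Nat.card A₁ = Nat.card φ.ker * Nat.card Abar := by
    have := Subgroup.card_mul_index φ.ker
    rw [Subgroup.index_ker, hrange] at this
    exact this.symm
  have hκM : Nat.card φ.ker ∣ Nat.card M := by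
    have hle : (φ.ker).map A₁.subtype ≤ M := by
      rintro _ ⟨s, hs, rfl⟩
      exact (hφ s).mp hs
    have := Subgroup.card_dvd_of_le hle
    rwa [Subgroup.card_map_of_injective (Subgroup.subtype_injective _)] at this
  refine ⟨A₁, hA₁, ⟨⟨hcomm⟩⟩, Nat.card φ.ker, Nat.card_pos.ne', hcardA, ?_⟩
  intro p hp
  have hpF : Fact p.Prime := ⟨hp⟩
  have S : Sylow p ↥A₁ := default
  have hSn := hnorm p S
  split_ifs with hpA
  · apply le_antisymm
    · exact (Nat.factorization_le_iff_dvd Nat.card_pos.ne' Nat.card_pos.ne').mpr hκM p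
    · by_cases hpM : p ∣ Nat.card M
      · have hpX : p ∣ Nat.card ↥A₁ := by rw [hcardA]; exact dvd_mul_of_dvd_right hpA _
        have hSne := S.ne_bot_of_dvd_card hpX
        have hnk : ¬ (S : Subgroup ↥A₁) ≤ φ.ker := fun h => hSne (ms_sylow_bot φ hmin' p S h)
        obtain ⟨s, hs, hsk⟩ := Set.not_subset.mp hnk
        have hsM : (s : G) ∉ M := fun h => hsk ((hφ s).mpr h)
        have hSp : IsPGroup p ↥((S : Subgroup ↥A₁).map A₁.subtype) := S.isPGroup'.map _
        obtain ⟨P, hP⟩ := hSp.exists_le_sylow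
        have hsP : (s : G) ∈ (P : Subgroup G) := hP ⟨s, hs, rfl⟩
        have hcyc : IsCyclic P := by
          rcases hcyc p hpM P with hcyc | hle
          · exact hcyc
          · exact absurd (hle hsP) hsM
        have hchain : (P : Subgroup G) ⊓ M ≤ zpowers (s : G) :=
          le_zpowers_of_cyclic (P : Subgroup G) P.isPGroup' hcyc _ inf_le_left hsP
            (fun h => hsM h.2)
        have hle2 : (P : Subgroup G) ⊓ M ≤ (φ.ker).map A₁.subtype := by
          intro x hx
          have hxA : x ∈ A₁ := (zpowers_le.mpr s.2) (hchain hx)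
          exact ⟨⟨x, hxA⟩, (hφ ⟨x, hxA⟩).mpr hx.2, rfl⟩
        have hdvd := Subgroup.card_dvd_of_le hle2
        rw [Subgroup.card_map_of_injective (Subgroup.subtype_injective _)] at hdvd
        calc (Nat.card M).factorization p
            ≤ (Nat.card ((P : Subgroup G) ⊓ M : Subgroup G)).factorization p :=
              factorization_inf_normal P M
          _ ≤ (Nat.card φ.ker).factorization p :=
              (Nat.factorization_le_iff_dvd Nat.card_pos.ne' Nat.card_pos.ne').mpr hdvd p
      · rw [Nat.factorization_eq_zero_of_not_dvd hpM]; exact Nat.zero_le _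
  · apply Nat.factorization_eq_zero_of_not_dvd
    intro hpκ
    have hpX : p ∣ Nat.card ↥A₁ := dvd_trans hpκ (Subgroup.card_subgroup_dvd_card _)
    have hSne := S.ne_bot_of_dvd_card hpX
    have hSk : (S : Subgroup ↥A₁) ≤ φ.ker := by
      intro s hs
      rw [MonoidHom.mem_ker]
      obtain ⟨k, hk⟩ := (IsPGroup.iff_orderOf.mp S.isPGroup') ⟨s, hs⟩
      have h1 : orderOf (φ s) ∣ p ^ k := by
        rw [← hk, Subgroup.orderOf_mk]; exact orderOf_map_dvd φ s
      have h2 : orderOf (φ s) ∣ Nat.card Abar := by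
        have := orderOf_dvd_natCard (⟨φ s, hmemA s⟩ : Abar)
        rwa [Subgroup.orderOf_mk] at this
      have hcop : Nat.Coprime (p ^ k) (Nat.card Abar) :=
        Nat.Coprime.pow_left k ((Nat.Prime.coprime_iff_not_dvd hp).mpr hpA)
      exact orderOf_eq_one_iff.mp (Nat.eq_one_of_dvd_coprimes hcop h1 h2)
    exact hSne (ms_sylow_bot φ hmin' p S hSk)

/-- Property (B) passes to `G ⧸ M` when every Sylow `p`-subgroup of `G`, `p ∣ |M|`, is cyclic or
contained in `M`. -/
theorem quot_of_cyc {G : Type*} [Group G] [Finite G] (hB : BProp G) (M : Subgroup G) [M.Normal]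
    (hcyc : ∀ (p : ℕ) [Fact p.Prime], p ∣ Nat.card M → ∀ P : Sylow p G,
      IsCyclic P ∨ (P : Subgroup G) ≤ M) : BProp (G ⧸ M) := by
  intro A B hA hBc hcard
  obtain ⟨A₁, hA₁, hA₁c, κ, hκ0, hκ, hκf⟩ := exists_abelian_lift' M hcyc A hA
  obtain ⟨B₁, hB₁, hB₁c, κ', hκ'0, hκ', hκ'f⟩ := exists_abelian_lift' M hcyc B hBc
  have hκeq : κ = κ' := by
    apply Nat.eq_of_factorization_eq hκ0 hκ'0
    intro p
    by_cases hp : p.Prime
    · rw [hκf p hp, hκ'f p hp, hcard]
    · rw [Nat.factorization_eq_zero_of_not_prime _ hp, Nat.factorization_eq_zero_of_not_prime _ hp]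
  obtain ⟨g, hg⟩ := hB A₁ B₁ hA₁c hB₁c (by rw [hκ, hκ', hκeq, hcard])
  refine ⟨QuotientGroup.mk' M g, ?_⟩
  rw [← hB₁, ← hA₁, hg, Subgroup.map_map, Subgroup.map_map]
  congr 1

end Cfsg.Agent.H63.BQ
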