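import Mathlib
import Cfsg.Agent.H66.HHFDefs

set_option autoImplicit false

/-!
# Hall–Higman project S3786, piece IRR (helper63)

A minimal `B`-invariant subgroup between `Z` and `C` moved by `z` modulo `Z`.
-/

namespace Cfsg.Agent.H63.HHF

open Cfsg Cfsg.Agent.H66.HHF

universe u

/-- Abstract form: a commuting family of endomorphisms of a finite commutative group of order
prime to `p`, one of them (`z`) of order dividing `p` and nontrivial. -/
theorem irr_abs {A : Type u} [Group A] [Finite A] (hcomm : ∀ a b : A, a * b = b * a)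
    (p : ℕ) (hcop : (Nat.card A).Coprime p) {ι : Type*} (c : ι → A →* A)
    (hc : ∀ i j a, c i (c j a) = c j (c i a)) (z : ι) (hz : ∀ a, (c z)^[p] a = a)
    (hne : ∃ a, c z a ≠ a) :
    ∃ X : Subgroup A, (∀ i, ∀ a ∈ X, c i a ∈ X) ∧ X ≠ ⊥ ∧ (∀ a ∈ X, c z a = a → a = 1) ∧
      ∀ i, (∀ a ∈ X, c i a = a) ∨ (∀ a ∈ X, c i a = a → a = 1) := by
  classical
  let 𝒳 : Set (Subgroup A) := {X | (∀ i, ∀ a ∈ X, c i a ∈ X) ∧ ∃ a ∈ X, c z a ≠ a}
  have htop : (⊤ : Subgroup A) ∈ 𝒳 := by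
    refine ⟨fun _ _ _ => Subgroup.mem_top _, ?_⟩
    obtain ⟨a, ha⟩ := hne
    exact ⟨a, Subgroup.mem_top _, ha⟩
  obtain ⟨X, hXmin⟩ := (Set.toFinite 𝒳).exists_minimal ⟨⊤, htop⟩
  have hX : X ∈ 𝒳 := hXmin.1
  have hmin : ∀ Y ∈ 𝒳, Y ≤ X → X ≤ Y := fun Y hY hYX => hXmin.2 hY hYX
  obtain ⟨hinv, a₀, ha₀X, ha₀⟩ := hX
  -- the endomorphism `δ a = c z a * a⁻¹`
  let δ : A →* A := MonoidHom.mk' (fun a => c z a * a⁻¹) (by
    intro a b
    simp only [map_mul, mul_inv_rev]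
    have h1 : c z a * c z b * (b⁻¹ * a⁻¹) = c z a * ((c z b * b⁻¹) * a⁻¹) := by group
    rw [h1, hcomm (c z b * b⁻¹) a⁻¹]
    group)
  have hδ : ∀ a, δ a = c z a * a⁻¹ := fun a => rfl
  have hδc : ∀ i a, c i (δ a) = δ (c i a) := by
    intro i a
    rw [hδ, hδ, map_mul, map_inv, hc i z a]
  have hδX : ∀ a ∈ X, δ a ∈ X := fun a ha =>
    X.mul_mem (hinv z a ha) (X.inv_mem ha)
  -- the image `Y = δ X`
  have hY : X.map δ ∈ 𝒳 := by
    refine ⟨?_, ?_⟩
    · rintro i _ ⟨a, ha, rfl⟩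
      exact ⟨c i a, hinv i a ha, (hδc i a).symm⟩
    · by_contra hcon
      push Not at hcon
      apply ha₀
      -- every `u ∈ X` is fixed by `c z`
      have key : ∀ u ∈ X, c z u = u := by
        intro u hu
        set d := δ u with hd
        have hdfix : c z d = d := hcon d ⟨u, hu, rfl⟩
        have hcu : c z u = d * u := by rw [hd, hδ]; group
        have hit : ∀ k : ℕ, (c z)^[k] u = d ^ k * u := by
          intro k
          induction k with
          | zero => simp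
          | succ k ih =>
            rw [Function.iterate_succ_apply', ih, map_mul, map_pow, hdfix, hcu, pow_succ]
            group
        have hdp : d ^ p = 1 := by
          have h1 := hit p
          rw [hz u] at h1
          have : d ^ p * u = 1 * u := by rw [one_mul]; exact h1.symm
          exact mul_right_cancel this
        have hd1 : d = 1 := by
          have h1 : orderOf d ∣ p := orderOf_dvd_of_pow_eq_one hdp
          have h2 : orderOf d ∣ Nat.card A := orderOf_dvd_natCard d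
          have h3 : orderOf d = 1 := Nat.eq_one_of_dvd_coprimes hcop h2 h1
          exact orderOf_eq_one_iff.mp h3
        rw [hcu, hd1, one_mul]
      exact key a₀ ha₀X
  have hYX : X.map δ ≤ X := by
    rintro _ ⟨a, ha, rfl⟩
    exact hδX a ha
  have hXY : X ≤ X.map δ := hmin _ hY hYX
  -- `δ` is injective on `X`
  have hinj : ∀ a ∈ X, c z a = a → a = 1 := by
    intro a ha hfix
    let f : X → X := fun x => ⟨δ x.1, hδX x.1 x.2⟩
    have hsurj : Function.Surjective f := by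
      rintro ⟨b, hb⟩
      obtain ⟨a', ha', rfl⟩ := hXY hb
      exact ⟨⟨a', ha'⟩, rfl⟩
    have hfinj : Function.Injective f := Finite.injective_iff_surjective.mpr hsurj
    have h1 : f ⟨a, ha⟩ = f ⟨1, X.one_mem⟩ := by
      apply Subtype.ext
      show δ a = δ 1
      rw [map_one, hδ, hfix, mul_inv_cancel]
    have h2 := hfinj h1
    exact congrArg Subtype.val h2
  refine ⟨X, hinv, ?_, hinj, ?_⟩
  · intro hbot
    apply ha₀
    have : a₀ = 1 := by
      have := ha₀X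
      rw [hbot, Subgroup.mem_bot] at this
      exact this
    rw [this, map_one]
  · intro i
    by_cases hall : ∀ a ∈ X, c i a = a
    · exact Or.inl hall
    · right
      let Xi : Subgroup A := X ⊓ MonoidHom.eqLocus (c i) (MonoidHom.id A)
      have hXi : ∀ a, a ∈ Xi ↔ a ∈ X ∧ c i a = a := by
        intro a
        exact Iff.rfl
      have hXiX : Xi ≤ X := inf_le_left
      have hnot : Xi ∉ 𝒳 := by
        intro hmem
        have := hmin Xi hmem hXiX
        apply hall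
        intro a ha
        exact ((hXi a).mp (this ha)).2
      have hXiinv : ∀ j, ∀ a ∈ Xi, c j a ∈ Xi := by
        intro j a ha
        rw [hXi] at ha ⊢
        exact ⟨hinv j a ha.1, by rw [hc i j a, ha.2]⟩
      have hfixz : ∀ a ∈ Xi, c z a = a := by
        intro a ha
        by_contra hne'
        exact hnot ⟨hXiinv, a, ha, hne'⟩
      intro a ha hfix
      have haXi : a ∈ Xi := (hXi a).mpr ⟨ha, hfix⟩
      exact hinj a ha (hfixz a haXi)


theorem irr_holds : IrrStatement.{u} := by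
  intro H _ _ p _ B C Z hB hZC hcop hZcent hcomm hBC hBZ z hzB hzp hex
  classical
  have hN : (Z.subgroupOf C).Normal := by
    constructor
    intro ζ hζ x
    have hζ' : (ζ : H) ∈ Z := hζ
    have h := hZcent x.1 x.2 ζ.1 hζ'
    have h2 : x * ζ * x⁻¹ = ζ := by
      apply Subtype.ext
      show (x : H) * ζ * (x : H)⁻¹ = ζ
      rw [h]; group
    rw [h2]; exact hζ
  let π : ↥C →* ↥C ⧸ Z.subgroupOf C := QuotientGroup.mk' _
  have hπsurj : Function.Surjective π := QuotientGroup.mk'_surjective _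
  have hπone : ∀ x : ↥C, π x = 1 ↔ (x : H) ∈ Z := by
    intro x
    show (QuotientGroup.mk x : ↥C ⧸ Z.subgroupOf C) = 1 ↔ _
    rw [QuotientGroup.eq_one_iff]
    exact Iff.rfl
  let cj : ↥B → (↥C →* ↥C) := fun β =>
    { toFun := fun x => ⟨β.1 * x.1 * β.1⁻¹, hBC β.1 β.2 x.1 x.2⟩
      map_one' := by apply Subtype.ext; simp
      map_mul' := by intro x y; apply Subtype.ext; simp [mul_assoc] }
  have hcjval : ∀ (β : ↥B) (x : ↥C), ((cj β x : ↥C) : H) = β.1 * x.1 * β.1⁻¹ := fun _ _ => rfl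
  have hcjZ : ∀ β : ↥B, Z.subgroupOf C ≤ (Z.subgroupOf C).comap (cj β) := by
    intro β x hx
    exact hBZ β.1 β.2 x.1 hx
  let c : ↥B → ((↥C ⧸ Z.subgroupOf C) →* (↥C ⧸ Z.subgroupOf C)) :=
    fun β => QuotientGroup.map _ _ (cj β) (hcjZ β)
  have hcmk : ∀ (β : ↥B) (x : ↥C), c β (π x) = π (cj β x) := fun β x => rfl
  have hQcomm : ∀ a b : ↥C ⧸ Z.subgroupOf C, a * b = b * a := by
    intro a b
    obtain ⟨x, rfl⟩ := hπsurj a
    obtain ⟨y, rfl⟩ := hπsurj b
    rw [← map_mul, ← map_mul]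
    have h1 : π ((x * y) * (y * x)⁻¹) = 1 := by
      rw [hπone]
      have := hcomm x.1 x.2 y.1 y.2
      have h2 : (((x * y) * (y * x)⁻¹ : ↥C) : H) = x.1 * y.1 * x.1⁻¹ * y.1⁻¹ := by
        simp [mul_assoc]
      rw [h2]; exact this
    rw [map_mul, map_inv, mul_inv_eq_one] at h1
    exact h1
  have hfix : ∀ (β : ↥B) (x : ↥C), c β (π x) = π x ↔ β.1 * x.1 * β.1⁻¹ * x.1⁻¹ ∈ Z := by
    intro β x
    rw [hcmk, ← mul_inv_eq_one, ← map_inv, ← map_mul, hπone]
    exact Iff.rfl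
  have hc : ∀ (i j : ↥B) (a : ↥C ⧸ Z.subgroupOf C), c i (c j a) = c j (c i a) := by
    intro i j a
    obtain ⟨x, rfl⟩ := hπsurj a
    rw [hcmk, hcmk, hcmk, hcmk]
    congr 1
    apply Subtype.ext
    rw [hcjval, hcjval, hcjval, hcjval]
    have hij := hB i.1 i.2 j.1 j.2
    have e1 : i.1 * (j.1 * x.1 * j.1⁻¹) * i.1⁻¹ = (i.1 * j.1) * x.1 * (i.1 * j.1)⁻¹ := by group
    have e2 : j.1 * (i.1 * x.1 * i.1⁻¹) * j.1⁻¹ = (j.1 * i.1) * x.1 * (j.1 * i.1)⁻¹ := by group
    rw [e1, e2, hij]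
  let z' : ↥B := ⟨z, hzB⟩
  have hiter : ∀ (k : ℕ) (x : ↥C), (((cj z')^[k] x : ↥C) : H) = z ^ k * x.1 * (z ^ k)⁻¹ := by
    intro k
    induction k with
    | zero => intro x; simp
    | succ k ih =>
      intro x
      rw [Function.iterate_succ_apply', hcjval, ih]
      show z * (z ^ k * x.1 * (z ^ k)⁻¹) * z⁻¹ = z ^ (k + 1) * x.1 * (z ^ (k + 1))⁻¹
      rw [pow_succ']; group
  have hiterQ : ∀ (k : ℕ) (x : ↥C), (c z')^[k] (π x) = π ((cj z')^[k] x) := by
    intro k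
    induction k with
    | zero => intro x; rfl
    | succ k ih =>
      intro x
      rw [Function.iterate_succ_apply', ih, hcmk, Function.iterate_succ_apply']
  have hz : ∀ a : ↥C ⧸ Z.subgroupOf C, (c z')^[p] a = a := by
    intro a
    obtain ⟨x, rfl⟩ := hπsurj a
    rw [hiterQ]
    congr 1
    apply Subtype.ext
    rw [hiter, hzp]; simp
  have hcop' : (Nat.card (↥C ⧸ Z.subgroupOf C)).Coprime p := by
    have hdvd : Nat.card (↥C ⧸ Z.subgroupOf C) ∣ Nat.card ↥C :=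
      Subgroup.card_quotient_dvd_card _
    exact Nat.Coprime.coprime_dvd_left hdvd hcop
  have hne' : ∃ a, c z' a ≠ a := by
    obtain ⟨x, hxC, hx⟩ := hex
    refine ⟨π ⟨x, hxC⟩, ?_⟩
    intro h
    exact hx ((hfix z' ⟨x, hxC⟩).mp h)
  obtain ⟨Xb, hinv, hXne, hfp, halt⟩ := irr_abs hQcomm p hcop' c hc z' hz hne'
  have hXmem : ∀ x : H, x ∈ (Xb.comap π).map C.subtype ↔ ∃ hx : x ∈ C, π ⟨x, hx⟩ ∈ Xb := by
    intro x
    constructor
    · rintro ⟨y, hy, rfl⟩
      exact ⟨y.2, hy⟩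
    · rintro ⟨hx, h⟩
      exact ⟨⟨x, hx⟩, h, rfl⟩
  refine ⟨(Xb.comap π).map C.subtype, ?_, ?_, ?_, ?_, ?_, ?_⟩
  · intro ζ hζ
    rw [hXmem]
    refine ⟨hZC hζ, ?_⟩
    have : π ⟨ζ, hZC hζ⟩ = 1 := (hπone _).mpr hζ
    rw [this]; exact Xb.one_mem
  · rintro _ ⟨y, _, rfl⟩
    exact y.2
  · intro β hβ x hx
    rw [hXmem] at hx ⊢
    obtain ⟨hxC, hxX⟩ := hx
    refine ⟨hBC β hβ x hxC, ?_⟩
    have := hinv ⟨β, hβ⟩ _ hxX
    rw [hcmk] at this
    exact this
  · have : ∃ a ∈ Xb, a ≠ 1 := by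
      by_contra hcon
      push Not at hcon
      apply hXne
      rw [eq_bot_iff]
      intro a ha
      rw [Subgroup.mem_bot]; exact hcon a ha
    obtain ⟨a, ha, ha1⟩ := this
    obtain ⟨x, rfl⟩ := hπsurj a
    refine ⟨x.1, (hXmem _).mpr ⟨x.2, ha⟩, ?_⟩
    intro hxZ
    exact ha1 ((hπone x).mpr hxZ)
  · intro x hx hd
    rw [hXmem] at hx
    obtain ⟨hxC, hxX⟩ := hx
    have h1 : c z' (π ⟨x, hxC⟩) = π ⟨x, hxC⟩ := (hfix z' ⟨x, hxC⟩).mpr hd
    have h2 := hfp _ hxX h1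
    exact (hπone ⟨x, hxC⟩).mp h2
  · intro β hβ
    rcases halt ⟨β, hβ⟩ with h | h
    · left
      intro x hx
      rw [hXmem] at hx
      obtain ⟨hxC, hxX⟩ := hx
      exact (hfix ⟨β, hβ⟩ ⟨x, hxC⟩).mp (h _ hxX)
    · right
      intro x hx hd
      rw [hXmem] at hx
      obtain ⟨hxC, hxX⟩ := hx
      have h1 : c ⟨β, hβ⟩ (π ⟨x, hxC⟩) = π ⟨x, hxC⟩ := (hfix ⟨β, hβ⟩ ⟨x, hxC⟩).mpr hd
      exact (hπone ⟨x, hxC⟩).mp (h _ hxX h1)

example : IrrStatement.{u} := irr_holds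

end Cfsg.Agent.H63.HHF
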