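import Mathlib
import Cfsg.Agent.H66.HHFDefs
import Cfsg.Agent.H3.Critical
import Cfsg.Agent.H4.Alperin

set_option autoImplicit false

/-!
# Hall–Higman project S3786, piece NAB (helper63)

In a finite `p`-group `D` (`p` odd), a conjugation-closed set `S` of elements of order dividing
`p` which is not pairwise commuting yields a normal abelian subgroup `B` of exponent `p` inside
`⟨S⟩`, and `b ∈ B`, `s ∈ S` with `[b, s] ≠ 1` commuting with `s`.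
-/

namespace Cfsg.Agent.H63.HHF

open Cfsg Cfsg.Agent.H66.HHF

universe u

section NAB

variable {D : Type u} [Group D]

/-- Relative centre: for normal subgroups `K`, `L` of a finite `p`-group with `L ⊄ K`, some
`b ∈ L ∖ K` is central modulo `K`. -/
theorem nab_rel_center [Finite D] {p : ℕ} [Fact p.Prime] (hD : IsPGroup p D)
    (K L : Subgroup D) [K.Normal] [L.Normal] {x : D} (hxL : x ∈ L) (hxK : x ∉ K) :
    ∃ b ∈ L, b ∉ K ∧ ∀ d : D, d * b * d⁻¹ * b⁻¹ ∈ K := by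
  have hQ : IsPGroup p (D ⧸ K) := hD.to_quotient K
  have hsurj : Function.Surjective (QuotientGroup.mk' K) := QuotientGroup.mk'_surjective K
  have : (L.map (QuotientGroup.mk' K)).Normal := Subgroup.Normal.map inferInstance _ hsurj
  have hne : L.map (QuotientGroup.mk' K) ≠ ⊥ := by
    intro h
    have h1 : QuotientGroup.mk' K x ∈ L.map (QuotientGroup.mk' K) :=
      Subgroup.mem_map_of_mem _ hxL
    rw [h, Subgroup.mem_bot] at h1
    exact hxK ((QuotientGroup.eq_one_iff x).mp h1)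
  obtain ⟨z, hzN, hzc, hz1⟩ := Cfsg.Agent.H3.normal_inf_center_ne_bot hQ _ hne
  obtain ⟨b, hbL, rfl⟩ := Subgroup.mem_map.mp hzN
  refine ⟨b, hbL, ?_, ?_⟩
  · intro hbK
    exact hz1 ((QuotientGroup.eq_one_iff b).mpr hbK)
  · intro d
    have hcomm := Subgroup.mem_center_iff.mp hzc (QuotientGroup.mk' K d)
    have h1 : QuotientGroup.mk' K (d * b * d⁻¹ * b⁻¹) = 1 := by
      rw [map_mul, map_mul, map_mul, map_inv, map_inv, hcomm]; group
    exact (QuotientGroup.eq_one_iff _).mp h1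

/-- The centre of `M`, as a subgroup of `D`. -/
def nabZ (M : Subgroup D) : Subgroup D where
  carrier := {z | z ∈ M ∧ ∀ m ∈ M, m * z = z * m}
  one_mem' := ⟨M.one_mem, fun m _ => by simp⟩
  mul_mem' := by
    rintro a b ⟨ha, ha'⟩ ⟨hb, hb'⟩
    refine ⟨M.mul_mem ha hb, fun m hm => ?_⟩
    rw [← mul_assoc, ha' m hm, mul_assoc, hb' m hm, mul_assoc]
  inv_mem' := by
    rintro a ⟨ha, ha'⟩
    refine ⟨M.inv_mem ha, fun m hm => ?_⟩
    exact (show Commute m a from ha' m hm).inv_right.eq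

theorem mem_nabZ {M : Subgroup D} {z : D} :
    z ∈ nabZ M ↔ z ∈ M ∧ ∀ m ∈ M, m * z = z * m := Iff.rfl

theorem nabZ_normal (M : Subgroup D) [hM : M.Normal] : (nabZ M).Normal := by
  refine ⟨fun z hz d => ?_⟩
  obtain ⟨hzM, hzc⟩ := mem_nabZ.mp hz
  refine mem_nabZ.mpr ⟨hM.conj_mem z hzM d, fun m hm => ?_⟩
  have h1 : d⁻¹ * m * d ∈ M := by simpa using hM.conj_mem m hm d⁻¹
  have h2 := hzc _ h1
  calc m * (d * z * d⁻¹) = d * (d⁻¹ * m * d * z) * d⁻¹ := by group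
    _ = d * (z * (d⁻¹ * m * d)) * d⁻¹ := by rw [h2]
    _ = d * z * d⁻¹ * m := by group

/-- The second centre of `M`, as a subgroup of `D`. -/
def nabZ2 (M : Subgroup D) [hM : M.Normal] : Subgroup D where
  carrier := {u | u ∈ M ∧ ∀ m ∈ M, u * m * u⁻¹ * m⁻¹ ∈ nabZ M}
  one_mem' := ⟨M.one_mem, fun m _ => by simp⟩
  mul_mem' := by
    rintro a b ⟨ha, ha'⟩ ⟨hb, hb'⟩
    refine ⟨M.mul_mem ha hb, fun m hm => ?_⟩
    have h1 : a * (b * m * b⁻¹ * m⁻¹) * a⁻¹ ∈ nabZ M :=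
      (nabZ_normal M).conj_mem _ (hb' m hm) a
    have h2 := (nabZ M).mul_mem h1 (ha' m hm)
    have e : a * b * m * (a * b)⁻¹ * m⁻¹
        = a * (b * m * b⁻¹ * m⁻¹) * a⁻¹ * (a * m * a⁻¹ * m⁻¹) := by group
    rw [e]; exact h2
  inv_mem' := by
    rintro a ⟨ha, ha'⟩
    refine ⟨M.inv_mem ha, fun m hm => ?_⟩
    have h1 := (nabZ M).inv_mem (ha' m hm)
    have h2 := (nabZ_normal M).conj_mem _ h1 a⁻¹
    have e : a⁻¹ * m * a⁻¹⁻¹ * m⁻¹ = a⁻¹ * (a * m * a⁻¹ * m⁻¹)⁻¹ * a⁻¹⁻¹ := by group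
    rw [e]; exact h2

theorem mem_nabZ2 {M : Subgroup D} [hM : M.Normal] {u : D} :
    u ∈ nabZ2 M ↔ u ∈ M ∧ ∀ m ∈ M, u * m * u⁻¹ * m⁻¹ ∈ nabZ M := Iff.rfl

theorem nabZ2_normal (M : Subgroup D) [hM : M.Normal] : (nabZ2 M).Normal := by
  refine ⟨fun u hu d => ?_⟩
  obtain ⟨huM, huc⟩ := mem_nabZ2.mp hu
  refine mem_nabZ2.mpr ⟨hM.conj_mem u huM d, fun m hm => ?_⟩
  have h1 : d⁻¹ * m * d ∈ M := by simpa using hM.conj_mem m hm d⁻¹
  have h2 := (nabZ_normal M).conj_mem _ (huc _ h1) d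
  have e : d * u * d⁻¹ * m * (d * u * d⁻¹)⁻¹ * m⁻¹
      = d * (u * (d⁻¹ * m * d) * u⁻¹ * (d⁻¹ * m * d)⁻¹) * d⁻¹ := by group
  rw [e]; exact h2

/-- The class-two power formula in the second centre, for `p` odd. -/
theorem nab_mul_pow (M : Subgroup D) [hM : M.Normal] {p : ℕ} [hp : Fact p.Prime] (hp2 : p ≠ 2)
    {u v : D} (hu : u ∈ nabZ2 M) (hv : v ∈ M) (hvp : v ^ p = 1) :
    (u * v) ^ p = u ^ p := by
  have huM : u ∈ M := (mem_nabZ2.mp hu).1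
  have hcZ : v⁻¹ * u⁻¹ * v * u ∈ nabZ M := by
    have h1 := (mem_nabZ2.mp ((nabZ2 M).inv_mem hu)).2 v hv
    have h2 := (nabZ_normal M).conj_mem _ h1 v⁻¹
    have e : v⁻¹ * u⁻¹ * v * u = v⁻¹ * (u⁻¹ * v * u⁻¹⁻¹ * v⁻¹) * v⁻¹⁻¹ := by group
    rw [e]; exact h2
  obtain ⟨c, hcdef⟩ : ∃ c : D, c = v⁻¹ * u⁻¹ * v * u := ⟨_, rfl⟩
  rw [← hcdef] at hcZ
  have hc : v * u = u * v * c := by rw [hcdef]; group
  have hcu : Commute c u := ((mem_nabZ.mp hcZ).2 u huM).symm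
  have hcv : Commute c v := ((mem_nabZ.mp hcZ).2 v hv).symm
  have hcp : c ^ p = 1 := by
    have h := Cfsg.Agent.H4.pow_mul_of_class_two u v c hc hcv p
    rw [hvp, one_mul, mul_one] at h
    exact mul_left_cancel (a := u) (by rw [mul_one]; exact h.symm)
  have hp3 : 2 < p := lt_of_le_of_ne hp.out.two_le (Ne.symm hp2)
  have hdvd : p ∣ p.choose 2 := hp.out.dvd_choose_self (by norm_num) hp3
  obtain ⟨k, hk⟩ := hdvd
  rw [Cfsg.Agent.H4.mul_pow_of_class_two u v c hc hcu hcv p, hvp, mul_one, hk, pow_mul, hcp,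
    one_pow, mul_one]

/-- `Ω₁` of the second centre of `M` (a subgroup as `p` is odd). -/
def nabOmega (M : Subgroup D) [hM : M.Normal] (p : ℕ) [hp : Fact p.Prime] (hp2 : p ≠ 2) :
    Subgroup D where
  carrier := {u | u ∈ nabZ2 M ∧ u ^ p = 1}
  one_mem' := ⟨(nabZ2 M).one_mem, one_pow _⟩
  mul_mem' := by
    rintro a b ⟨ha, ha'⟩ ⟨hb, hb'⟩
    refine ⟨(nabZ2 M).mul_mem ha hb, ?_⟩
    show (a * b) ^ p = 1
    rw [nab_mul_pow M hp2 ha (mem_nabZ2.mp hb).1 hb', ha']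
  inv_mem' := by
    rintro a ⟨ha, ha'⟩
    exact ⟨(nabZ2 M).inv_mem ha, by show a⁻¹ ^ p = 1; rw [inv_pow, ha', inv_one]⟩

theorem mem_nabOmega {M : Subgroup D} [hM : M.Normal] {p : ℕ} [hp : Fact p.Prime] {hp2 : p ≠ 2}
    {u : D} : u ∈ nabOmega M p hp2 ↔ u ∈ nabZ2 M ∧ u ^ p = 1 := Iff.rfl

theorem nabOmega_normal (M : Subgroup D) [hM : M.Normal] (p : ℕ) [hp : Fact p.Prime]
    (hp2 : p ≠ 2) : (nabOmega M p hp2).Normal := by
  refine ⟨fun u hu d => ?_⟩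
  obtain ⟨hu1, hu2⟩ := mem_nabOmega.mp hu
  refine mem_nabOmega.mpr ⟨(nabZ2_normal M).conj_mem u hu1 d, ?_⟩
  rw [conj_pow, hu2, mul_one, mul_inv_cancel]

/-- The elements `m` with `[x, m] ∈ N`, for `N` normal. -/
def nabCommSub (N : Subgroup D) [hN : N.Normal] (x : D) : Subgroup D where
  carrier := {m | x * m * x⁻¹ * m⁻¹ ∈ N}
  one_mem' := by
    show x * 1 * x⁻¹ * 1⁻¹ ∈ N
    simp
  mul_mem' := by
    intro a b ha hb
    have h1 := hN.conj_mem _ hb a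
    have e : x * (a * b) * x⁻¹ * (a * b)⁻¹
        = (x * a * x⁻¹ * a⁻¹) * (a * (x * b * x⁻¹ * b⁻¹) * a⁻¹) := by group
    show x * (a * b) * x⁻¹ * (a * b)⁻¹ ∈ N
    rw [e]; exact N.mul_mem ha h1
  inv_mem' := by
    intro a ha
    have h1 := hN.conj_mem _ (N.inv_mem ha) a⁻¹
    have e : x * a⁻¹ * x⁻¹ * a⁻¹⁻¹ = a⁻¹ * (x * a * x⁻¹ * a⁻¹)⁻¹ * a⁻¹⁻¹ := by group
    show x * a⁻¹ * x⁻¹ * a⁻¹⁻¹ ∈ N
    rw [e]; exact h1

theorem mem_nabCommSub {N : Subgroup D} [hN : N.Normal] {x m : D} :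
    m ∈ nabCommSub N x ↔ x * m * x⁻¹ * m⁻¹ ∈ N := Iff.rfl

/-- `N ⟨b⟩` for `b` commuting with `N`. -/
def nabB (N : Subgroup D) (b : D) (hb : ∀ w ∈ N, w * b = b * w) : Subgroup D where
  carrier := {x | ∃ w ∈ N, ∃ k : ℤ, x = w * b ^ k}
  one_mem' := ⟨1, N.one_mem, 0, by simp⟩
  mul_mem' := by
    rintro _ _ ⟨w, hw, k, rfl⟩ ⟨w', hw', k', rfl⟩
    refine ⟨w * w', N.mul_mem hw hw', k + k', ?_⟩
    have h1 : Commute w' (b ^ k) := (show Commute w' b from hb w' hw').zpow_right k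
    rw [zpow_add, mul_assoc w, ← mul_assoc (b ^ k), ← h1.eq, mul_assoc, mul_assoc]
  inv_mem' := by
    rintro _ ⟨w, hw, k, rfl⟩
    refine ⟨w⁻¹, N.inv_mem hw, -k, ?_⟩
    have h1 : Commute w (b ^ k) := (show Commute w b from hb w hw).zpow_right k
    rw [mul_inv_rev, zpow_neg]
    exact h1.inv_inv.eq.symm

theorem mem_nabB {N : Subgroup D} {b : D} {hb : ∀ w ∈ N, w * b = b * w} {x : D} :
    x ∈ nabB N b hb ↔ ∃ w ∈ N, ∃ k : ℤ, x = w * b ^ k := Iff.rfl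

theorem nab_aux [Finite D] {p : ℕ} [hp : Fact p.Prime] (hp2 : p ≠ 2) (hD : IsPGroup p D)
    (S : Set D) (hSp : ∀ s ∈ S, s ^ p = 1) (hSconj : ∀ d : D, ∀ s ∈ S, d * s * d⁻¹ ∈ S)
    (hSnc : ¬ ∀ s ∈ S, ∀ t ∈ S, s * t = t * s)
    (M : Subgroup D) [hM : M.Normal] (hSM : ∀ s ∈ S, s ∈ M)
    (hgen : ∀ K : Subgroup D, (∀ s ∈ S, s ∈ K) → M ≤ K) :
    ∃ B : Subgroup D, B ≤ M ∧ B.Normal ∧ (∀ a ∈ B, ∀ b ∈ B, a * b = b * a) ∧
      (∀ b ∈ B, b ^ p = 1) ∧ ∃ b ∈ B, ∃ s ∈ S, b * s ≠ s * b ∧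
        (b * s * b⁻¹ * s⁻¹) * s = s * (b * s * b⁻¹ * s⁻¹) := by
  have hZn : (nabZ M).Normal := nabZ_normal M
  have hZ2n : (nabZ2 M).Normal := nabZ2_normal M
  have hOn : (nabOmega M p hp2).Normal := nabOmega_normal M p hp2
  -- Step 1: an element of `Ω` outside the centre of `M`
  have step1 : ∃ w ∈ nabOmega M p hp2, w ∉ nabZ M := by
    by_cases hSZ2 : ∀ s ∈ S, s ∈ nabZ2 M
    · by_contra hcon
      push Not at hcon
      apply hSnc
      intro s hs t ht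
      have hsO : s ∈ nabOmega M p hp2 := mem_nabOmega.mpr ⟨hSZ2 s hs, hSp s hs⟩
      have hsZ := hcon s hsO
      exact ((mem_nabZ.mp hsZ).2 t (hSM t ht)).symm
    · push Not at hSZ2
      obtain ⟨s₀, hs₀, hs₀Z2⟩ := hSZ2
      obtain ⟨u₃, hu₃M, hu₃Z2, hu₃c⟩ := nab_rel_center hD (nabZ2 M) M (hSM s₀ hs₀) hs₀Z2
      have hex : ∃ s ∈ S, u₃ * s * u₃⁻¹ * s⁻¹ ∉ nabZ M := by
        by_contra hcon
        push Not at hcon
        apply hu₃Z2
        have hle := hgen (nabCommSub (nabZ M) u₃) (fun s hs => mem_nabCommSub.mpr (hcon s hs))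
        exact mem_nabZ2.mpr ⟨hu₃M, fun m hm => mem_nabCommSub.mp (hle hm)⟩
      obtain ⟨s, hs, hws⟩ := hex
      have hwZ2 : u₃ * s * u₃⁻¹ * s⁻¹ ∈ nabZ2 M := by
        have h1 := (nabZ2 M).inv_mem (hu₃c s)
        have e : u₃ * s * u₃⁻¹ * s⁻¹ = (s * u₃ * s⁻¹ * u₃⁻¹)⁻¹ := by group
        rw [e]; exact h1
      refine ⟨u₃ * s * u₃⁻¹ * s⁻¹, mem_nabOmega.mpr ⟨hwZ2, ?_⟩, hws⟩
      have h := nab_mul_pow M hp2 hwZ2 (hSM s hs) (hSp s hs)
      rw [← h]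
      have e : u₃ * s * u₃⁻¹ * s⁻¹ * s = u₃ * s * u₃⁻¹ := by group
      rw [e]
      exact hSp _ (hSconj u₃ s hs)
  obtain ⟨w, hwO, hwZ⟩ := step1
  -- Step 2: an element of `Ω` outside `Z(M)`, central in `D` modulo `Ω ∩ Z(M)`
  obtain ⟨N, hNdef⟩ : ∃ N : Subgroup D, N = nabOmega M p hp2 ⊓ nabZ M := ⟨_, rfl⟩
  have hNn : N.Normal := by rw [hNdef]; infer_instance
  have hNO : ∀ x ∈ N, x ∈ nabOmega M p hp2 := fun x hx => by
    rw [hNdef] at hx; exact hx.1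
  have hNZ : ∀ x ∈ N, x ∈ nabZ M := fun x hx => by
    rw [hNdef] at hx; exact hx.2
  have hwN : w ∉ N := fun h => hwZ (hNZ w h)
  obtain ⟨b, hbO, hbN, hbc⟩ := nab_rel_center hD N (nabOmega M p hp2) hwO hwN
  have hbM : b ∈ M := (mem_nabZ2.mp (mem_nabOmega.mp hbO).1).1
  have hbZ : b ∉ nabZ M := fun h => hbN (by rw [hNdef]; exact ⟨hbO, h⟩)
  have hbp : b ^ p = 1 := (mem_nabOmega.mp hbO).2
  have hNb : ∀ w ∈ N, w * b = b * w := fun w hw => ((mem_nabZ.mp (hNZ w hw)).2 b hbM).symm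
  refine ⟨nabB N b hNb, ?_, ?_, ?_, ?_, ?_⟩
  · intro x hx
    obtain ⟨w, hw, k, rfl⟩ := mem_nabB.mp hx
    exact M.mul_mem (mem_nabZ.mp (hNZ w hw)).1 (M.zpow_mem hbM k)
  · refine ⟨fun x hx d => ?_⟩
    obtain ⟨w, hw, k, rfl⟩ := mem_nabB.mp hx
    have hc := hbc d
    obtain ⟨c, hcdef⟩ : ∃ c : D, c = d * b * d⁻¹ * b⁻¹ := ⟨_, rfl⟩
    rw [← hcdef] at hc
    have hcb : Commute c b := hNb c hc
    refine mem_nabB.mpr ⟨d * w * d⁻¹ * c ^ k,
      N.mul_mem (hNn.conj_mem w hw d) (N.zpow_mem hc k), k, ?_⟩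
    have e1 : d * b * d⁻¹ = c * b := by rw [hcdef]; group
    have e2 : d * (w * b ^ k) * d⁻¹ = d * w * d⁻¹ * (d * b * d⁻¹) ^ k := by
      rw [conj_zpow]; group
    rw [e2, e1, hcb.mul_zpow]
    simp only [mul_assoc]
  · intro x hx y hy
    obtain ⟨w, hw, k, rfl⟩ := mem_nabB.mp hx
    obtain ⟨w', hw', k', rfl⟩ := mem_nabB.mp hy
    have h1 : Commute w' (b ^ k) := (show Commute w' b from hNb w' hw').zpow_right k
    have h2 : Commute w (b ^ k') := (show Commute w b from hNb w hw).zpow_right k'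
    have h3 : Commute w w' := (mem_nabZ.mp (hNZ w' hw')).2 w (mem_nabZ.mp (hNZ w hw)).1
    have h4 : Commute (b ^ k) (b ^ k') := (Commute.refl b).zpow_zpow k k'
    exact ((h3.mul_right h2).mul_left (h1.symm.mul_right h4)).eq
  · intro x hx
    obtain ⟨w, hw, k, rfl⟩ := mem_nabB.mp hx
    have h1 : Commute w (b ^ k) := (show Commute w b from hNb w hw).zpow_right k
    rw [h1.mul_pow, (mem_nabOmega.mp (hNO w hw)).2, one_mul, ← zpow_natCast, ← zpow_mul,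
      mul_comm, zpow_mul, zpow_natCast, hbp, one_zpow]
  · refine ⟨b, mem_nabB.mpr ⟨1, N.one_mem, 1, by simp⟩, ?_⟩
    have hex : ∃ s ∈ S, b * s ≠ s * b := by
      by_contra hcon
      push Not at hcon
      apply hbZ
      have hle := hgen (Subgroup.centralizer {b}) (fun s hs => by
        rw [Subgroup.mem_centralizer_iff]
        intro h hh
        rw [Set.mem_singleton_iff] at hh
        rw [hh]; exact hcon s hs)
      refine mem_nabZ.mpr ⟨hbM, fun m hm => ?_⟩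
      have h5 := hle hm
      rw [Subgroup.mem_centralizer_iff] at h5
      exact (h5 b rfl).symm
    obtain ⟨s, hs, hbs⟩ := hex
    refine ⟨s, hs, hbs, ?_⟩
    have h1 : s * b * s⁻¹ * b⁻¹ ∈ N := hbc s
    have h2 : b * s * b⁻¹ * s⁻¹ ∈ nabZ M := by
      have e : b * s * b⁻¹ * s⁻¹ = (s * b * s⁻¹ * b⁻¹)⁻¹ := by group
      rw [e]; exact (nabZ M).inv_mem (hNZ _ h1)
    exact ((mem_nabZ.mp h2).2 s (hSM s hs)).symm

end NAB

/-- **NAB** (piece of the Hall–Higman project S3786). -/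
theorem nab_holds : NABStatement.{u} := by
  intro D _ _ p _ hp2 hD S hSp hSconj hSnc
  have hM : (Subgroup.closure S).Normal := by
    refine ⟨fun m hm d => ?_⟩
    induction hm using Subgroup.closure_induction with
    | mem x hx => exact Subgroup.subset_closure (hSconj d x hx)
    | one => rw [mul_one, mul_inv_cancel]; exact Subgroup.one_mem _
    | mul x y _ _ hx hy =>
      have e : d * (x * y) * d⁻¹ = (d * x * d⁻¹) * (d * y * d⁻¹) := by group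
      rw [e]; exact Subgroup.mul_mem _ hx hy
    | inv x _ hx =>
      have e : d * x⁻¹ * d⁻¹ = (d * x * d⁻¹)⁻¹ := by group
      rw [e]; exact Subgroup.inv_mem _ hx
  exact nab_aux hp2 hD S hSp hSconj hSnc (Subgroup.closure S)
    (fun s hs => Subgroup.subset_closure hs)
    (fun K hK => (Subgroup.closure_le K).mpr hK)

example : NABStatement.{u} := nab_holds

end Cfsg.Agent.H63.HHF
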