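import Cfsg.Agent.H52.JxDefs
import Cfsg.Agent.H4.JkA
import Cfsg.Agent.Helper55.J48

/-!
# JY-KILL2 (S2953), piece (X2) PF: the 2-core of `P = K ⊔ T`

For a `Base S M T K L`: `O₂(K ⊔ T) ≤ T`, `O₂(K ⊔ T) ≠ 1` and `K ⊔ T` normalizes `O₂(K ⊔ T)`.
`T` is a Sylow 2-subgroup of `L` (JK-A, from S2950) and `T ≤ K ⊔ T ≤ L`, so `T` is a Sylow
2-subgroup of `K ⊔ T`.
-/

set_option autoImplicit false
open Cfsg

namespace Cfsg.Agent.H63.Jx2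

universe u

/-- PF, stated inline. -/
theorem pf_inline {G : Type u} [Group G] [Finite G] (S : Sylow 2 G) (M T K L : Subgroup G)
    (hB : Cfsg.Agent.H64.Jz.Base S M T K L) :
    pCoreOf 2 (K ⊔ T) ≤ T ∧ pCoreOf 2 (K ⊔ T) ≠ ⊥ ∧
      K ⊔ T ≤ Subgroup.normalizer (pCoreOf 2 (K ⊔ T) : Set G) := by
  have hka := Cfsg.Agent.H4.Jk.ka S M T K L hB
  obtain ⟨hsyl, -, -⟩ := hka.1
  obtain ⟨-, -, -, -, -, -, hK, -, hKL⟩ := hB
  have hTL : T ≤ L := hsyl.1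
  have hPL : K ⊔ T ≤ L := sup_le (le_sup_left.trans hKL) hTL
  have hTP : T ≤ K ⊔ T := le_sup_right
  have hsylP : IsSylowTwoIn T (K ⊔ T) := by
    refine ⟨hTP, hsyl.2.1, ?_⟩
    have h := Subgroup.relIndex_mul_relIndex T (K ⊔ T) L hTP hPL
    have hodd := hsyl.2.2
    rw [← h] at hodd
    exact (Nat.odd_mul.mp hodd).1
  exact ⟨Cfsg.Agent.Helper55.J48.pCoreOf_le_of_sylowIn hsylP, hK.2.2,
    Cfsg.Agent.Helper55.J48.le_normalizer_pCoreOf (K ⊔ T)⟩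

/-- JX-PF (piece (X2) of JY-KILL2). -/
theorem pf : Cfsg.Agent.H52.Jx.StPF.{u} := by
  intro G _ _ S M T K L hB
  exact pf_inline S M T K L hB

end Cfsg.Agent.H63.Jx2

universe u in
example : Cfsg.Agent.H52.Jx.StPF.{u} := Cfsg.Agent.H63.Jx2.pf
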