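import Cfsg.Agent.H23.StbDecDefs2

/-!
# S2156 team project (helper23), piece SD-NF1 (helper63)

Every automorphism is, up to an inner automorphism, one that maps `X_{±α_i}` onto `X_{±α_{π i}}`
through additive bijections of the field, for an adjacency-preserving injection `π` of the nodes
(assembly of SYL, OPP, NEG, POSG, MATCHG, ROOTMAPG; helper35's ASM1G without the rigidity step).
-/

set_option autoImplicit false

universe u

namespace Cfsg.Agent.H63.StbD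

open Cfsg.Lie Cfsg.Agent.H23 Cfsg.Agent.H23.Stb Cfsg.Agent.H78.StbG Cfsg.Agent.H23.StbD

/-- SD-NF1 -/
theorem nf1 (h1 : StSyl.{u}) (h2 : StOpp.{u}) (h3 : StNeg.{u}) (h4 : StPosG.{u})
    (h5 : StMatchG.{u}) (h6 : StRootMapG.{u}) : StNF1.{u} := by
  intro D F _ _ p _ z η rT w0 hC adj τ hSyl hτlt hττ hw0 hc2 hadj θ
  obtain ⟨g₁, hg₁⟩ := h1 D F p θ hSyl
  obtain ⟨u, hu1, hu2⟩ := h2 D F z η rT w0 hC (conjL g₁ θ) hg₁
  have hconj : conjL u (conjL g₁ θ) = conjL (u * g₁) θ := by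
    apply MulEquiv.ext
    intro y
    rw [conjL_apply, conjL_apply, conjL_apply]
    group
  have hneg := h3 D F z η rT w0 hC (conjL u (conjL g₁ θ)) hu1 hu2
  have hpos := h4 D F z η rT w0 hC (conjL u (conjL g₁ θ)) τ hτlt hττ hw0 hu1 hu2
  obtain ⟨π, hπlt, hπinj, hπadj, hπ⟩ :=
    h5 D F z η rT w0 hC (conjL u (conjL g₁ θ)) adj hpos hneg hc2 hadj
  rw [hconj] at hπ
  have hex : ∀ i : ℕ, ∃ φψ : (F ≃+ F) × (F ≃+ F), i < D.rank →
      (∀ t : F, conjL (u * g₁) θ (xG hC.hP.sem (D.simple i) t) =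
        xG hC.hP.sem (D.simple (π i)) (φψ.1 t)) ∧
      (∀ t : F, conjL (u * g₁) θ (xG hC.hP.sem (D.neg (D.simple i)) t) =
        xG hC.hP.sem (D.neg (D.simple (π i))) (φψ.2 t)) := by
    intro i
    by_cases hi : i < D.rank
    · obtain ⟨hr1, hr2⟩ := hπ i hi
      have hlt : D.simple i < D.nroots := hC.hP.tab.simple_lt i hi
      have hlt' : D.simple (π i) < D.nroots := hC.hP.tab.simple_lt (π i) (hπlt i hi)
      obtain ⟨φ, hφ⟩ := h6 D F z η hC.hP (conjL (u * g₁) θ) (D.simple i) (D.simple (π i))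
        hlt hlt' hr1
      obtain ⟨ψ, hψ⟩ := h6 D F z η hC.hP (conjL (u * g₁) θ) (D.neg (D.simple i))
        (D.neg (D.simple (π i))) (hC.hP.tab.neg_lt _ hlt) (hC.hP.tab.neg_lt _ hlt') hr2
      exact ⟨(φ, ψ), fun _ => ⟨hφ, hψ⟩⟩
    · exact ⟨(AddEquiv.refl F, AddEquiv.refl F), fun h => absurd h hi⟩
  choose φψ hφψ using hex
  exact ⟨u * g₁, π, fun i => (φψ i).1, fun i => (φψ i).2, hπlt, hπinj, hπadj,
    fun i hi => (hφψ i hi).1, fun i hi => (hφψ i hi).2⟩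

end Cfsg.Agent.H63.StbD

namespace Cfsg.Agent.H63.StbDNF1Check

open Cfsg.Lie Cfsg.Agent.H23 Cfsg.Agent.H23.Stb Cfsg.Agent.H78.StbG Cfsg.Agent.H23.StbD

example (h1 : StSyl.{u}) (h2 : StOpp.{u}) (h3 : StNeg.{u}) (h4 : Cfsg.Agent.H78.StbG.StPosG.{u})
    (h5 : Cfsg.Agent.H78.StbG.StMatchG.{u}) (h6 : StRootMapG.{u}) :
    Cfsg.Agent.H23.StbD.StNF1.{u} :=
  Cfsg.Agent.H63.StbD.nf1 h1 h2 h3 h4 h5 h6

end Cfsg.Agent.H63.StbDNF1Check
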