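import Mathlib
import Cfsg.Agent.H77.UfDefs

/-!
# UF-SYLT (helper63, for helper77's S2149 project)

Sylow transport of the bound `|N(X)| ∣ 21` from one subgroup of order 7 to all of them, when `7`
divides the group order exactly once.
-/

set_option autoImplicit false

namespace Cfsg.Agent.H63.Uf

open Cfsg.Agent.H77.Uf

universe u

theorem sylT : StSylT.{u} := by
  intro G _ _ m hG hm X₀ h0 hN X hX
  have : Fact (Nat.Prime 7) := ⟨by norm_num⟩
  have hm0 : m ≠ 0 := by
    rintro rfl
    exact hm (dvd_zero 7)
  have hfac : (Nat.card G).factorization 7 = 1 := by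
    rw [hG, Nat.factorization_mul (by norm_num) hm0, Finsupp.add_apply,
      Nat.Prime.factorization_self (by norm_num), Nat.factorization_eq_zero_of_not_dvd hm]
  have hc0 : Nat.card X₀ = 7 ^ (Nat.card G).factorization 7 := by rw [hfac, h0, pow_one]
  have hc : Nat.card X = 7 ^ (Nat.card G).factorization 7 := by rw [hfac, hX, pow_one]
  have h1 := Sylow.card_eq_index_normalizer (Sylow.ofCard X₀ hc0)
  have h2 := Sylow.card_eq_index_normalizer (Sylow.ofCard X hc)
  have h3 : (Subgroup.normalizer (X : Set G)).index =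
      (Subgroup.normalizer (X₀ : Set G)).index := by
    have e1 : (Subgroup.normalizer ((Sylow.ofCard X hc : Sylow 7 G) : Set G)).index =
        (Subgroup.normalizer ((Sylow.ofCard X₀ hc0 : Sylow 7 G) : Set G)).index := by
      rw [← h1, ← h2]
    exact e1
  have h4 := Subgroup.card_mul_index (Subgroup.normalizer (X : Set G))
  have h5 := Subgroup.card_mul_index (Subgroup.normalizer (X₀ : Set G))
  rw [h3] at h4
  rw [← h5] at h4
  have h6 : Nat.card (Subgroup.normalizer (X : Set G)) =
      Nat.card (Subgroup.normalizer (X₀ : Set G)) :=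
    Nat.eq_of_mul_eq_mul_right
      (Nat.pos_of_ne_zero (Subgroup.index_ne_zero_of_finite)) h4
  rw [h6]
  exact hN

end Cfsg.Agent.H63.Uf

universe u
example : Cfsg.Agent.H77.Uf.StSylT.{u} := Cfsg.Agent.H63.Uf.sylT
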