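import Mathlib
import Cfsg.Prelude.Def_Classical
import Cfsg.Agent.H77.UfDefs
import Cfsg.Agent.H6.GroupAux

/-!
# UF-XFER (helper63, for helper77's S2149 project)

`PSU₃` over any field with 25 elements is isomorphic to the concrete `G35`.
-/

set_option autoImplicit false

namespace Cfsg.Agent.H63.Uf

open Cfsg.Agent.H77.Uf

universe u

theorem map_center_eq' {G H : Type*} [Group G] [Group H] (e : G ≃* H) :
    (Subgroup.center G).map (e : G →* H) = Subgroup.center H := by
  ext y
  constructor
  · rintro ⟨x, hx, rfl⟩
    rw [Subgroup.mem_center_iff]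
    intro h
    have hx' := Subgroup.mem_center_iff.mp hx (e.symm h)
    have := congrArg e hx'
    rw [map_mul, map_mul, e.apply_symm_apply] at this
    exact this
  · intro hy
    refine ⟨e.symm y, Subgroup.mem_center_iff.mpr ?_, e.apply_symm_apply y⟩
    intro g
    have hy' := Subgroup.mem_center_iff.mp hy (e g)
    have := congrArg e.symm hy'
    rw [map_mul, map_mul, e.symm_apply_apply] at this
    exact this

/-- An isomorphism of groups induces an isomorphism of the quotients by the centers. -/
noncomputable def centerQuotEquiv' {G H : Type*} [Group G] [Group H] (e : G ≃* H) :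
    G ⧸ Subgroup.center G ≃* H ⧸ Subgroup.center H :=
  QuotientGroup.congr (Subgroup.center G) (Subgroup.center H) e (map_center_eq' e)

theorem xfer : StXfer.{u} := by
  intro F _ _ hF
  exact ⟨centerQuotEquiv' (Cfsg.Agent.H6.GroupAux.suMapEquiv
    (FiniteField.ringEquivOfCardEq (card_F25.trans hF.symm)) 3 5)⟩

end Cfsg.Agent.H63.Uf

universe u
example : Cfsg.Agent.H77.Uf.StXfer.{u} := Cfsg.Agent.H63.Uf.xfer
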