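import Mathlib
import Cfsg.Agent.H77.UfDefs

/-!
# UF-XFERIDX (helper63, for helper77's S2149 project)

Transport of "every proper subgroup has index at least 50 and some subgroup has index 50"
along a group isomorphism.
-/

set_option autoImplicit false

namespace Cfsg.Agent.H63.Uf

open Cfsg.Agent.H77.Uf

universe u v

theorem xferIdx : StXferIdx.{u, v} := by
  intro G G' _ _ e h
  obtain ⟨h1, H, hH⟩ := h
  refine ⟨?_, ?_⟩
  · intro H' hH'
    have hidx : (H'.comap (e : G →* G')).index = H'.index :=
      Subgroup.index_comap_of_surjective H' e.surjective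
    rw [← hidx]
    apply h1
    intro htop
    apply hH'
    rw [eq_top_iff]
    intro y _
    have hy : e.symm y ∈ H'.comap (e : G →* G') := by
      rw [htop]
      exact Subgroup.mem_top _
    have hy' : e (e.symm y) ∈ H' := hy
    rwa [e.apply_symm_apply] at hy'
  · refine ⟨H.comap (e.symm : G' →* G), ?_⟩
    rw [Subgroup.index_comap_of_surjective H e.symm.surjective]
    exact hH

end Cfsg.Agent.H63.Uf

universe u v
example : Cfsg.Agent.H77.Uf.StXferIdx.{u, v} := Cfsg.Agent.H63.Uf.xferIdx
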